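import Cfsg.Agent.Lib.H79.BlkExt
import Cfsg.Agent.Lib.H78.Cover
import Cfsg.Agent.Lib.H82.Deg

/-!
# Sum of the squares of the degrees in the principal block
-/

set_option autoImplicit false
set_option linter.unusedSectionVars false
set_option linter.style.haveILetI false

namespace H81.BlockDim

open Cfsg H20.Loc H20.GA H20.Blk H20.Orth H20.Defect H20.NPC H18.CharBasic H18.CharOrtho H18.CharInd
open scoped ComplexConjugate

universe u

variable {G : Type u} [Group G] [Finite G] {p : ℕ} {M : Ideal AlgInt}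

/-- every character in the principal block of the normal subgroup `N` lies under a character of
the principal block of `G`. -/
theorem exists_over [hp : Fact p.Prime] (hM : IsPModular p M) (N : Subgroup G) [hN : N.Normal]
    [Fintype N] (θ : IrrCharacter N) (hθ : θ ∈ principalBlock M N) :
    ∃ χ : IrrCharacter G, χ ∈ principalBlock M G ∧
      classInner (fun h : N => (χ : G → ℂ) h) (θ : N → ℂ) ≠ 0 := by
  classical
  haveI := pm_isPrime hM
  letI := Fintype.ofFinite G
  letI : Fintype (IrrCharacter G) := Fintype.ofFinite _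
  obtain ⟨P⟩ : Nonempty (Sylow p G) := inferInstance
  have hPN : (P : Subgroup G) ≤ Subgroup.normalizer (N : Set G) := by
    rw [Subgroup.normalizer_eq_top_iff.2 hN]
    exact le_top
  by_contra hcon
  push Not at hcon
  set B := principalBlock M G with hB
  have hPB : IsPBlock M B := H78.PrincReal.isPBlock_principal
  set η : N → ℂ := (θ : N → ℂ) with hη'
  have hη : IsIrrCharacter N η := θ.2
  set S : ℂ := ∑ χ : IrrCharacter G, if χ ∈ B then
    classInner η (fun h : N => (χ : G → ℂ) h) * (χ : G → ℂ) 1 else 0 with hS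
  have h1 : S = 0 := by
    apply Finset.sum_eq_zero
    intro χ _
    by_cases hχ : χ ∈ B
    · rw [if_pos hχ, ← H18.CharOrtho.inner_conj_symm, hcon χ hχ, map_zero, zero_mul]
    · rw [if_neg hχ]
  have h2 : ∑ h : N, η h * blockCoeff B h = (Nat.card G : ℂ)⁻¹ * ((Nat.card N : ℂ) * S) := by
    have h3 : ∀ h : N, η h * blockCoeff B h = (Nat.card G : ℂ)⁻¹ * ∑ χ : IrrCharacter G,
        if χ ∈ B then (χ : G → ℂ) 1 * (η h * conj ((χ : G → ℂ) h)) else 0 := by
      intro h
      rw [blockCoeff_eq_sum, mul_left_comm, Finset.mul_sum]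
      congr 1
      refine Finset.sum_congr rfl fun χ _ => ?_
      split_ifs
      · ring
      · rw [mul_zero]
    rw [Finset.sum_congr rfl (fun h _ => h3 h), ← Finset.mul_sum, Finset.sum_comm]
    congr 1
    rw [hS, Finset.mul_sum]
    refine Finset.sum_congr rfl fun χ _ => ?_
    by_cases hχ : χ ∈ B
    · simp only [if_pos hχ]
      rw [← Finset.mul_sum, classInner]
      have hc : (Nat.card N : ℂ) ≠ 0 := card_ne_zero'
      field_simp
    · simp only [if_neg hχ]
      rw [Finset.sum_const_zero, mul_zero]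
  have hθ1 : (θ : N → ℂ) 1 ≠ 0 := irr_one_ne_zero θ.2
  have h4 : ∑ n : N, (θ : N → ℂ) n * blockCoeff B n =
      (θ : N → ℂ) 1 * omega θ (H19.Second3.trunc N (eB B)) := by
    rw [omega_eq_sum, mul_div_cancel₀ _ hθ1]
    refine Finset.sum_congr rfl fun n _ => ?_
    rw [mul_comm]
    rfl
  have h5 : omega (one N) (H19.Second3.trunc N (eB B)) = ∑ n : N, blockCoeff B n := by
    rw [omega_eq_sum]
    show (∑ n : N, blockCoeff B n * 1) / 1 = _
    rw [div_one]
    exact Finset.sum_congr rfl fun n _ => mul_one _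
  have h6 : ¬ MemLocalIdeal M (omega θ (H19.Second3.trunc N (eB B))) := by
    have h7 : SameBlock M (one N : N → ℂ) (θ : N → ℂ) := hθ
    have h8 := sameBlock_iff.1 h7 _ (H19.Second3.trunc_mem N (eB_mem hPB))
    rw [← locI_congr h8, h5]
    exact H79.BlkExt.sum_blockCoeff_unit hM P N hPN
  apply h6
  have h7 : (θ : N → ℂ) 1 * omega θ (H19.Second3.trunc N (eB B)) = 0 := by
    rw [← h4, h2, h1, mul_zero, mul_zero]
  rw [(mul_eq_zero.1 h7).resolve_left hθ1]
  exact locI_zero

section count
variable [Fintype G] (N : Subgroup G) [hN : N.Normal] [Fintype N]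

/-- multiplicities -/
theorem exists_mult : ∃ m : IrrCharacter G → IrrCharacter N → ℕ,
    ∀ (χ : IrrCharacter G) (θ : IrrCharacter N),
    classInner (fun h : N => (χ : G → ℂ) h) (θ : N → ℂ) = m χ θ := by
  have h1 : ∀ χ : IrrCharacter G, ∀ θ : IrrCharacter N, ∃ n : ℕ,
      classInner (fun h : N => (χ : G → ℂ) h) (θ : N → ℂ) = n := fun χ θ =>
    inner_char_natCast (isCharacter_restrict N (isCharacter_of_isIrr χ.2)) (isCharacter_of_isIrr θ.2)
  choose m hm using h1
  exact ⟨m, hm⟩

theorem degree_eq_sum [Fintype (IrrCharacter N)] {m : IrrCharacter G → IrrCharacter N → ℕ}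
    (hm : ∀ (χ : IrrCharacter G) (θ : IrrCharacter N),
      classInner (fun h : N => (χ : G → ℂ) h) (θ : N → ℂ) = m χ θ) (χ : IrrCharacter G) :
    charDegree (χ : G → ℂ) = ∑ θ : IrrCharacter N, m χ θ * charDegree (θ : N → ℂ) := by
  have h1 := mem_classFun_expand (isClassFunction_of_isCharacter (isCharacter_restrict N (isCharacter_of_isIrr χ.2)))
  have h2 := congrFun h1 1
  simp only [Finset.sum_apply, Pi.smul_apply, smul_eq_mul] at h2
  have h3 : ((charDegree (χ : G → ℂ) : ℕ) : ℂ) = ((∑ θ : IrrCharacter N, m χ θ * charDegree (θ : N → ℂ) : ℕ) : ℂ) := by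
    rw [H82.Deg.coe_charDegree' χ]
    have h4 : (χ : G → ℂ) ((1 : N) : G) = (χ : G → ℂ) 1 := by rw [Subgroup.coe_one]
    rw [← h4, h2]
    push_cast
    apply Finset.sum_congr rfl
    intro θ _
    rw [hm, H82.Deg.coe_charDegree' θ]
  exact_mod_cast h3

theorem index_eq_sum [Fintype (IrrCharacter G)] {m : IrrCharacter G → IrrCharacter N → ℕ}
    (hm : ∀ (χ : IrrCharacter G) (θ : IrrCharacter N),
      classInner (fun h : N => (χ : G → ℂ) h) (θ : N → ℂ) = m χ θ) (θ : IrrCharacter N) :
    N.index * charDegree (θ : N → ℂ) = ∑ χ : IrrCharacter G, m χ θ * charDegree (χ : G → ℂ) := by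
  have h1 := mem_classFun_expand (isClassFunction_indFun N (θ : N → ℂ))
  have h2 := congrFun h1 1
  simp only [Finset.sum_apply, Pi.smul_apply, smul_eq_mul] at h2
  rw [indFun_one] at h2
  have h3 : ((N.index * charDegree (θ : N → ℂ) : ℕ) : ℂ) = ((∑ χ : IrrCharacter G, m χ θ * charDegree (χ : G → ℂ) : ℕ) : ℂ) := by
    push_cast
    rw [H82.Deg.coe_charDegree' θ, h2]
    apply Finset.sum_congr rfl
    intro χ _
    rw [H82.Deg.coe_charDegree' χ]
    congr 1
    rw [← H18.CharOrtho.inner_conj_symm, frobenius' N (θ : N → ℂ) (isClassFunction_of_isIrr χ.2), hm,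
      Complex.conj_natCast]
  exact_mod_cast h3

theorem main [hp : Fact p.Prime] (hM : IsPModular p M) :
    (∑ᶠ θ ∈ principalBlock M N, charDegree (θ : N → ℂ) ^ 2) ≤
      (∑ᶠ χ ∈ principalBlock M G, charDegree (χ : G → ℂ) ^ 2) ∧
    (∑ᶠ χ ∈ principalBlock M G, charDegree (χ : G → ℂ) ^ 2) ≤
      N.index * ∑ᶠ θ ∈ principalBlock M N, charDegree (θ : N → ℂ) ^ 2 := by
  classical
  letI : Fintype (IrrCharacter G) := Fintype.ofFinite _
  letI : Fintype (IrrCharacter N) := Fintype.ofFinite _
  obtain ⟨m, hm⟩ := exists_mult (G := G) N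
  rw [finsum_mem_eq_finite_toFinset_sum _ (Set.toFinite (principalBlock M N)),
    finsum_mem_eq_finite_toFinset_sum _ (Set.toFinite (principalBlock M G))]
  set A := (Set.toFinite (principalBlock M N)).toFinset with hA
  set B := (Set.toFinite (principalBlock M G)).toFinset with hB
  have hAm : ∀ θ, θ ∈ A ↔ θ ∈ principalBlock M N := fun θ => Set.Finite.mem_toFinset _
  have hBm : ∀ χ, χ ∈ B ↔ χ ∈ principalBlock M G := fun χ => Set.Finite.mem_toFinset _
  have hzero : ∀ χ ∈ B, ∀ θ, θ ∉ A → m χ θ = 0 := by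
    intro χ hχ θ hθ
    by_contra hne
    apply hθ
    rw [hAm]
    apply H78.Cover.mem_principal_of_over N hM ((hBm χ).1 hχ)
    rw [hm]
    exact_mod_cast hne
  have hdeg : ∀ χ ∈ B, charDegree (χ : G → ℂ) = ∑ θ ∈ A, m χ θ * charDegree (θ : N → ℂ) := by
    intro χ hχ
    rw [degree_eq_sum N hm χ]
    symm
    apply Finset.sum_subset (Finset.subset_univ _)
    intro θ _ hθ
    rw [hzero χ hχ θ hθ, zero_mul]
  constructor
  · calc ∑ θ ∈ A, charDegree (θ : N → ℂ) ^ 2
        ≤ ∑ θ ∈ A, ∑ χ ∈ B, (m χ θ * charDegree (θ : N → ℂ)) ^ 2 := by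
          apply Finset.sum_le_sum
          intro θ hθ
          obtain ⟨χ, hχ, hne⟩ := exists_over hM N θ ((hAm θ).1 hθ)
          rw [hm] at hne
          have hne' : m χ θ ≠ 0 := by exact_mod_cast hne
          calc charDegree (θ : N → ℂ) ^ 2 ≤ (m χ θ * charDegree (θ : N → ℂ)) ^ 2 :=
                Nat.pow_le_pow_left (Nat.le_mul_of_pos_left _ (Nat.pos_of_ne_zero hne')) 2
            _ ≤ _ := Finset.single_le_sum (f := fun χ => (m χ θ * charDegree (θ : N → ℂ)) ^ 2)
                (fun _ _ => Nat.zero_le _) ((hBm χ).2 hχ)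
      _ = ∑ χ ∈ B, ∑ θ ∈ A, (m χ θ * charDegree (θ : N → ℂ)) ^ 2 := Finset.sum_comm
      _ ≤ ∑ χ ∈ B, (∑ θ ∈ A, m χ θ * charDegree (θ : N → ℂ)) ^ 2 := by
          apply Finset.sum_le_sum
          intro χ _
          exact Finset.sum_sq_le_sq_sum_of_nonneg (fun θ _ => Nat.zero_le _)
      _ = ∑ χ ∈ B, charDegree (χ : G → ℂ) ^ 2 := by
          apply Finset.sum_congr rfl
          intro χ hχ
          rw [← hdeg χ hχ]
  · calc ∑ χ ∈ B, charDegree (χ : G → ℂ) ^ 2
        = ∑ χ ∈ B, ∑ θ ∈ A, charDegree (θ : N → ℂ) * (m χ θ * charDegree (χ : G → ℂ)) := by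
          apply Finset.sum_congr rfl
          intro χ hχ
          rw [pow_two]
          conv_lhs => arg 1; rw [hdeg χ hχ]
          rw [Finset.sum_mul]
          apply Finset.sum_congr rfl
          intro θ _
          ring
      _ = ∑ θ ∈ A, charDegree (θ : N → ℂ) * ∑ χ ∈ B, m χ θ * charDegree (χ : G → ℂ) := by
          rw [Finset.sum_comm]
          apply Finset.sum_congr rfl
          intro θ _
          rw [Finset.mul_sum]
      _ ≤ ∑ θ ∈ A, charDegree (θ : N → ℂ) * (N.index * charDegree (θ : N → ℂ)) := by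
          apply Finset.sum_le_sum
          intro θ _
          apply Nat.mul_le_mul_left
          rw [index_eq_sum N hm θ]
          exact Finset.sum_le_sum_of_subset (Finset.subset_univ _)
      _ = N.index * ∑ θ ∈ A, charDegree (θ : N → ℂ) ^ 2 := by
          rw [Finset.mul_sum]
          apply Finset.sum_congr rfl
          intro θ _
          ring

end count

end H81.BlockDim
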