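import Cfsg.Agent.Lib.H19.BrMap2
import Cfsg.Agent.Lib.H20.Nil
import Cfsg.Agent.Lib.H20.Defect

/-!
# The Brauer map on block idempotents
-/

set_option autoImplicit false
set_option linter.unusedSectionVars false
set_option linter.unusedVariables false
set_option linter.style.haveILetI false
open Cfsg H20.Loc H20.GA H20.Blk H20.DefGrp H20.Orth H20.Defect H20.Nil H19.Second H19.Second3
  H19.BrMap H19.BrMap2

namespace H81.BrIdem

universe u
variable {G : Type u} [Group G] [Finite G] {p : ℕ} {M : Ideal AlgInt}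

/-- idempotents modulo `m Z(RG)` -/
theorem pow_congr [M.IsPrime] {w : ZG G} (hw : w ∈ zr M G)
    (h : ∀ g, MemLocalIdeal M (zc (w * w - w) g)) (n : ℕ) :
    ∀ g, MemLocalIdeal M (zc (w ^ (n + 1) - w) g) := by
  set ww : zr M G := ⟨w, hw⟩
  have h1 : ww * ww - ww ∈ mz M G := h
  have h2 : ww ^ (n + 1) - ww ∈ mz M G := by
    rw [← Ideal.Quotient.eq_zero_iff_mem, map_sub, sub_eq_zero] at h1 ⊢
    rw [map_mul] at h1
    rw [map_pow]
    induction n with
    | zero => rw [zero_add, pow_one]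
    | succ n ih => rw [pow_succ, ih, h1]
  exact h2

/-- The members of `H` whose composite with the Brauer map lies over `B`. -/
def ovr (M : Ideal AlgInt) [M.IsPrime] (P H : Subgroup G)
    (hHN : H ≤ Subgroup.normalizer (P : Set G))
    (B : Set (IrrCharacter G)) : Set (IrrCharacter H) :=
  {θ | ∃ χ ∈ B, ∀ z ∈ zr M G, MemLocalIdeal M (omega θ (brm P H hHN z) - omega χ z)}

theorem ovr_isUnion [M.IsPrime] {P H : Subgroup G} {hHN : H ≤ Subgroup.normalizer (P : Set G)}
    {B : Set (IrrCharacter G)} : IsUnion M (ovr M P H hHN B) := by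
  rintro θ ⟨χ, hχ, h⟩ θ' hs
  refine ⟨χ, hχ, fun z hz => ?_⟩
  have h1 := sameBlock_iff.1 hs _ (brm_mem hHN hz)
  exact locI_trans (locI_sub_comm.1 h1) (h z hz)

theorem brm_sub {P H : Subgroup G} (hHN : H ≤ Subgroup.normalizer (P : Set G)) (z w : ZG G) :
    brm P H hHN (z - w) = brm P H hHN z - brm P H hHN w := by
  have h1 : z - w = z + (-1 : ℂ) • w := by rw [neg_one_smul, sub_eq_add_neg]
  rw [h1, brm_add, brm_smul, neg_one_smul, ← sub_eq_add_neg]

/-- The Brauer map sends a block idempotent to the sum of the idempotents of the blocks inducing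
it. -/
theorem brm_eB_congr (hM : IsPModular p M) [M.IsPrime] {P H : Subgroup G} (hP : IsPGroup p P)
    (hC : Subgroup.centralizer (P : Set G) ≤ H) (hHN : H ≤ Subgroup.normalizer (P : Set G))
    {B : Set (IrrCharacter G)} (hB : IsPBlock M B) (h : H) :
    MemLocalIdeal M (zc (brm P H hHN (eB B)) h - blockCoeff (ovr M P H hHN B) h) := by
  classical
  have hBz := eB_mem hB
  set w := brm P H hHN (eB B) with hw
  set S := ovr M P H hHN B with hS
  have hwz : w ∈ zr M H := brm_mem hHN hBz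
  have hSz : eB S ∈ zr M H := eB_mem_of_isUnion ovr_isUnion
  have hidem : ∀ g, MemLocalIdeal M (zc (w * w - w) g) := by
    intro g
    have h1 := brm_mul_congr hM hP hC hHN hBz hBz g
    rw [eB_mul_eB_self] at h1
    rw [zc_sub] at h1 ⊢
    exact locI_sub_comm.1 h1
  have hom : ∀ θ : IrrCharacter H, MemLocalIdeal M (omega θ w - omega θ (eB S)) := by
    intro θ
    obtain ⟨χ, hχ⟩ := exists_irr_congr hM hP hC hHN θ
    have h1 := hχ _ hBz
    by_cases hθ : θ ∈ S
    · rw [omega_eB_mem hθ]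
      obtain ⟨χ', hχ'B, h2⟩ := hθ
      have h3 := h2 _ hBz
      rwa [omega_eB_mem hχ'B] at h3
    · rw [omega_eB_notMem hθ]
      have hχB : χ ∉ B := fun hc => hθ ⟨χ, hc, hχ⟩
      rwa [omega_eB_notMem hχB] at h1
  obtain ⟨n0, hn0⟩ := pow_congr_of_omega hM hwz hSz hom
  have h1 := hn0 n0 le_rfl h
  have h2 : eB S ^ (p ^ n0) = eB S := by
    obtain ⟨k, hk⟩ : ∃ k, p ^ n0 = k + 1 :=
      ⟨p ^ n0 - 1, (Nat.sub_add_cancel (pow_pos (pm_prime hM).pos _)).symm⟩
    rw [hk]
    have : IsIdempotentElem (eB S) := eB_mul_eB_self S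
    exact this.pow_succ_eq k
  have h3 : MemLocalIdeal M (zc (w ^ (p ^ n0) - w) h) := by
    obtain ⟨k, hk⟩ : ∃ k, p ^ n0 = k + 1 :=
      ⟨p ^ n0 - 1, (Nat.sub_add_cancel (pow_pos (pm_prime hM).pos _)).symm⟩
    rw [hk]
    exact pow_congr hwz hidem k h
  rw [h2, zc_sub] at h1
  rw [zc_sub] at h3
  rw [← zc_eB]
  exact locI_trans (locI_sub_comm.1 h3) h1

/-- a union of blocks with a unit coefficient contains a block with a unit coefficient -/
theorem exists_block_coeff [M.IsPrime] {S : Set (IrrCharacter G)} (hS : IsUnion M S) {g : G}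
    (h : ¬ MemLocalIdeal M (blockCoeff S g)) :
    ∃ θ ∈ S, ¬ MemLocalIdeal M (blockCoeff (blockOf M (θ : G → ℂ)) g) := by
  classical
  letI := Fintype.ofFinite (IrrCharacter G)
  by_contra! hcon
  apply h
  rw [blockCoeff_eq_sum]
  let f : IrrCharacter G → Set (IrrCharacter G) := fun θ => blockOf M (θ : G → ℂ)
  have hsum : ∑ χ : IrrCharacter G, (if χ ∈ S then (χ : G → ℂ) 1 * starRingEnd ℂ ((χ : G → ℂ) g) else 0) =
      ∑ b ∈ (Finset.univ.filter (fun χ => χ ∈ S)).image f,
        ∑ χ : IrrCharacter G, (if χ ∈ b then (χ : G → ℂ) 1 * starRingEnd ℂ ((χ : G → ℂ) g) else 0) := by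
    rw [← Finset.sum_filter]
    rw [← Finset.sum_fiberwise_of_maps_to (s := Finset.univ.filter (fun χ => χ ∈ S))
      (t := (Finset.univ.filter (fun χ => χ ∈ S)).image f) (g := f)
      (fun χ hχ => Finset.mem_image_of_mem f hχ)]
    refine Finset.sum_congr rfl fun b hb => ?_
    rw [Finset.mem_image] at hb
    obtain ⟨θ, hθ, rfl⟩ := hb
    rw [Finset.mem_filter] at hθ
    rw [← Finset.sum_filter]
    apply Finset.sum_congr _ fun _ _ => rfl
    ext χ
    simp only [Finset.mem_filter, Finset.mem_univ, true_and]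
    constructor
    · rintro ⟨h1, h2⟩
      rw [← h2]; exact mem_blockOf_self χ
    · intro h1
      have h2 : SameBlock M (θ : G → ℂ) (χ : G → ℂ) := mem_blockOf.1 h1
      exact ⟨hS θ hθ.2 χ h2, (blockOf_eq_of_sameBlock h2).symm⟩
  rw [hsum, Finset.mul_sum]
  refine locI_sum fun b hb => ?_
  rw [Finset.mem_image] at hb
  obtain ⟨θ, hθ, rfl⟩ := hb
  rw [Finset.mem_filter] at hθ
  have h1 := hcon θ hθ.2
  rwa [blockCoeff_eq_sum] at h1

/-- members of `over` lie in blocks inducing `B`. -/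
theorem isInduced_of_over (hM : IsPModular p M) [M.IsPrime] {P H : Subgroup G} (hP : IsPGroup p P)
    (hPH : P ≤ H) (hHN : H ≤ Subgroup.normalizer (P : Set G))
    {B : Set (IrrCharacter G)} (hB : IsPBlock M B) {θ : IrrCharacter H}
    (hθ : θ ∈ ovr M P H hHN B) : IsInducedBlock M H (blockOf M (θ : H → ℂ)) B := by
  obtain ⟨χ, hχ, h⟩ := hθ
  rw [H19.BrMap.isInducedBlock_iff (isPBlock_blockOf θ) hB (mem_blockOf_self θ) hχ]
  intro g
  exact locI_trans (omega_trunc_brm hM hP hPH hHN θ (cls_mem g)) (h _ (cls_mem g))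

/-- Existence of Brauer correspondents with large defect. -/
theorem exists_correspondent (hM : IsPModular p M) {P H : Subgroup G} (hP : IsPGroup p P)
    (hPH : P ≤ H) (hC : Subgroup.centralizer (P : Set G) ≤ H)
    (hHN : H ≤ Subgroup.normalizer (P : Set G))
    {B : Set (IrrCharacter G)} (hB : IsPBlock M B) {g : H} (hgP : (g : G) ∈ Subgroup.centralizer (P : Set G))
    (hg : ¬ MemLocalIdeal M (blockCoeff B (g : G))) :
    ∃ b : Set (IrrCharacter H), IsInducedBlock M H b B ∧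
      ¬ MemLocalIdeal M (blockCoeff b g) := by
  classical
  haveI := pm_isPrime hM
  have h1 := brm_eB_congr hM hP hC hHN hB g
  rw [zc_brm_mem hHN _ hgP, zc_eB] at h1
  have h2 : ¬ MemLocalIdeal M (blockCoeff (ovr M P H hHN B) g) :=
    fun hc => hg ((locI_congr h1).2 hc)
  obtain ⟨θ, hθ, h3⟩ := exists_block_coeff ovr_isUnion h2
  exact ⟨_, isInduced_of_over hM hP hPH hHN hB hθ, h3⟩

/-- a unit coefficient bounds the defect from below -/
theorem le_blockDefect (hM : IsPModular p M) {B : Set (IrrCharacter G)} (hB : IsPBlock M B) {g : G}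
    (hg : ¬ MemLocalIdeal M (blockCoeff B g)) {Q : Subgroup G} (hQ : IsPGroup p Q)
    (hQg : Q ≤ Subgroup.centralizer ({g} : Set G)) {d : ℕ} (hd : Nat.card Q = p ^ d) :
    d ≤ blockDefect p B := by
  haveI := pm_isPrime hM
  haveI : Fact p.Prime := ⟨pm_prime hM⟩
  obtain ⟨h0, hh0⟩ := exists_isDefectClass hB
  obtain ⟨χ, hχ⟩ := isPBlock_nonempty hB
  obtain ⟨x, hx1, hx2⟩ := sylow_le_of_blockCoeff hM hB ⟨χ, hχ, hh0.2.2 χ hχ⟩ hg hQ hQg
  have hh0' := (isDefectClass_congr hx1).1 hh0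
  rw [blockDefect_eq hM hB hh0', ← (pm_prime hM).pow_dvd_iff_le_factorization Nat.card_pos.ne',
    ← hd]
  exact Subgroup.card_dvd_of_le hx2

end H81.BrIdem
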