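import Cfsg.Agent.Lib.H81.BrIdem
import Cfsg.Agent.Lib.H20.Height

/-!
# Deficiency classes
-/

set_option autoImplicit false
set_option linter.unusedSectionVars false
set_option linter.unusedVariables false
set_option linter.style.haveILetI false
open Cfsg H20.Loc H20.GA H20.Blk H20.DefGrp H20.Orth H20.Defect H20.Nil H19.Second H19.Second3
  H19.BrMap H19.BrMap2 H81.BrIdem

namespace H81.Deficiency

universe u
variable {G : Type u} [Group G] [Finite G] {p : ℕ} {M : Ideal AlgInt}

/-- defects grow under induction -/
theorem defect_le_of_induced (hM : IsPModular p M) {H : Subgroup G} {b : Set (IrrCharacter H)}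
    {B : Set (IrrCharacter G)} (hind : IsInducedBlock M H b B) :
    blockDefect p b ≤ blockDefect p B := by
  obtain ⟨D, hD⟩ := exists_isDefectGroup hM hind.1
  obtain ⟨E, hE, hle⟩ := exists_defectGroup_ge hM hind.1 hind.2.1 hind hD
  have h1 := card_defectGroup hM hind.1 hD
  have h2 := card_defectGroup hM hind.2.1 hE
  have h3 := Subgroup.card_le_of_le hle
  rw [Subgroup.card_map_of_injective H.subtype_injective, h1, h2] at h3
  exact (Nat.pow_le_pow_iff_right (pm_prime hM).one_lt).1 h3

/-- For `y` central in a defect group, some block of the centralizer has the same defect and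
induces `B`. -/
theorem exists_major (hM : IsPModular p M) {B : Set (IrrCharacter G)} (hB : IsPBlock M B)
    {D : Subgroup G} (hD : IsDefectGroup p M B D) {y : G} (hyD : y ∈ D)
    (hyc : ∀ d ∈ D, d * y = y * d) :
    ∃ b : Set (IrrCharacter (Subgroup.centralizer ({y} : Set G))),
      IsInducedBlock M (Subgroup.centralizer ({y} : Set G)) b B ∧
      blockDefect p b = blockDefect p B := by
  haveI := pm_isPrime hM
  haveI : Fact p.Prime := ⟨pm_prime hM⟩
  have hDp := isPGroup_of_isDefectGroup hD
  have hcard := card_defectGroup hM hB hD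
  obtain ⟨g, hg, P, rfl⟩ := hD
  have hy : ∃ k : ℕ, orderOf y = p ^ k := by
    obtain ⟨k, hk⟩ := IsPGroup.iff_orderOf.1 hDp ⟨y, hyD⟩
    exact ⟨k, by rw [← hk]; exact (Subgroup.orderOf_mk y hyD).symm⟩
  have hDC : sylC g P ≤ Subgroup.centralizer ({y} : Set G) := by
    intro d hd
    rw [Subgroup.mem_centralizer_singleton_iff]
    exact hyc d hd
  have hgy : g ∈ Subgroup.centralizer ({y} : Set G) := by
    have h1 := Subgroup.mem_centralizer_singleton_iff.1 (sylC_le g P hyD)
    rw [Subgroup.mem_centralizer_singleton_iff]
    exact h1.symm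
  have h1 : Subgroup.zpowers y ≤ Subgroup.centralizer ({y} : Set G) := by
    rw [Subgroup.zpowers_le, Subgroup.mem_centralizer_singleton_iff]
  have h2 : Subgroup.centralizer ({y} : Set G) ≤
      Subgroup.normalizer (Subgroup.zpowers y : Set G) := by
    rw [← centralizer_zpowers]
    intro c hc
    rw [Subgroup.mem_normalizer_iff]
    rw [Subgroup.mem_centralizer_iff] at hc
    intro h
    constructor
    · intro hh
      rw [← hc h hh, mul_inv_cancel_right]
      exact hh
    · intro hh
      have h5 := hc _ hh
      have h6 : c * h * c⁻¹ = h := by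
        have h7 : c * h * c⁻¹ * c = c * (c * h * c⁻¹) := h5
        rw [inv_mul_cancel_right] at h7
        exact (mul_left_cancel h7).symm
      rwa [h6] at hh
  obtain ⟨b, hb, hbg⟩ := exists_correspondent hM (isPGroup_zpowers hy) h1
    (by rw [centralizer_zpowers]) h2 hB (g := ⟨g, hgy⟩)
    (by rw [centralizer_zpowers]; exact hgy) hg.2.1
  refine ⟨b, hb, le_antisymm (defect_le_of_induced hM hb) ?_⟩
  refine le_blockDefect hM hb.1 hbg
    (Q := (sylC g P).subgroupOf (Subgroup.centralizer ({y} : Set G)))
    (hDp.comap_of_injective _ (Subgroup.subtype_injective _)) ?_ ?_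
  · intro d hd
    rw [Subgroup.mem_subgroupOf] at hd
    have h3 := Subgroup.mem_centralizer_singleton_iff.1 (sylC_le g P hd)
    rw [Subgroup.mem_centralizer_singleton_iff]
    exact Subtype.ext h3
  · rw [← hcard]
    exact Nat.card_congr (Subgroup.subgroupOfEquivOfLe hDC).toEquiv

theorem main (hM : IsPModular p M) (r : ℕ) :
    ((∀ B' : Set (IrrCharacter G), IsPBlock M B' → B' ≠ principalBlock M G →
      blockDefect p B' < r) → ∀ y : G, (∃ k : ℕ, orderOf y = p ^ k) →
      (∀ B' : Set (IrrCharacter ↥(Subgroup.centralizer ({y} : Set G))), IsPBlock M B' →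
        B' ≠ principalBlock M ↥(Subgroup.centralizer ({y} : Set G)) → blockDefect p B' < r)) ∧
    (0 < r → (∀ y : G, orderOf y = p →
      (∀ B' : Set (IrrCharacter ↥(Subgroup.centralizer ({y} : Set G))), IsPBlock M B' →
        B' ≠ principalBlock M ↥(Subgroup.centralizer ({y} : Set G)) → blockDefect p B' < r)) →
      (∀ B' : Set (IrrCharacter G), IsPBlock M B' → B' ≠ principalBlock M G →
        blockDefect p B' < r)) := by
  haveI := pm_isPrime hM
  haveI : Fact p.Prime := ⟨pm_prime hM⟩
  constructor
  · intro hG y hy b hb hne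
    have hdef := induced_centralizer hM y hy hb
    obtain ⟨B, hB⟩ := hdef
    have hBne : B ≠ principalBlock M G := by
      rintro rfl
      exact hne ((H20.Height.third_main hM ⟨_, hB⟩).1 hB)
    exact lt_of_le_of_lt (defect_le_of_induced hM hB) (hG B hB.2.1 hBne)
  · intro hr hC B hB hne
    by_contra hcon
    push Not at hcon
    obtain ⟨D, hD⟩ := exists_isDefectGroup hM hB
    have hcard := card_defectGroup hM hB hD
    have hDp := isPGroup_of_isDefectGroup hD
    have hpos : 0 < blockDefect p B := by omega
    have hnt : Nontrivial D := by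
      rw [← Finite.one_lt_card_iff_nontrivial, hcard]
      exact Nat.one_lt_pow hpos.ne' (pm_prime hM).one_lt
    have hcnt := hDp.center_nontrivial
    have hcp : IsPGroup p (Subgroup.center D) := hDp.to_subgroup _
    have hdvd : p ∣ Nat.card (Subgroup.center D) := by
      obtain ⟨n, hn⟩ := IsPGroup.iff_card.1 hcp
      have h1 : 1 < Nat.card (Subgroup.center D) := Finite.one_lt_card_iff_nontrivial.2 hcnt
      rw [hn] at h1 ⊢
      apply dvd_pow_self
      rintro rfl
      simp at h1
    obtain ⟨z, hz⟩ := exists_prime_orderOf_dvd_card' p hdvd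
    have hord : orderOf (((z : D) : G)) = p := by
      rw [Subgroup.orderOf_coe, Subgroup.orderOf_coe, hz]
    obtain ⟨b, hb, hbd⟩ := exists_major hM hB hD (y := ((z : D) : G)) (z : D).2 (by
      intro d hd
      have := Subgroup.mem_center_iff.1 z.2 ⟨d, hd⟩
      exact congrArg Subtype.val this)
    have hbne : b ≠ principalBlock M (Subgroup.centralizer ({((z : D) : G)} : Set G)) := by
      intro h
      have h2 := (H20.Height.third_main hM (b := b) ⟨_, hb⟩).2 h
      exact hne (H19.BrMap.induced_unique hb h2)
    have := hC _ hord b hb.1 hbne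
    omega

end H81.Deficiency
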