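import Cfsg.Agent.Lib.H81.RegMat

/-!
# The Brauer-Feit bounds for blocks with characters of positive height
-/

set_option autoImplicit false
set_option linter.unusedSectionVars false
set_option linter.unusedVariables false
set_option linter.style.haveILetI false
open Cfsg H20.Loc H20.GA H20.Blk H20.DefGrp H20.Orth H20.Defect H20.Height
open scoped ComplexConjugate

namespace H81.HeightBound

universe u
variable {G : Type u} [Group G] [Finite G]
variable {M : Ideal AlgInt} {p : ℕ}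

/-- a sum of squares with a large part. -/
theorem sq_bound {ι : Type*} [Fintype ι] [DecidableEq ι] (a : ι → ℤ) (s : ι) (P : ℤ)
    (hsum : ∑ i, (a i) ^ 2 = P * a s) (F : Finset ι) (hs : s ∉ F) (q : ℤ)
    (hq : ∀ i ∈ F, q ≤ (a i) ^ 2) :
    q * F.card ≤ a s * (P - a s) ∧ 4 * (q * F.card) ≤ P ^ 2 := by
  have h1 : ∑ i ∈ F, (a i) ^ 2 ≤ ∑ i ∈ Finset.univ.erase s, (a i) ^ 2 := by
    apply Finset.sum_le_sum_of_subset_of_nonneg
    · intro i hi
      rw [Finset.mem_erase]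
      exact ⟨fun h => hs (h ▸ hi), Finset.mem_univ _⟩
    · intro i _ _; positivity
  have h2 : ∑ i ∈ Finset.univ.erase s, (a i) ^ 2 = P * a s - (a s) ^ 2 := by
    rw [← hsum, ← Finset.add_sum_erase _ _ (Finset.mem_univ s)]
    ring
  have h3 : q * F.card ≤ ∑ i ∈ F, (a i) ^ 2 := by
    rw [mul_comm, ← nsmul_eq_mul]
    exact Finset.card_nsmul_le_sum _ _ _ hq
  have h4 : q * F.card ≤ a s * (P - a s) := by nlinarith
  refine ⟨h4, ?_⟩
  nlinarith [sq_nonneg (P - 2 * a s)]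

theorem sq_le_of_dvd {x q : ℤ} (hq : 0 ≤ q) (hx : x ≠ 0) (h : q ∣ x) : q ^ 2 ≤ x ^ 2 := by
  have h1 : q ≤ |x| := Int.le_of_dvd (abs_pos.2 hx) ((dvd_abs _ _).2 h)
  rw [← sq_abs x]
  exact pow_le_pow_left₀ hq h1 2

theorem main (hM : IsPModular p M) {B : Set (IrrCharacter G)} (hB : IsPBlock M B) {d : ℕ}
    (hd : blockDefect p B = d) :
    ((∃ χ ∈ B, 0 < blockHeight p B (χ : G → ℂ)) → 2 * Nat.card B ≤ p ^ (2 * d - 2)) ∧
    ∀ χ ∈ B, (d ≤ 1 → blockHeight p B (χ : G → ℂ) = 0) ∧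
      (2 ≤ d → blockHeight p B (χ : G → ℂ) ≤ d - 2) := by
  classical
  letI := Fintype.ofFinite G
  letI := Fintype.ofFinite (IrrCharacter G)
  have hpp := pm_prime hM
  have hpz : (0 : ℤ) < p := by exact_mod_cast hpp.pos
  set F0 : Finset (IrrCharacter G) :=
    Finset.univ.filter (fun ψ => ψ ∈ B ∧ blockHeight p B (ψ : G → ℂ) = 0) with hF0
  set F1 : Finset (IrrCharacter G) :=
    Finset.univ.filter (fun ψ => ψ ∈ B ∧ blockHeight p B (ψ : G → ℂ) ≠ 0) with hF1
  obtain ⟨χ0, hχ0, hz⟩ := exists_height_zero hM hB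
  have hF0pos : 0 < F0.card := by
    rw [Finset.card_pos]
    exact ⟨χ0, by rw [hF0, Finset.mem_filter]; exact ⟨Finset.mem_univ _, hχ0, hz⟩⟩
  have key : ∀ s ∈ B, blockHeight p B (s : G → ℂ) ≠ 0 → blockHeight p B (s : G → ℂ) + 2 ≤ d ∧
      4 * ((p : ℤ) ^ 2 * F0.card) ≤ ((p : ℤ) ^ d) ^ 2 := by
    intro s hs hs0
    obtain ⟨b, hb, hbB, hb1, hb2, hb3, hb4, hsum⟩ := H81.RegMat.exists_row hM hB hs
    rw [hd] at hsum
    set h := blockHeight p B (s : G → ℂ) with hh
    have hsF : s ∉ F0 := by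
      rw [hF0, Finset.mem_filter]; exact fun hc => hs0 hc.2.2
    obtain ⟨h1, h2⟩ := sq_bound b s ((p : ℤ) ^ d) hsum F0 hsF (((p : ℤ) ^ h) ^ 2) (by
      intro ψ hψ
      rw [hF0, Finset.mem_filter] at hψ
      apply sq_le_of_dvd (by positivity) _ (hb1 ψ hψ.2.1)
      intro h0
      apply hb2 ψ hψ.2.1 hψ.2.2
      rw [h0]; exact dvd_zero _)
    have hpos : 0 < b s * ((p : ℤ) ^ d - b s) := by
      refine lt_of_lt_of_le ?_ h1
      have : (0 : ℤ) < F0.card := by exact_mod_cast hF0pos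
      positivity
    have hbs : 0 < b s ∧ b s < (p : ℤ) ^ d := by
      rcases pos_and_pos_or_neg_and_neg_of_mul_pos hpos with h3 | h3
      · exact ⟨h3.1, by linarith [h3.2]⟩
      · exfalso
        have : (0 : ℤ) < (p : ℤ) ^ d := by positivity
        linarith [h3.1, h3.2]
    have hlt : (p : ℤ) ^ (h + 1) < (p : ℤ) ^ d :=
      lt_of_le_of_lt (Int.le_of_dvd hbs.1 (hb3 s hs hs0)) hbs.2
    have hlt' : p ^ (h + 1) < p ^ d := by exact_mod_cast hlt
    rw [Nat.pow_lt_pow_iff_right hpp.one_lt] at hlt'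
    refine ⟨by omega, le_trans ?_ h2⟩
    have h5 : (p : ℤ) ^ 2 ≤ ((p : ℤ) ^ h) ^ 2 := by
      apply pow_le_pow_left₀ hpz.le
      calc (p : ℤ) = (p : ℤ) ^ 1 := (pow_one _).symm
        _ ≤ (p : ℤ) ^ h := by
          apply pow_le_pow_right₀ (by exact_mod_cast hpp.one_le)
          omega
    have h6 : (0 : ℤ) ≤ F0.card := by positivity
    nlinarith
  refine ⟨?_, ?_⟩
  · rintro ⟨s, hs, hs0⟩
    obtain ⟨hk1, hk2⟩ := key s hs (by omega)
    obtain ⟨a, ha, haB, ha1, ha2, ha3, ha4, hsum⟩ := H81.RegMat.exists_row hM hB hχ0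
    rw [hd] at hsum
    have hsF : χ0 ∉ F1 := by
      rw [hF1, Finset.mem_filter]; exact fun hc => hc.2.2 hz
    obtain ⟨h1, h2⟩ := sq_bound a χ0 ((p : ℤ) ^ d) hsum F1 hsF ((p : ℤ) ^ 2) (by
      intro ψ hψ
      rw [hF1, Finset.mem_filter] at hψ
      obtain ⟨h3, h4⟩ := ha4 ψ hψ.2.1 hz
      apply sq_le_of_dvd hpz.le
      · intro h0
        apply h4
        rw [h0]; exact dvd_zero _
      · refine dvd_trans ?_ h3
        exact dvd_pow_self _ hψ.2.2)
    have hcard : Nat.card B = F0.card + F1.card := by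
      have h5 : Nat.card B = (Finset.univ.filter (fun ψ => ψ ∈ B)).card := by
        rw [Nat.card_eq_fintype_card]
        exact Fintype.card_subtype _
      rw [h5, hF0, hF1, ← Finset.card_union_of_disjoint]
      · congr 1
        ext ψ
        simp only [Finset.mem_filter, Finset.mem_union, Finset.mem_univ, true_and]
        tauto
      · rw [Finset.disjoint_left]
        intro ψ h6 h7
        rw [Finset.mem_filter] at h6 h7
        exact h7.2.2 h6.2.2
    have h8 : ((p : ℤ) ^ d) ^ 2 = (p : ℤ) ^ 2 * (p : ℤ) ^ (2 * d - 2) := by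
      rw [← pow_mul, ← pow_add]; congr 1; omega
    rw [h8] at h2 hk2
    have hp2 : (0 : ℤ) < (p : ℤ) ^ 2 := by positivity
    have e1 : 4 * (F0.card : ℤ) ≤ (p : ℤ) ^ (2 * d - 2) := by
      apply le_of_mul_le_mul_left _ hp2
      linarith
    have e2 : 4 * (F1.card : ℤ) ≤ (p : ℤ) ^ (2 * d - 2) := by
      apply le_of_mul_le_mul_left _ hp2
      linarith
    rw [hcard]
    have e3 : 2 * ((F0.card : ℤ) + F1.card) ≤ (p : ℤ) ^ (2 * d - 2) := by linarith
    exact_mod_cast e3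
  · intro χ hχ
    by_cases h0 : blockHeight p B (χ : G → ℂ) = 0
    · exact ⟨fun _ => h0, fun _ => by omega⟩
    · obtain ⟨h1, _⟩ := key χ hχ h0
      exact ⟨fun _ => by omega, fun _ => by omega⟩

end H81.HeightBound
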