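import Mathlib
import Cfsg.Agent.Lib.H81.HeightBound

/-!
# Landau's theorem and the bound `k(B) ≤ p^(2d)/4 + 1`
-/

set_option autoImplicit false
set_option linter.unusedSectionVars false
set_option linter.unusedVariables false
set_option linter.style.haveILetI false
open Cfsg H20.Loc H20.GA H20.Blk H20.DefGrp H20.Orth H20.Defect H20.Height

namespace H81.Landau

/-- finiteness of the number of Egyptian fraction decompositions -/
theorem egyptian (k : ℕ) : ∀ q : ℚ, ∃ N : ℕ, ∀ s : Multiset ℕ, s.card = k → (∀ n ∈ s, 0 < n) →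
    (s.map (fun n : ℕ => (1 : ℚ) / n)).sum = q → ∀ n ∈ s, n ≤ N := by
  induction k with
  | zero =>
    intro q
    refine ⟨0, fun s hs _ _ n hn => ?_⟩
    rw [Multiset.card_eq_zero] at hs
    rw [hs] at hn
    exact absurd hn (Multiset.notMem_zero n)
  | succ k ih =>
    intro q
    choose N hN using ih
    rcases le_or_gt q 0 with hq | hq
    · refine ⟨0, fun s hs hpos hsum n hn => ?_⟩
      exfalso
      have h1 : (0 : ℚ) < (s.map (fun n : ℕ => (1 : ℚ) / n)).sum := by
        obtain ⟨t, rfl⟩ := Multiset.exists_cons_of_mem hn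
        rw [Multiset.map_cons, Multiset.sum_cons]
        have h2 : (0 : ℚ) < n := by exact_mod_cast hpos n hn
        have h3 : 0 ≤ (t.map (fun n : ℕ => (1 : ℚ) / n)).sum := by
          apply Multiset.sum_nonneg
          intro x hx
          rw [Multiset.mem_map] at hx
          obtain ⟨m, _, rfl⟩ := hx
          positivity
        positivity
      linarith
    · set m0 : ℕ := ⌈((k + 1 : ℕ) : ℚ) / q⌉₊ with hm0
      refine ⟨m0 + ∑ m ∈ Finset.range (m0 + 1), N (q - 1 / m), fun s hs hpos hsum => ?_⟩
      -- a small element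
      have hsmall : ∃ m ∈ s, m ≤ m0 := by
        by_contra hcon
        push Not at hcon
        have h1 : (s.map (fun n : ℕ => (1 : ℚ) / n)).sum <
            (s.map (fun _ : ℕ => q / ((k + 1 : ℕ) : ℚ))).sum := by
          apply Multiset.sum_lt_sum_of_nonempty
          · intro h0
            rw [h0] at hs
            have : (0 : Multiset ℕ).card = k + 1 := hs
            rw [Multiset.card_zero] at this
            omega
          · intro n hn
            have h2 := hcon n hn
            have h3 : ((k + 1 : ℕ) : ℚ) / q < n := by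
              refine lt_of_le_of_lt (Nat.le_ceil _) ?_
              exact_mod_cast h2
            have h4 : (0 : ℚ) < ((k + 1 : ℕ) : ℚ) := by positivity
            have h5 : (0 : ℚ) < n := by exact_mod_cast hpos n hn
            rw [div_lt_iff₀ hq] at h3
            rw [div_lt_div_iff₀ h5 h4]
            linarith
        rw [hsum, Multiset.map_const', Multiset.sum_replicate, hs, nsmul_eq_mul] at h1
        have h4 : ((k + 1 : ℕ) : ℚ) ≠ 0 := by positivity
        rw [mul_div_cancel₀ _ h4] at h1
        exact lt_irrefl _ h1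
      obtain ⟨m, hm, hmm⟩ := hsmall
      obtain ⟨t, rfl⟩ := Multiset.exists_cons_of_mem hm
      rw [Multiset.card_cons] at hs
      rw [Multiset.map_cons, Multiset.sum_cons] at hsum
      have h6 := hN (q - 1 / m) t (by omega) (fun n hn => hpos n (Multiset.mem_cons_of_mem hn))
        (by linarith)
      have h7 : N (q - 1 / m) ≤ ∑ m ∈ Finset.range (m0 + 1), N (q - 1 / m) :=
        Finset.single_le_sum (f := fun m : ℕ => N (q - 1 / (m : ℚ))) (fun _ _ => Nat.zero_le _)
          (Finset.mem_range.2 (by omega))
      intro n hn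
      rw [Multiset.mem_cons] at hn
      rcases hn with rfl | hn
      · omega
      · have := h6 n hn
        omega

/-- Landau: the order of a finite group is bounded in terms of the number of classes. -/
theorem landau (k : ℕ) : ∃ N : ℕ, ∀ (G : Type*) [Group G] [Finite G],
    Nat.card (ConjClasses G) = k → Nat.card G ≤ N := by
  classical
  obtain ⟨N, hN⟩ := egyptian k 1
  refine ⟨N, fun G _ _ hk => ?_⟩
  letI := Fintype.ofFinite G
  letI := Fintype.ofFinite (ConjClasses G)
  have hpos : ∀ c : ConjClasses G, 0 < Nat.card c.carrier := by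
    intro c
    obtain ⟨g, rfl⟩ := ConjClasses.exists_rep c
    have : Nonempty (ConjClasses.mk g).carrier := ⟨⟨g, ConjClasses.mem_carrier_mk⟩⟩
    exact Nat.card_pos
  have hdvd : ∀ c : ConjClasses G, Nat.card c.carrier ∣ Nat.card G := by
    intro c
    obtain ⟨g, rfl⟩ := ConjClasses.exists_rep c
    rw [Nat.card_eq_fintype_card, Nat.card_eq_fintype_card, ConjClasses.card_carrier]
    exact Nat.div_dvd_of_dvd (by
      rw [← Nat.card_eq_fintype_card, ← Nat.card_eq_fintype_card]
      exact Subgroup.card_subgroup_dvd_card (MulAction.stabilizer (ConjAct G) g) )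
  set s : Multiset ℕ := (Finset.univ : Finset (ConjClasses G)).val.map
    (fun c => Nat.card G / Nat.card c.carrier) with hs
  have hG := Nat.card_pos (α := G)
  have h1 := hN s (by
    rw [hs, Multiset.card_map]
    show Finset.univ.card = k
    rw [Finset.card_univ, ← Nat.card_eq_fintype_card, hk])
    (by
      intro n hn
      rw [hs, Multiset.mem_map] at hn
      obtain ⟨c, _, rfl⟩ := hn
      exact Nat.div_pos (Nat.le_of_dvd hG (hdvd c)) (hpos c))
    (by
      rw [hs, Multiset.map_map]
      show ∑ c : ConjClasses G, (1 : ℚ) / ((Nat.card G / Nat.card c.carrier : ℕ) : ℚ) = 1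
      have h2 : ∀ c : ConjClasses G, (1 : ℚ) / ((Nat.card G / Nat.card c.carrier : ℕ) : ℚ) =
          (Nat.card c.carrier : ℚ) / (Nat.card G : ℚ) := by
        intro c
        have h3 : (Nat.card c.carrier : ℚ) ≠ 0 := by exact_mod_cast (hpos c).ne'
        rw [Nat.cast_div (hdvd c) h3]
        field_simp
      simp only [h2]
      rw [← Finset.sum_div, div_eq_one_iff_eq (by exact_mod_cast hG.ne')]
      have h4 := sum_conjClasses_card_eq_card G
      rw [Nat.card_eq_fintype_card (α := G), ← h4]
      push_cast
      refine Finset.sum_congr rfl fun c _ => ?_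
      rw [Set.toFinset_card, Nat.card_eq_fintype_card])
  have h5 := h1 (Nat.card G) (by
    rw [hs, Multiset.mem_map]
    refine ⟨ConjClasses.mk 1, Finset.mem_univ _, ?_⟩
    have : Nat.card (ConjClasses.mk (1 : G)).carrier = 1 := by
      rw [Nat.card_eq_one_iff_unique]
      refine ⟨⟨?_⟩, ⟨⟨1, ConjClasses.mem_carrier_mk⟩⟩⟩
      rintro ⟨a, ha⟩ ⟨b, hb⟩
      rw [ConjClasses.mem_carrier_iff_mk_eq, ConjClasses.mk_eq_mk_iff_isConj,
        isConj_one_left] at ha hb
      exact Subtype.ext (ha.trans hb.symm)
    rw [this, Nat.div_one])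
  exact h5

universe u
variable {G : Type u} [Group G] [Finite G]
variable {M : Ideal AlgInt} {p : ℕ}

/-- `k(B) ≤ p^(2d)/4 + 1` -/
theorem card_block_le (hM : IsPModular p M) {B : Set (IrrCharacter G)} (hB : IsPBlock M B) :
    4 * (Nat.card B - 1) ≤ p ^ (2 * blockDefect p B) := by
  classical
  letI := Fintype.ofFinite G
  letI := Fintype.ofFinite (IrrCharacter G)
  obtain ⟨χ0, hχ0, hz⟩ := exists_height_zero hM hB
  obtain ⟨a, ha, haB, ha1, ha2, ha3, ha4, hsum⟩ := H81.RegMat.exists_row hM hB hχ0
  set F : Finset (IrrCharacter G) := (Finset.univ.filter (fun ψ => ψ ∈ B)).erase χ0 with hF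
  obtain ⟨h1, h2⟩ := H81.HeightBound.sq_bound a χ0 _ hsum F (Finset.notMem_erase _ _) 1 (by
    intro ψ hψ
    rw [hF, Finset.mem_erase, Finset.mem_filter] at hψ
    obtain ⟨h3, h4⟩ := ha4 ψ hψ.2.2 hz
    have h5 : a ψ ≠ 0 := by
      intro h0
      apply h4
      rw [h0]; exact dvd_zero _
    have h6 : 0 < a ψ ^ 2 := by positivity
    omega)
  have hcard : F.card = Nat.card B - 1 := by
    rw [hF, Finset.card_erase_of_mem (Finset.mem_filter.2 ⟨Finset.mem_univ _, hχ0⟩),
      Nat.card_eq_fintype_card, Fintype.card_subtype]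
  rw [← pow_mul, mul_comm (blockDefect p B), one_mul] at h2
  rw [← hcard]
  exact_mod_cast h2

theorem main (p a : ℕ) : ∃ N : ℕ, ∀ (G : Type u) [Group G] [Finite G] (M : Ideal AlgInt),
    IsPModular p M → (Nat.card G).factorization p = a →
    (∀ B : Set (IrrCharacter G), IsPBlock M B → B = principalBlock M G) → Nat.card G ≤ N := by
  choose N hN using landau.{u}
  refine ⟨∑ k ∈ Finset.range (p ^ (2 * a) + 2), N k, fun G _ _ M hM ha hG => ?_⟩
  have h1 := hN (Nat.card (ConjClasses G)) G rfl
  refine le_trans h1 ?_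
  apply Finset.single_le_sum (f := N) (fun _ _ => Nat.zero_le _)
  rw [Finset.mem_range]
  haveI := pm_isPrime hM
  have hone : IsIrrCharacter G (fun _ : G => (1 : ℂ)) := H18.CharBasic.isIrrCharacter_one
  have hP : IsPBlock M (principalBlock M G) := isPBlock_blockOf ⟨_, hone⟩
  have h2 : principalBlock M G = Set.univ := by
    apply Set.eq_univ_of_forall
    intro χ
    rw [← hG _ (isPBlock_blockOf χ)]
    exact mem_blockOf_self χ
  have h3 := card_block_le hM hP
  have h4 : Nat.card (principalBlock M G) = Nat.card (ConjClasses G) := by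
    rw [h2, ← H18.CharOrtho.card_irr_eq_card_conjClasses]
    exact Nat.card_congr (Equiv.Set.univ _)
  have h5 : blockDefect p (principalBlock M G) ≤ a := by
    rw [blockDefect, ha]; omega
  have h6 : p ^ (2 * blockDefect p (principalBlock M G)) ≤ p ^ (2 * a) :=
    Nat.pow_le_pow_right (pm_prime hM).pos (by omega)
  rw [h4] at h3
  omega

end H81.Landau
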