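import Cfsg.Agent.Lib.H81.Fowler2
import Cfsg.Agent.Lib.H81.Deficiency
import Cfsg.Agent.Lib.H81.Landau
import Cfsg.Agent.S0912

/-!
# Groups of deficiency class `r` for `p = 2`
-/

set_option autoImplicit false
set_option linter.unusedSectionVars false
set_option linter.unusedVariables false
set_option linter.style.haveILetI false
open Cfsg H20.Loc H20.GA H20.Blk H20.DefGrp H20.Defect H20.Ind
open H81.Fowler

namespace H81.DefClass

universe u
variable {G : Type u} [Group G] [Finite G] {M : Ideal AlgInt} {p : ℕ}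

theorem one_block (hM : IsPModular p M) {r : ℕ}
    (hG : ∀ B' : Set (IrrCharacter G), IsPBlock M B' → B' ≠ principalBlock M G →
      blockDefect p B' < r) {Q : Subgroup G} (hQ : IsPGroup p Q) (hcard : p ^ r ≤ Nat.card Q)
    (b : Set (IrrCharacter (Subgroup.normalizer (Q : Set G)))) (hb : IsPBlock M b) :
    b = principalBlock M (Subgroup.normalizer (Q : Set G)) := by
  haveI : Fact p.Prime := ⟨pm_prime hM⟩
  obtain ⟨B, hB⟩ := H19.BrMap.exists_induced hM hQ Subgroup.le_normalizer
    (Subgroup.centralizer_le_normalizer _) le_rfl hb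
  obtain ⟨D, hD⟩ := exists_isDefectGroup hM hb
  have h1 := Cfsg.Agent.S0912.result p M hM b hb D hD
  have hn : (Q.subgroupOf (Subgroup.normalizer (Q : Set G))).Normal :=
    Subgroup.normal_in_normalizer
  have h2 : Q.subgroupOf (Subgroup.normalizer (Q : Set G)) ≤ D :=
    le_trans (le_sSup ⟨hn, hQ.comap_of_injective _ (Subgroup.subtype_injective _)⟩ :
      _ ≤ pCore p (Subgroup.normalizer (Q : Set G))) h1
  have h3 := Subgroup.card_le_of_le h2
  rw [Nat.card_congr (Subgroup.subgroupOfEquivOfLe Subgroup.le_normalizer).toEquiv,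
    card_defectGroup hM hb hD] at h3
  have h4 : r ≤ blockDefect p b := by
    have := hcard.trans h3
    exact (Nat.pow_le_pow_iff_right (pm_prime hM).one_lt).1 this
  have h5 := H81.Deficiency.defect_le_of_induced hM hB
  have h6 : B = principalBlock M G := by
    by_contra hne
    have := hG B hB.2.1 hne
    omega
  rw [h6] at hB
  exact (H20.Height.third_main hM ⟨_, hB⟩).1 hB

section quot
variable {N : Type u} [Group N] [Finite N] (Q' : Subgroup N) [Q'.Normal]

theorem card_comap_mk (H : Subgroup (N ⧸ Q')) :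
    Nat.card (H.comap (QuotientGroup.mk' Q')) = Nat.card H * Nat.card Q' := by
  have h1 := Subgroup.index_mul_card (H.comap (QuotientGroup.mk' Q'))
  have h2 := Subgroup.index_mul_card H
  have h3 := Subgroup.card_eq_card_quotient_mul_card_subgroup Q'
  rw [Subgroup.index_comap_of_surjective H (QuotientGroup.mk'_surjective Q')] at h1
  rw [h3, ← h2, mul_assoc] at h1
  exact Nat.eq_of_mul_eq_mul_left (Nat.pos_of_ne_zero Subgroup.index_ne_zero_of_finite) h1

end quot

/-- downward induction on `Q` -/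
theorem key (r : ℕ) (Bd : ℕ → ℕ)
    (h0 : ∀ Q : Subgroup G, Nat.card Q = 2 ^ r →
      Nat.card (Subgroup.normalizer (Q : Set G)) ≤ Bd 0)
    (hstep : ∀ j, Bd (j + 1) = 2 ^ r * ((2 * Bd j * Bd j).factorial * (Bd j * Bd j * Bd j)))
    (j : ℕ) : ∀ (k : ℕ) (Q E : Subgroup G), k + j = r → Nat.card Q = 2 ^ k → Q ≤ E →
      E ≤ Subgroup.normalizer (Q : Set G) → (∀ x ∈ E, x * x ∈ Q) →
      (∀ x ∈ E, ∀ y ∈ E, x * y * (y * x)⁻¹ ∈ Q) → Nat.card E = 2 ^ (r + 1) →
      Nat.card (Subgroup.normalizer (Q : Set G)) ≤ Bd j := by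
  induction j with
  | zero =>
    intro k Q E hk hQ _ _ _ _ _
    apply h0
    rw [hQ]; congr 1
  | succ j ih =>
    intro k Q E hk hQ hQE hEN hsq hcomm hE
    haveI hQn : (Q.subgroupOf (Subgroup.normalizer (Q : Set G))).Normal :=
      Subgroup.normal_in_normalizer
    have hQN : Q ≤ Subgroup.normalizer (Q : Set G) := Subgroup.le_normalizer
    set N := Subgroup.normalizer (Q : Set G) with hN
    set Q' : Subgroup N := Q.subgroupOf N with hQ'
    have hQ'card : Nat.card Q' = 2 ^ k := by
      rw [← hQ]; exact Nat.card_congr (Subgroup.subgroupOfEquivOfLe hQN).toEquiv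
    -- the elementary abelian group `E / Q`
    set Eb : Subgroup (N ⧸ Q') := (E.subgroupOf N).map (QuotientGroup.mk' Q') with hEb
    have hcomap : Eb.comap (QuotientGroup.mk' Q') = E.subgroupOf N := by
      rw [hEb, QuotientGroup.comap_map_mk', sup_eq_right]
      exact Subgroup.comap_mono hQE
    have hEbcard : Nat.card Eb = 2 ^ (j + 2) := by
      have h1 := card_comap_mk Q' Eb
      rw [hcomap, Nat.card_congr (Subgroup.subgroupOfEquivOfLe hEN).toEquiv, hE, hQ'card] at h1
      have h2 : 2 ^ (r + 1) = 2 ^ (j + 2) * 2 ^ k := by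
        rw [← pow_add]; congr 1; omega
      rw [h2] at h1
      exact (Nat.eq_of_mul_eq_mul_right (pow_pos (by norm_num) k) h1).symm
    have hEbEA : ElemAb Eb (j + 2) := by
      refine ⟨?_, ?_, hEbcard⟩
      · rintro _ ⟨x, hx, rfl⟩ _ ⟨y, hy, rfl⟩
        have h1 := hcomm x hx y hy
        have h2 : ((x * y * (y * x)⁻¹ : N) : N ⧸ Q') = 1 :=
          (QuotientGroup.eq_one_iff _).2 (Subgroup.mem_subgroupOf.2 h1)
        rw [← map_mul, ← map_mul]
        have h3 : (QuotientGroup.mk' Q') (x * y) * ((QuotientGroup.mk' Q') (y * x))⁻¹ = 1 := by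
          rw [← map_inv, ← map_mul]; exact h2
        exact mul_inv_eq_one.1 h3
      · rintro _ ⟨x, hx, rfl⟩
        rw [← map_mul]
        exact (QuotientGroup.eq_one_iff _).2 (Subgroup.mem_subgroupOf.2 (hsq x hx))
    have hK : ∀ z : N ⧸ Q', z * z = 1 → z ≠ 1 → (∃ F : Subgroup (N ⧸ Q'), ElemAb F (j + 2) ∧
        z ∈ F) → Nat.card (Cz z) ≤ Bd j := by
      rintro z hz hz1 ⟨F, hF, hzF⟩
      set F1 : Subgroup G := (F.comap (QuotientGroup.mk' Q')).map N.subtype with hF1
      set Q1 : Subgroup G := ((Subgroup.zpowers z).comap (QuotientGroup.mk' Q')).map N.subtype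
        with hQ1
      have hQQ1 : Q ≤ Q1 := by
        intro q hq
        refine ⟨⟨q, hQN hq⟩, ?_, rfl⟩
        change (QuotientGroup.mk' Q') ⟨q, hQN hq⟩ ∈ Subgroup.zpowers z
        have : (QuotientGroup.mk' Q') ⟨q, hQN hq⟩ = 1 :=
          (QuotientGroup.eq_one_iff _).2 (Subgroup.mem_subgroupOf.2 hq)
        rw [this]; exact one_mem _
      have hQ1N : ∀ x : N, (∀ y ∈ Subgroup.zpowers z, (QuotientGroup.mk' Q') x * y =
          y * (QuotientGroup.mk' Q') x) → (x : G) ∈ Subgroup.normalizer (Q1 : Set G) := by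
        intro x hx
        have key1 : ∀ w : N, (∀ y ∈ Subgroup.zpowers z, (QuotientGroup.mk' Q') w * y =
            y * (QuotientGroup.mk' Q') w) → ∀ g ∈ Q1, (w : G) * g * (w : G)⁻¹ ∈ Q1 := by
          rintro w hw _ ⟨q, hq, rfl⟩
          refine ⟨w * q * w⁻¹, ?_, rfl⟩
          change (QuotientGroup.mk' Q') (w * q * w⁻¹) ∈ Subgroup.zpowers z
          rw [map_mul, map_mul, map_inv, hw _ hq, mul_inv_cancel_right]
          exact hq
        rw [Subgroup.mem_normalizer_iff]
        intro g
        constructor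
        · exact key1 x hx g
        · intro hg
          have h1 := key1 x⁻¹ (by
            intro y hy
            rw [map_inv, inv_mul_eq_iff_eq_mul, ← mul_assoc, hx y hy, mul_inv_cancel_right]) _ hg
          have h2 : ((x⁻¹ : N) : G) * ((x : G) * g * (x : G)⁻¹) * ((x⁻¹ : N) : G)⁻¹ = g := by
            push_cast; group
          rwa [h2] at h1
      have hcardQ1 : Nat.card Q1 = 2 ^ (k + 1) := by
        rw [hQ1, Subgroup.card_map_of_injective (Subgroup.subtype_injective N), card_comap_mk,
          hQ'card, Nat.card_zpowers, orderOf_eq_prime (by rw [sq, hz]) hz1, pow_succ, mul_comm]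
      have hcardF1 : Nat.card F1 = 2 ^ (r + 1) := by
        rw [hF1, Subgroup.card_map_of_injective (Subgroup.subtype_injective N), card_comap_mk,
          hQ'card, hF.2.2, ← pow_add]
        congr 1; omega
      have h3 := ih (k + 1) Q1 F1 (by omega) hcardQ1 (by
          apply Subgroup.map_mono
          apply Subgroup.comap_mono
          exact (Subgroup.zpowers_le).2 hzF) (by
          rintro _ ⟨x, hx, rfl⟩
          apply hQ1N
          intro y hy
          exact hF.1 _ hx y ((Subgroup.zpowers_le).2 hzF hy)) (by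
          rintro _ ⟨x, hx, rfl⟩
          apply hQQ1
          have := hF.2.1 _ hx
          rw [← map_mul] at this
          exact Subgroup.mem_subgroupOf.1 ((QuotientGroup.eq_one_iff _).1 this)) (by
          rintro _ ⟨x, hx, rfl⟩ _ ⟨y, hy, rfl⟩
          apply hQQ1
          have := hF.1 _ hx _ hy
          have h4 : (QuotientGroup.mk' Q') (x * y * (y * x)⁻¹) = 1 := by
            rw [map_mul, map_inv, map_mul, map_mul, this, mul_inv_cancel]
          exact Subgroup.mem_subgroupOf.1 ((QuotientGroup.eq_one_iff _).1 h4)) hcardF1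
      refine le_trans ?_ h3
      have h4 : ((Cz z).comap (QuotientGroup.mk' Q')).map N.subtype ≤
          Subgroup.normalizer (Q1 : Set G) := by
        rintro _ ⟨x, hx, rfl⟩
        apply hQ1N
        intro y hy
        obtain ⟨m, rfl⟩ := Subgroup.mem_zpowers_iff.1 hy
        have h5 : Commute ((QuotientGroup.mk' Q') x) z := mem_Cz.1 hx
        exact (h5.zpow_right m).eq
      have h5 := Subgroup.card_le_of_le h4
      rw [Subgroup.card_map_of_injective (Subgroup.subtype_injective N), card_comap_mk] at h5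
      refine le_trans ?_ h5
      exact Nat.le_mul_of_pos_right _ Nat.card_pos
    have h1 := bounded (by omega : 2 ≤ j + 2) hK hEbEA
    have h2 : Nat.card N = Nat.card (N ⧸ Q') * Nat.card Q' :=
      Subgroup.card_eq_card_quotient_mul_card_subgroup Q'
    rw [h2, hstep, hQ'card, mul_comm]
    exact Nat.mul_le_mul (Nat.pow_le_pow_right (by norm_num) (by omega)) h1

/-- the iterated bound -/
def bd (r K : ℕ) : ℕ → ℕ
  | 0 => K
  | (j + 1) => 2 ^ r * ((2 * bd r K j * bd r K j).factorial * (bd r K j * bd r K j * bd r K j))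

theorem final (a : ℕ) : ∃ N : ℕ, ∀ (G : Type u) [Group G] [Finite G] (M : Ideal AlgInt) (r : ℕ)
    (P : Sylow 2 G), IsPModular 2 M → Nat.card P = 2 ^ a →
    (∀ B : Set (IrrCharacter G), IsPBlock M B → B ≠ principalBlock M G → blockDefect 2 B < r) →
    (∃ E : Subgroup G, E ≤ (P : Subgroup G) ∧ IsMulCommutative E ∧ (∀ x ∈ E, x * x = 1) ∧
      Nat.card E = 2 ^ (r + 1)) → Nat.card G ≤ N := by
  classical
  haveI : Fact (Nat.Prime 2) := ⟨Nat.prime_two⟩
  choose f hf using fun a' => H81.Landau.main.{u} 2 a'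
  set K := ∑ a' ∈ Finset.range (a + 1), f a' with hK
  refine ⟨∑ r ∈ Finset.range (a + 1), bd r K r, ?_⟩
  intro G _ _ M r P hM hP hG ⟨E, hEP, hEc, hEsq, hEcard⟩
  have hra : r + 1 ≤ a := by
    have h1 := Subgroup.card_dvd_of_le hEP
    have h2 : Nat.card (P : Subgroup G) = 2 ^ a := hP
    rw [hEcard, h2] at h1
    exact (Nat.pow_dvd_pow_iff_le_right (by norm_num)).1 h1
  have hfac : (Nat.card G).factorization 2 = a := by
    have h1 := Sylow.card_eq_multiplicity P
    rw [hP] at h1
    exact (Nat.pow_right_injective (le_refl 2) h1).symm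
  have h1 := key (G := G) r (bd r K) (by
    intro Q hQ
    have hQp : IsPGroup 2 Q := IsPGroup.of_card hQ
    have h2 := hf _ (Subgroup.normalizer (Q : Set G)) M hM rfl
      (fun B hB => one_block hM hG hQp hQ.ge B hB)
    refine h2.trans ?_
    change _ ≤ K
    rw [hK]
    apply Finset.single_le_sum (f := f) (fun i _ => Nat.zero_le _)
    rw [Finset.mem_range, Nat.lt_succ_iff, ← hfac]
    exact (Nat.factorization_le_iff_dvd Nat.card_pos.ne' Nat.card_pos.ne').2
      (Subgroup.card_subgroup_dvd_card _) 2) (fun j => rfl) r 0 ⊥ E (by omega) (by simp) bot_le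
    (by rw [Subgroup.normalizer_eq_top]; exact le_top) (fun x hx => by rw [hEsq x hx]; exact one_mem _)
    (by
      intro x hx y hy
      have : (⟨x, hx⟩ : E) * ⟨y, hy⟩ = ⟨y, hy⟩ * ⟨x, hx⟩ := hEc.is_comm.comm _ _
      have h2 : x * y = y * x := congrArg Subtype.val this
      rw [h2, mul_inv_cancel]; exact one_mem _) hEcard
  rw [Subgroup.normalizer_eq_top, Subgroup.card_top] at h1
  refine h1.trans ?_
  exact Finset.single_le_sum (f := fun r => bd r K r) (fun i _ => Nat.zero_le _)
    (Finset.mem_range.2 (by omega))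

end H81.DefClass
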