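import Cfsg.Agent.Lib.H17.DG2
import Cfsg.Agent.Lib.H17.DG10
import Cfsg.Agent.Lib.H60.Ord60
import Cfsg.Agent.Lib.H40.AutAlt
import Cfsg.Agent.Lib.H81.MulPP
import Cfsg.Agent.Lib.H77.DegP4
import Cfsg.Agent.Lib.H81.Deg60a

/-!
# Groups of order 360 with a normal `A₅` (towards S3668)
-/

set_option autoImplicit false
set_option linter.unusedSectionVars false
set_option linter.unusedVariables false
set_option linter.style.haveILetI false
set_option warn.classDefReducibility false

namespace H81.Deg60

open Equiv Cfsg H18.CharBasic H18.CharOrtho H17.DG2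

universe u

/-- values of the character of degree six of `S₅` -/
def c5 (g : Perm (Fin 5)) : ℤ := ((Finset.univ.filter (fun x : Fin 5 => g x = x)).card : ℤ) ^ 2 -
  ((Finset.univ.filter (fun s : Sym2 (Fin 5) => s.map g = s)).card : ℤ) -
  ((Finset.univ.filter (fun x : Fin 5 => g x = x)).card : ℤ) + 1

theorem c5_sum : ∑ g : Perm (Fin 5), c5 g ^ 2 = 120 := by decide +kernel
theorem c5_one : c5 1 = 6 := by decide +kernel

def act2 : MulAction (Perm (Fin 5)) (Sym2 (Fin 5)) where
  smul g s := s.map g
  one_smul s := by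
    change s.map (fun x => x) = s
    rw [Sym2.map_id']; rfl
  mul_smul g h s := by
    change s.map (fun x => g (h x)) = (s.map h).map g
    rw [Sym2.map_map]; rfl

theorem c5_gen : IsGeneralizedCharacter (Perm (Fin 5)) (fun g => (c5 g : ℂ)) := by
  classical
  letI := act2
  have h1 : IsGeneralizedCharacter (Perm (Fin 5)) (fixN (G := Perm (Fin 5)) (Fin 5)) :=
    isGen_of_isCharacter (isCharacter_fixN _)
  have h2 : IsGeneralizedCharacter (Perm (Fin 5)) (fixN (G := Perm (Fin 5)) (Sym2 (Fin 5))) :=
    isGen_of_isCharacter (isCharacter_fixN _)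
  have h3 := isGen_add (isGen_sub (isGen_sub (isGen_mul h1 h1) h2) h1) isGen_one
  convert h3 using 1
  funext g
  simp only [Pi.add_apply, Pi.sub_apply, Pi.mul_apply, c5, fixN]
  have e1 : Nat.card {x : Fin 5 // g • x = x} = (Finset.univ.filter (fun x : Fin 5 => g x = x)).card := by
    rw [Nat.card_eq_fintype_card, Fintype.card_subtype]; rfl
  have e2 : Nat.card {x : Sym2 (Fin 5) // g • x = x} = (Finset.univ.filter (fun s : Sym2 (Fin 5) => s.map g = s)).card := by
    rw [Nat.card_eq_fintype_card, Fintype.card_subtype]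
    congr 1
  rw [e1, e2]
  push_cast
  ring

theorem c5_irr : IsIrrCharacter (Perm (Fin 5)) (fun g => (c5 g : ℂ)) := by
  apply isIrr_of_gen_norm_one c5_gen
  · rw [classInner]
    have h1 : ∑ g : Perm (Fin 5), (c5 g : ℂ) * (starRingEnd ℂ) (c5 g : ℂ) = 120 := by
      have h2 : ((∑ g : Perm (Fin 5), c5 g ^ 2 : ℤ) : ℂ) = 120 := by rw [c5_sum]; norm_num
      rw [← h2]
      push_cast
      refine Finset.sum_congr rfl fun g _ => ?_
      rw [map_intCast (starRingEnd ℂ)]; ring
    rw [h1, Nat.card_eq_fintype_card, Fintype.card_perm, Fintype.card_fin]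
    norm_num [Nat.factorial]
  · rw [c5_one]; norm_num

theorem three_mem {M : Type u} [Group M] [Finite M] [IsSimpleGroup M] (h : Nat.card M = 60) :
    3 ∈ Cfsg.degreePrimes M := by
  letI := Fintype.ofFinite M
  letI : Fintype (IrrCharacter M) := Fintype.ofFinite _
  have f3 : Fact (Nat.Prime 3) := ⟨by norm_num⟩
  have hG := H21.NE.not_comm_of_card h (by norm_num)
  exact mem_of_chk hG h 3 (by norm_num) 8 (by norm_num) [] (by simp)
      [(10, 2, [0, 0, 1]), (10, 2, [0, 1, 0])] (by decide +kernel) (by decide +kernel)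

theorem adj_of {G : Type u} [Group G] {χ : G → ℂ} (h : IsIrrCharacter G χ) {d : ℕ} (hd : χ 1 = d) (h6 : 2 * 3 ∣ d) :
    (Cfsg.degreeGraph G).Adj 2 3 := by
  refine ⟨by norm_num, by norm_num, by norm_num, d, ⟨⟨χ, h⟩, H82.Deg.charDegree_eq_of hd⟩, h6⟩

/-- (B) -/
theorem caseB {G : Type u} [Group G] [Finite G] (hG : Nat.card G = 360) (M : Subgroup G) [M.Normal]
    [IsSimpleGroup M] (hM : Nat.card M = 60) (χ : IrrCharacter G) (h10 : charDegree (χ : G → ℂ) = 10) :
    (Cfsg.degreeGraph G).Adj 2 3 := by
  classical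
  obtain ⟨e⟩ := H60.Ord60.iso_alt5 hM
  let c : Perm (Fin 5) ≃* MulAut (alternatingGroup (Fin 5)) := MulEquiv.ofBijective MulAut.conjNormal
    ⟨H40.AutAlt.injective_conjNormal (by rw [Fintype.card_fin]; norm_num),
      H40.AutAlt.surjective_conjNormal (by rw [Fintype.card_fin]; norm_num) (by rw [Fintype.card_fin]; norm_num)⟩
  let φ : G →* Perm (Fin 5) := c.symm.toMonoidHom.comp ((MulAut.congr e).toMonoidHom.comp MulAut.conjNormal)
  by_cases hs : Function.Surjective φ
  · have h1 := isIrrCharacter_comp φ hs c5_irr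
    exact adj_of (d := 6) h1 (by rw [map_one, c5_one]; norm_num) (by norm_num)
  -- the kernel is the centralizer
  have hker : φ.ker = Subgroup.centralizer (M : Set G) := by
    ext g
    rw [MonoidHom.mem_ker, Subgroup.mem_centralizer_iff]
    have h1 : φ g = 1 ↔ (MulAut.conjNormal g : MulAut M) = 1 := by
      change c.symm (MulAut.congr e (MulAut.conjNormal g)) = 1 ↔ _
      rw [map_eq_one_iff _ c.symm.injective, map_eq_one_iff _ (MulAut.congr e).injective]
    rw [h1]
    constructor
    · intro h m hm
      have h2 := congrArg (fun f : MulAut M => ((f ⟨m, hm⟩ : M) : G)) h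
      simp only [MulAut.conjNormal_apply, MulAut.one_apply] at h2
      rw [mul_inv_eq_iff_eq_mul] at h2
      exact h2.symm
    · intro h
      ext m
      rw [MulAut.conjNormal_apply, MulAut.one_apply, mul_inv_eq_iff_eq_mul]
      exact (h m m.2).symm
  have h1 : ∀ m : M, φ m = (e m : Perm (Fin 5)) := by
    intro m
    apply c.injective
    change c (c.symm (MulAut.congr e (MulAut.conjNormal (m : G)))) = c (e m : Perm (Fin 5))
    rw [MulEquiv.apply_symm_apply]
    ext1 x
    apply Subtype.ext
    have e2 : ((c (e m : Perm (Fin 5))) x : Perm (Fin 5)) = (e m : Perm (Fin 5)) * x * (e m : Perm (Fin 5))⁻¹ :=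
      MulAut.conjNormal_apply _ _
    rw [e2]
    have e3 : (MulAut.congr e (MulAut.conjNormal (m : G))) x = e m * x * (e m)⁻¹ := by
      change e (MulAut.conjNormal (m : G) (e.symm x)) = _
      have e4 : (MulAut.conjNormal (m : G) (e.symm x) : M) = m * e.symm x * m⁻¹ := by
        apply Subtype.ext
        rw [MulAut.conjNormal_apply]; rfl
      rw [e4, map_mul, map_mul, map_inv, e.apply_symm_apply]
    rw [e3]
    rfl
  -- the range is the alternating group
  have hle : (φ.comp M.subtype).range = alternatingGroup (Fin 5) := by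
    ext x
    constructor
    · rintro ⟨m, rfl⟩
      rw [MonoidHom.comp_apply, Subgroup.subtype_apply, h1]
      exact (e m).2
    · intro hx
      refine ⟨e.symm ⟨x, hx⟩, ?_⟩
      rw [MonoidHom.comp_apply, Subgroup.subtype_apply, h1, e.apply_symm_apply]
  have hrange : φ.range = alternatingGroup (Fin 5) := by
    have h1 : alternatingGroup (Fin 5) ≤ φ.range := by
      rw [← hle]
      rintro _ ⟨m, rfl⟩
      exact ⟨m, rfl⟩
    have h2 := Subgroup.relIndex_mul_index h1
    have h3 : (alternatingGroup (Fin 5)).index = 2 := alternatingGroup.index_eq_two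
    have h4 : φ.range.index ≠ 1 := by
      rw [Ne, Subgroup.index_eq_one]
      exact fun h5 => hs (MonoidHom.range_eq_top.1 h5)
    rw [h3] at h2
    have h5 : φ.range.index ∣ 2 := Dvd.intro_left _ h2
    have h6 : φ.range.index = 2 := (Nat.dvd_prime Nat.prime_two).1 h5 |>.resolve_left h4
    rw [h6] at h2
    have h7 : (alternatingGroup (Fin 5)).relIndex φ.range = 1 := by omega
    exact le_antisymm (Subgroup.relIndex_eq_one.1 h7) h1
  have hcard : Nat.card φ.ker = 6 := by
    have h1 := Subgroup.card_mul_index φ.ker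
    rw [Subgroup.index_ker, hrange, hG] at h1
    have h2 : Nat.card (alternatingGroup (Fin 5)) = 60 := by
      rw [nat_card_alternatingGroup, Nat.card_eq_fintype_card, Fintype.card_fin]; rfl
    rw [h2] at h1
    omega
  set C := φ.ker with hC
  have hcomm : ∀ (m : M) (x : C), (m : G) * x = x * m := by
    intro m x
    have h2 : (x : G) ∈ Subgroup.centralizer (M : Set G) := by rw [← hker]; exact x.2
    rw [Subgroup.mem_centralizer_iff] at h2
    exact h2 m m.2
  let f : M × C →* G :=
    { toFun := fun x => (x.1 : G) * (x.2 : G)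
      map_one' := by simp
      map_mul' := by
        intro x y
        simp only [Prod.fst_mul, Prod.snd_mul, Subgroup.coe_mul]
        have := hcomm y.1 x.2
        calc (x.1 : G) * (y.1 : G) * ((x.2 : G) * (y.2 : G))
            = (x.1 : G) * ((y.1 : G) * (x.2 : G)) * (y.2 : G) := by group
          _ = (x.1 : G) * ((x.2 : G) * (y.1 : G)) * (y.2 : G) := by rw [this]
          _ = _ := by group }
  have hfi : Function.Injective f := by
    rw [injective_iff_map_eq_one]
    rintro ⟨m, x⟩ hmx
    have h0 : (m : G) * x = 1 := hmx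
    have h2 : φ (m : G) = 1 := by
      have h3 : (m : G) = (x : G)⁻¹ := eq_inv_of_mul_eq_one_left h0
      rw [h3, map_inv, MonoidHom.mem_ker.1 x.2, inv_one]
    rw [h1 m] at h2
    have h3 : e m = 1 := Subtype.ext h2
    have h4 : m = 1 := by rwa [map_eq_one_iff _ e.injective] at h3
    subst h4
    rw [Subgroup.coe_one, one_mul] at h0
    have h5 : x = 1 := Subtype.ext h0
    rw [h5]; rfl
  have hfb : Function.Bijective f := by
    rw [Nat.bijective_iff_injective_and_card]
    refine ⟨hfi, ?_⟩
    rw [Nat.card_prod, hM, hcard, hG]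
  let E : M × C ≃* G := MulEquiv.ofBijective f hfb
  by_cases hab : IsMulCommutative C
  · exfalso
    have h1 := H77.DegP.sq_le_index_center χ
    have h2 : C ≤ Subgroup.center G := by
      intro x hx
      rw [Subgroup.mem_center_iff]
      intro g
      obtain ⟨⟨m, y⟩, rfl⟩ := hfb.surjective g
      have h3 := hcomm m ⟨x, hx⟩
      have h4 : (⟨x, hx⟩ : C) * y = y * ⟨x, hx⟩ := hab.is_comm.comm _ _
      have h5 : x * (y : G) = y * x := congrArg Subtype.val h4
      change (m : G) * y * x = x * (m * y)
      rw [mul_assoc, ← h5, ← mul_assoc, ← mul_assoc]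
      simp only at h3
      rw [h3]
    have h3 : (Subgroup.center G).index ≤ C.index := Nat.le_of_dvd (Nat.pos_of_ne_zero Subgroup.index_ne_zero_of_finite)
      (Subgroup.index_dvd_of_le h2)
    have h4 : C.index = 60 := by
      have := C.card_mul_index
      rw [hcard, hG] at this
      omega
    have h5 : charDegree (χ.1) = 10 := h10
    rw [h5] at h1
    omega
  · obtain ⟨β, hβ⟩ := H81.MulPP.exists_nonlinear hab
    obtain ⟨-, d, ⟨θ, hθ⟩, h3⟩ := three_mem hM
    have hβ2 : charDegree (β : C → ℂ) = 2 := by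
      letI : Fintype (IrrCharacter C) := Fintype.ofFinite _
      have h1 := H82.Deg.sum_degree_sq_nat (G := C)
      rw [hcard] at h1
      have h2 : charDegree (β : C → ℂ) ^ 2 ≤ 6 := by
        rw [← h1]
        exact Finset.single_le_sum (f := fun χ : IrrCharacter C => charDegree (χ : C → ℂ) ^ 2) (fun _ _ => Nat.zero_le _) (Finset.mem_univ β)
      have h4 : charDegree (β : C → ℂ) ≠ 1 := by
        intro h5
        apply hβ
        rw [← H82.Deg.coe_charDegree', h5]; simp
      have h5 := H82.Deg.charDegree_pos β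
      have h6 : charDegree (β : C → ℂ) < 3 := by
        by_contra h7
        push Not at h7
        nlinarith
      omega
    have h4 := H17.DG1.irr_prod θ.2 β.2
    have h5 := isIrrCharacter_comp E.symm.toMonoidHom E.symm.surjective h4
    refine adj_of (d := d * 2) h5 ?_ ?_
    · simp only [MulEquiv.toMonoidHom_eq_coe, map_one, Prod.fst_one, Prod.snd_one]
      push_cast
      rw [← hθ, H82.Deg.coe_charDegree', ← H82.Deg.coe_charDegree' β, hβ2]
      norm_num
    · rw [mul_comm]
      exact Nat.mul_dvd_mul_right h3 2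

end H81.Deg60
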