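import Mathlib
import Cfsg.Agent.Lib.H29.PGrp

/-!
# A bound for the order in terms of centralizers of good involutions (Brauer-Fowler type)
-/

set_option autoImplicit false
set_option linter.unusedSectionVars false
set_option linter.unusedVariables false
set_option linter.style.haveILetI false

open Subgroup
open scoped Pointwise

namespace H81.Fowler

universe u
variable {X : Type u} [Group X] [Finite X]

/-- centralizer of an element -/
abbrev Cz (x : X) : Subgroup X := Subgroup.centralizer ({x} : Set X)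

theorem mem_Cz {x g : X} : g ∈ Cz x ↔ g * x = x * g := Subgroup.mem_centralizer_singleton_iff

theorem core_index (H : Subgroup X) {m : ℕ} (hm : H.index ≤ m) :
    H.normalCore.index ≤ m.factorial := by
  have h : H.normalCore.index ∣ H.index.factorial := by
    rw [normalCore_eq_ker, index_ker, index_eq_card, ← Nat.card_perm]
    exact card_subgroup_dvd_card (MulAction.toPermHom X (X ⧸ H)).range
  exact (Nat.le_of_dvd (Nat.factorial_pos _) h).trans (Nat.factorial_le hm)

theorem card_Cz_conj (g c : X) : Nat.card (Cz (g * c * g⁻¹)) ≤ Nat.card (Cz c) := by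
  refine Nat.card_le_card_of_injective (fun x : Cz (g * c * g⁻¹) => (⟨g⁻¹ * x * g, ?_⟩ : Cz c)) ?_
  · rw [mem_Cz]
    have h := mem_Cz.1 x.2
    calc g⁻¹ * (x : X) * g * c = g⁻¹ * ((x : X) * (g * c * g⁻¹)) * g := by group
      _ = g⁻¹ * ((g * c * g⁻¹) * x) * g := by rw [h]
      _ = c * (g⁻¹ * x * g) := by group
  · intro x y hxy
    have h1 : g⁻¹ * (x : X) * g = g⁻¹ * y * g := congrArg Subtype.val hxy
    exact Subtype.ext (mul_left_cancel (mul_right_cancel h1))

/-- two involutions whose product has odd order are conjugate -/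
theorem conj_of_odd {c w : X} (hc : c * c = 1) (hw : w * w = 1) {j : ℕ}
    (hj : (c * w) ^ (2 * j + 1) = 1) : ∃ g : X, g * c * g⁻¹ = w := by
  have hcinv : c⁻¹ = c := inv_eq_of_mul_eq_one_right hc
  have hwinv : w⁻¹ = w := inv_eq_of_mul_eq_one_right hw
  have h1 : c * (c * w) * c⁻¹ = (c * w)⁻¹ := by
    rw [mul_inv_rev, hcinv, hwinv, ← mul_assoc, hc, one_mul]
  have h2 : ∀ k : ℕ, c * (c * w) ^ k * c⁻¹ = ((c * w) ^ k)⁻¹ := by
    intro k
    have : (c * (c * w) * c⁻¹) ^ k = ((c * w)⁻¹) ^ k := by rw [h1]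
    rw [conj_pow, inv_pow] at this
    exact this
  refine ⟨((c * w) ^ j), ?_⟩
  have h3 : (c * w) ^ j * c = c * ((c * w) ^ j)⁻¹ := by
    have := h2 j
    rw [hcinv] at this
    rw [← this, ← mul_assoc, ← mul_assoc, hc, one_mul]
  rw [h3]
  have h5 : ((c * w) ^ j)⁻¹ * ((c * w) ^ j)⁻¹ = c * w := by
    have h6 : (c * w) ^ (2 * j + 1) = (c * w) * ((c * w) ^ j * (c * w) ^ j) := by
      rw [pow_succ', two_mul, pow_add]
    rw [h6] at hj
    rw [← mul_inv_rev]
    exact (eq_inv_of_mul_eq_one_left hj).symm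
  rw [mul_assoc, h5, ← mul_assoc, hc, one_mul]

/-- the involution commuting with `a` and `n b n⁻¹` -/
theorem exists_w {N : Subgroup X} [hNn : N.Normal] (hN : Odd (Nat.card N)) {a b : X}
    (ha : a * a = 1) (hb : b * b = 1) (hab : a * b = b * a) (n : N) :
    ∃ w : X, w * w = 1 ∧ w ∈ Cz a ∧ (n : X) * b * (n : X)⁻¹ ∈ Cz w ∧ (a * b) * w ∈ N := by
  have hainv : a⁻¹ = a := inv_eq_of_mul_eq_one_right ha
  set v : X := (n : X) * b * (n : X)⁻¹ with hv
  have hvv : v * v = 1 := by
    rw [hv]
    calc (n : X) * b * (n : X)⁻¹ * ((n : X) * b * (n : X)⁻¹) = (n : X) * (b * b) * (n : X)⁻¹ := by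
          group
      _ = 1 := by rw [hb]; group
  have hvinv : v⁻¹ = v := inv_eq_of_mul_eq_one_right hvv
  set x : X := a * v with hx
  set m' : ℕ := orderOf x / 2 ^ (orderOf x).factorization 2 with hm'
  set s : ℕ := (orderOf x).factorization 2 with hs
  have hodd : ¬ 2 ∣ m' := Nat.not_dvd_ordCompl Nat.prime_two (orderOf_pos x).ne'
  have hmul : 2 ^ s * m' = orderOf x := Nat.ordProj_mul_ordCompl_eq_self _ 2
  -- images in the quotient
  have hq1 : (QuotientGroup.mk' N) x = (QuotientGroup.mk' N) (a * b) := by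
    have hn1 : (QuotientGroup.mk' N) (n : X) = 1 := (QuotientGroup.eq_one_iff _).2 n.2
    rw [hx, hv, map_mul, map_mul, map_mul, map_inv, hn1, inv_one, mul_one, one_mul, map_mul]
  have hcc : (a * b) * (a * b) = 1 := by
    calc (a * b) * (a * b) = a * (b * a) * b := by group
      _ = a * (a * b) * b := by rw [hab]
      _ = (a * a) * (b * b) := by group
      _ = 1 := by rw [ha, hb, one_mul]
  have hqc : ((QuotientGroup.mk' N) (a * b)) ^ 2 = 1 := by
    rw [sq, ← map_mul, hcc, map_one]
  have hqw : (QuotientGroup.mk' N) (x ^ m') = (QuotientGroup.mk' N) (a * b) := by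
    rw [map_pow, hq1]
    obtain ⟨k, hk⟩ := Nat.odd_iff.2 (Nat.two_dvd_ne_zero.1 hodd)
    rw [hk, pow_succ, pow_mul, hqc, one_pow, one_mul]
  have hww : x ^ m' * x ^ m' = 1 := by
    have hmem : x ^ m' * x ^ m' ∈ N := by
      rw [← QuotientGroup.eq_one_iff]
      have : ((QuotientGroup.mk' N) (x ^ m')) * ((QuotientGroup.mk' N) (x ^ m')) = 1 := by
        rw [hqw, ← sq, hqc]
      exact this
    have h1 : orderOf (x ^ m' * x ^ m') ∣ Nat.card N := by
      have := orderOf_dvd_natCard (⟨_, hmem⟩ : N)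
      rwa [Subgroup.orderOf_mk] at this
    have h2 : orderOf (x ^ m' * x ^ m') ∣ 2 ^ s := by
      apply orderOf_dvd_of_pow_eq_one
      rw [← pow_add, ← pow_mul, ← two_mul, mul_assoc, mul_comm m', hmul, mul_comm 2, pow_mul,
        pow_orderOf_eq_one, one_pow]
    have h3 : Nat.Coprime (Nat.card N) (2 ^ s) :=
      Nat.Coprime.pow_right _ (Nat.coprime_comm.1 (Nat.Coprime.symm hN.coprime_two_right))
    have h4 := Nat.dvd_gcd h1 h2
    rw [h3] at h4
    exact orderOf_eq_one_iff.1 (Nat.dvd_one.1 h4)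
  have hax : a * x * a⁻¹ = x⁻¹ := by
    rw [hx, mul_inv_rev, hainv, hvinv, ← mul_assoc, ha, one_mul]
  have haw : a * x ^ m' * a⁻¹ = x ^ m' := by
    rw [← conj_pow, hax, inv_pow]
    exact inv_eq_of_mul_eq_one_right hww
  have hcomm : x ^ m' * a = a * x ^ m' := by
    conv_lhs => rw [← haw]
    rw [inv_mul_cancel_right]
  refine ⟨x ^ m', hww, ?_, ?_, ?_⟩
  · rw [mem_Cz]; exact hcomm
  · rw [mem_Cz]
    have hvx : v = a * x := by rw [hx, ← mul_assoc, ha, one_mul]
    have h5 : x * x ^ m' = x ^ m' * x := ((Commute.refl x).pow_right m').eq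
    rw [hvx, mul_assoc, h5, ← mul_assoc, ← hcomm, mul_assoc]
  · rw [← QuotientGroup.eq_one_iff]
    have : ((QuotientGroup.mk' N) (a * b)) * ((QuotientGroup.mk' N) (x ^ m')) = 1 := by
      rw [hqw, ← sq, hqc]
    exact this

/-- normal subgroups of odd order are bounded -/
theorem odd_bound {N : Subgroup X} [hNn : N.Normal] (hN : Odd (Nat.card N)) {a b : X}
    (ha : a * a = 1) (hb : b * b = 1) (hab : a * b = b * a) {K : ℕ}
    (h1 : Nat.card (Cz a) ≤ K) (h2 : Nat.card (Cz b) ≤ K) (h3 : Nat.card (Cz (a * b)) ≤ K) :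
    Nat.card N ≤ K * K * K := by
  classical
  letI := Fintype.ofFinite X
  letI := Fintype.ofFinite N
  choose w hw1 hw2 hw3 hw4 using fun n : N => exists_w hN ha hb hab n
  have hcc : (a * b) * (a * b) = 1 := by
    calc (a * b) * (a * b) = a * (b * a) * b := by group
      _ = a * (a * b) * b := by rw [hab]
      _ = (a * a) * (b * b) := by group
      _ = 1 := by rw [ha, hb, one_mul]
  have hcw : ∀ n : N, Nat.card (Cz (w n)) ≤ K := by
    intro n
    obtain ⟨j, hj⟩ := hN
    have h5 : ((a * b) * w n) ^ (2 * j + 1) = 1 := by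
      rw [← hj]
      have := pow_card_eq_one' (x := (⟨_, hw4 n⟩ : N))
      exact congrArg Subtype.val this
    obtain ⟨g, hg⟩ := conj_of_odd hcc (hw1 n) h5
    rw [← hg]
    exact (card_Cz_conj g _).trans h3
  have hcardN : Nat.card N = (Finset.univ : Finset N).card := by
    rw [Finset.card_univ, Nat.card_eq_fintype_card]
  rw [hcardN]
  have k1 : (Finset.univ : Finset N).card ≤ (K * K) * (Finset.univ.image w).card := by
    apply Finset.card_le_mul_card_image
    intro w0 hw0
    obtain ⟨n0, _, rfl⟩ := Finset.mem_image.1 hw0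
    have k2 : (Finset.univ.filter fun n => w n = w n0).card ≤
        K * ((Finset.univ.filter fun n => w n = w n0).image
          (fun n : N => (n : X) * b * (n : X)⁻¹)).card := by
      apply Finset.card_le_mul_card_image
      intro v0 hv0
      obtain ⟨n1, hn1, rfl⟩ := Finset.mem_image.1 hv0
      refine le_trans ?_ h2
      rw [Nat.card_eq_fintype_card]
      refine Finset.card_le_card_of_injOn (t := (Finset.univ : Finset (Cz b)))
        (fun n : N => if h : (n1 : X)⁻¹ * n ∈ Cz b then ⟨(n1 : X)⁻¹ * n, h⟩ else 1)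
        (fun _ _ => Finset.mem_univ _) ?_
      have hmem : ∀ n : N, (n : X) * b * (n : X)⁻¹ = (n1 : X) * b * (n1 : X)⁻¹ →
          (n1 : X)⁻¹ * n ∈ Cz b := by
        intro n hn
        rw [mem_Cz]
        have h6 : (n : X) * b = (n1 : X) * b * (n1 : X)⁻¹ * n := by
          rw [← hn]; group
        rw [mul_assoc, h6]; group
      intro n hn n' hn' heq
      have e1 := hmem n (Finset.mem_filter.1 hn).2
      have e2 := hmem n' (Finset.mem_filter.1 hn').2
      simp only at heq
      rw [dif_pos e1, dif_pos e2] at heq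
      have h7 : (n1 : X)⁻¹ * n = (n1 : X)⁻¹ * n' := congrArg Subtype.val heq
      exact Subtype.ext (mul_left_cancel h7)
    refine k2.trans (Nat.mul_le_mul_left K ?_)
    refine le_trans ?_ (hcw n0)
    have h8 : ((Finset.univ.filter fun n => w n = w n0).image
          (fun n : N => (n : X) * b * (n : X)⁻¹)) ⊆
        (Finset.univ : Finset (Cz (w n0))).image Subtype.val := by
      intro v hv
      obtain ⟨n, hn, rfl⟩ := Finset.mem_image.1 hv
      rw [Finset.mem_image]
      have h9 := hw3 n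
      rw [(Finset.mem_filter.1 hn).2] at h9
      exact ⟨⟨_, h9⟩, Finset.mem_univ _, rfl⟩
    refine (Finset.card_le_card h8).trans (Finset.card_image_le.trans ?_)
    rw [Finset.card_univ, Nat.card_eq_fintype_card]
  refine k1.trans (Nat.mul_le_mul_left _ ?_)
  refine le_trans ?_ h1
  have h8 : (Finset.univ.image w) ⊆ (Finset.univ : Finset (Cz a)).image Subtype.val := by
    intro v hv
    obtain ⟨n, hn, rfl⟩ := Finset.mem_image.1 hv
    rw [Finset.mem_image]
    exact ⟨⟨_, hw2 n⟩, Finset.mem_univ _, rfl⟩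
  refine (Finset.card_le_card h8).trans (Finset.card_image_le.trans ?_)
  rw [Finset.card_univ, Nat.card_eq_fintype_card]

/-- normal subgroups of even order contain central involutions of Sylow subgroups -/
theorem exists_central (S : Sylow 2 X) (W : Subgroup X) [hWn : W.Normal]
    (hW : Even (Nat.card W)) : ∃ z ∈ W, z ∈ S ∧ (∀ s ∈ S, s * z = z * s) ∧ z * z = 1 ∧ z ≠ 1 := by
  haveI : Fact (Nat.Prime 2) := ⟨Nat.prime_two⟩
  obtain ⟨w, hw⟩ := exists_prime_orderOf_dvd_card' 2 hW.two_dvd
  have hwo : orderOf (w : X) = 2 := by rw [Subgroup.orderOf_coe, hw]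
  have hzp : IsPGroup 2 (Subgroup.zpowers (w : X)) := by
    apply IsPGroup.of_card (n := 1)
    rw [Nat.card_zpowers, hwo, pow_one]
  obtain ⟨S', hS'⟩ := hzp.exists_le_sylow
  obtain ⟨g, hg⟩ := MulAction.exists_smul_eq X S S'
  have hne : (S : Subgroup X) ⊓ W ≠ ⊥ := by
    have h1 : (w : X) ∈ S' := hS' (Subgroup.mem_zpowers _)
    rw [← hg] at h1
    have h2 : g⁻¹ * w * g ∈ (S : Subgroup X) := by
      have : (w : X) ∈ (MulAut.conj g) • (S : Subgroup X) := h1
      rw [Subgroup.mem_pointwise_smul_iff_inv_smul_mem] at this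
      simpa [MulAut.smul_def] using this
    have h3 : g⁻¹ * w * g ∈ W := by
      have := hWn.conj_mem w w.2 g⁻¹
      rwa [inv_inv] at this
    intro hb
    have h4 : g⁻¹ * (w : X) * g ∈ (S : Subgroup X) ⊓ W := ⟨h2, h3⟩
    rw [hb, Subgroup.mem_bot] at h4
    have h5 : (w : X) = 1 := by
      have : (w : X) = g * (g⁻¹ * w * g) * g⁻¹ := by group
      rw [this, h4]; group
    rw [h5, orderOf_one] at hwo
    norm_num at hwo
  have hnor : (S : Subgroup X) ≤ normalizer (((S : Subgroup X) ⊓ W : Subgroup X) : Set X) := by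
    intro s hs
    rw [Subgroup.mem_normalizer_iff]
    intro x
    constructor
    · rintro ⟨h1, h2⟩
      exact ⟨(S : Subgroup X).mul_mem ((S : Subgroup X).mul_mem hs h1) ((S : Subgroup X).inv_mem hs),
        hWn.conj_mem x h2 s⟩
    · rintro ⟨h1, h2⟩
      have e : x = s⁻¹ * (s * x * s⁻¹) * s := by group
      refine ⟨?_, ?_⟩
      · rw [e]
        exact (S : Subgroup X).mul_mem ((S : Subgroup X).mul_mem ((S : Subgroup X).inv_mem hs) h1) hs
      · rw [e]
        have := hWn.conj_mem _ h2 s⁻¹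
        rwa [inv_inv] at this
  have h1 := H29.PGrp.inf_center_ne_bot S.isPGroup' (M := (S : Subgroup X) ⊓ W) inf_le_left hnor hne
  set C0 : Subgroup X := (S : Subgroup X) ⊓ W ⊓ centralizer ((S : Subgroup X) : Set X) with hC0
  have hC0p : IsPGroup 2 C0 := S.isPGroup'.to_le (inf_le_left.trans inf_le_left)
  have hdvd : 2 ∣ Nat.card C0 := by
    obtain ⟨n, hn⟩ := IsPGroup.iff_card.1 hC0p
    have h2 : 1 < Nat.card C0 := (Subgroup.one_lt_card_iff_ne_bot C0).2 h1
    rw [hn] at h2 ⊢
    apply dvd_pow_self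
    rintro rfl
    simp at h2
  obtain ⟨z, hz⟩ := exists_prime_orderOf_dvd_card' 2 hdvd
  have hzo : orderOf (z : X) = 2 := by rw [Subgroup.orderOf_coe, hz]
  refine ⟨z, z.2.1.2, z.2.1.1, ?_, ?_, ?_⟩
  · intro s hs
    exact Subgroup.mem_centralizer_iff.1 z.2.2 s hs
  · rw [← sq, ← hzo, pow_orderOf_eq_one]
  · intro h
    rw [h, orderOf_one] at hzo
    norm_num at hzo

/-- elementary abelian subgroups of order `2 ^ s` -/
def ElemAb (E : Subgroup X) (s : ℕ) : Prop :=
  (∀ x ∈ E, ∀ y ∈ E, x * y = y * x) ∧ (∀ x ∈ E, x * x = 1) ∧ Nat.card E = 2 ^ s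

theorem ElemAb.isPGroup {E : Subgroup X} {s : ℕ} (h : ElemAb E s) : IsPGroup 2 E :=
  IsPGroup.of_card h.2.2

theorem good_of_central {S E : Subgroup X} {s : ℕ} (hE : ElemAb E s) (hs : 1 ≤ s) (hES : E ≤ S)
    {z : X} (hz : z * z = 1) (hzS : ∀ x ∈ S, x * z = z * x) : ∃ E', ElemAb E' s ∧ z ∈ E' := by
  haveI : Fact (Nat.Prime 2) := ⟨Nat.prime_two⟩
  have hzinv : z⁻¹ = z := inv_eq_of_mul_eq_one_right hz
  let A : Subgroup X :=
    { carrier := {x | x ∈ E ∨ x * z ∈ E}
      one_mem' := Or.inl (one_mem E)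
      mul_mem' := by
        have hzc : ∀ y, y * z ∈ E → y * z = z * y := by
          intro y hy
          have h1 := hzS _ (hES hy)
          rw [← mul_assoc] at h1
          exact mul_right_cancel h1
        rintro x y (hx | hx) (hy | hy)
        · exact Or.inl (mul_mem hx hy)
        · right
          rw [mul_assoc]; exact mul_mem hx hy
        · right
          have h1 := hzS _ (hES hy)
          rw [mul_assoc, h1, ← mul_assoc]; exact mul_mem hx hy
        · left
          have h1 := hzc y hy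
          have h2 : x * y = (x * z) * (y * z) := by
            rw [h1, ← mul_assoc, mul_assoc x z z, hz, mul_one]
          rw [h2]; exact mul_mem hx hy
      inv_mem' := by
        rintro x (hx | hx)
        · exact Or.inl (inv_mem hx)
        · right
          have h1 := hzS _ (hES hx)
          have h2 : x * z = z * x := by
            rw [← mul_assoc] at h1
            exact mul_right_cancel h1
          have h3 := inv_mem hx
          rw [h2, mul_inv_rev, hzinv] at h3
          exact h3 }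
  have hEA : E ≤ A := fun x hx => Or.inl hx
  have hzA : z ∈ A := Or.inr (by rw [hz]; exact one_mem E)
  have hAcomm : ∀ x ∈ A, x * z = z * x := by
    rintro x (hx | hx)
    · exact hzS _ (hES hx)
    · have h1 := hzS _ (hES hx)
      rw [← mul_assoc] at h1
      exact mul_right_cancel h1
  have hAab : ∀ x ∈ A, ∀ y ∈ A, x * y = y * x := by
    intro x hx y hy
    have c1 := hAcomm x hx
    have c2 := hAcomm y hy
    rcases hx with hx | hx <;> rcases hy with hy | hy
    · exact hE.1 x hx y hy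
    · have := hE.1 x hx _ hy
      rw [← mul_assoc, mul_assoc y z x, ← c1, ← mul_assoc] at this
      exact mul_right_cancel this
    · have := hE.1 _ hx y hy
      rw [mul_assoc, ← c2, ← mul_assoc, ← mul_assoc] at this
      exact mul_right_cancel this
    · have := hE.1 _ hx _ hy
      have e1 : x * z * (y * z) = x * y := by
        rw [c2, ← mul_assoc, mul_assoc x z z, hz, mul_one]
      have e2 : y * z * (x * z) = y * x := by
        rw [c1, ← mul_assoc, mul_assoc y z z, hz, mul_one]
      rwa [e1, e2] at this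
  have hAsq : ∀ x ∈ A, x * x = 1 := by
    intro x hx
    have c1 := hAcomm x hx
    rcases hx with hx | hx
    · exact hE.2.1 x hx
    · have := hE.2.1 _ hx
      have e1 : x * z * (x * z) = x * x := by
        conv_lhs => rw [c1, ← mul_assoc, ← c1, mul_assoc x z z, hz, mul_one]
      rwa [e1] at this
  have hdvd : 2 ^ s ∣ Nat.card A := by
    rw [← hE.2.2]
    exact Subgroup.card_dvd_of_le hEA
  set Z : Subgroup A := Subgroup.zpowers (⟨z, hzA⟩ : A) with hZ
  have hZcard : ∃ n, Nat.card Z = 2 ^ n ∧ n ≤ s := by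
    by_cases h : z = 1
    · refine ⟨0, ?_, Nat.zero_le _⟩
      have : (⟨z, hzA⟩ : A) = 1 := Subtype.ext h
      rw [hZ, this, Subgroup.zpowers_one_eq_bot, Subgroup.card_bot, pow_zero]
    · refine ⟨1, ?_, hs⟩
      rw [hZ, Nat.card_zpowers, pow_one, Subgroup.orderOf_mk]
      exact orderOf_eq_prime (by rw [sq, hz]) h
  obtain ⟨n, hn1, hn2⟩ := hZcard
  obtain ⟨E1, hE1, hZE⟩ := Sylow.exists_subgroup_card_pow_prime_le 2 hdvd Z hn1 hn2
  refine ⟨E1.map A.subtype, ⟨?_, ?_, ?_⟩, ?_⟩
  · rintro _ ⟨x, _, rfl⟩ _ ⟨y, _, rfl⟩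
    exact hAab x x.2 y y.2
  · rintro _ ⟨x, _, rfl⟩
    exact hAsq x x.2
  · rw [Subgroup.card_map_of_injective (Subgroup.subtype_injective A), hE1]
  · exact ⟨⟨z, hzA⟩, hZE (Subgroup.mem_zpowers _), rfl⟩

end H81.Fowler
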