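import Cfsg.Agent.Lib.H81.Fowler

/-!
# The Brauer-Fowler type bound
-/

set_option autoImplicit false
set_option linter.unusedSectionVars false
set_option linter.unusedVariables false
set_option linter.style.haveILetI false

open Subgroup
open scoped Pointwise

namespace H81.Fowler

universe u
variable {X : Type u} [Group X] [Finite X]

/-- an involution commuting with `z` and `v` when `C(zv)` has even order -/
theorem exists_common {z v : X} (hz : z * z = 1) (hv : v * v = 1)
    (h : Even (Nat.card (Cz (z * v)))) : ∃ w : X, w * w = 1 ∧ w ≠ 1 ∧ w ∈ Cz z ∧ v ∈ Cz w := by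
  haveI : Fact (Nat.Prime 2) := ⟨Nat.prime_two⟩
  have hzinv : z⁻¹ = z := inv_eq_of_mul_eq_one_right hz
  have hvinv : v⁻¹ = v := inv_eq_of_mul_eq_one_right hv
  set x := z * v with hx
  have hzx : z * x * z⁻¹ = x⁻¹ := by
    rw [hx, mul_inv_rev, hzinv, hvinv, ← mul_assoc, hz, one_mul]
  -- the normalizer of `⟨x⟩`
  set Y : Subgroup X := normalizer ((zpowers x : Subgroup X) : Set X) with hY
  have hzY : z ∈ Y := by
    rw [hY, Subgroup.mem_normalizer_iff]
    intro g
    constructor
    · intro hg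
      obtain ⟨k, rfl⟩ := Subgroup.mem_zpowers_iff.1 hg
      rw [← conj_zpow, hzx]
      exact Subgroup.zpow_mem _ (Subgroup.inv_mem _ (Subgroup.mem_zpowers x)) k
    · intro hg
      obtain ⟨k, hk⟩ := Subgroup.mem_zpowers_iff.1 hg
      have : g = z⁻¹ * (z * g * z⁻¹) * z := by group
      rw [this, ← hk, hzinv]
      have h2 : z * x ^ k * z = (z * x * z⁻¹) ^ k := by
        rw [conj_zpow, hzinv]
      rw [h2, hzx]
      exact Subgroup.zpow_mem _ (Subgroup.inv_mem _ (Subgroup.mem_zpowers x)) k
  have hCY : Cz x ≤ Y := by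
    intro g hg
    rw [mem_Cz] at hg
    rw [hY, Subgroup.mem_normalizer_iff]
    have h1 : g * x * g⁻¹ = x := by rw [hg, mul_inv_cancel_right]
    intro y
    constructor
    · intro hy
      obtain ⟨k, rfl⟩ := Subgroup.mem_zpowers_iff.1 hy
      rw [← conj_zpow, h1]
      exact Subgroup.zpow_mem _ (Subgroup.mem_zpowers x) k
    · intro hy
      obtain ⟨k, hk⟩ := Subgroup.mem_zpowers_iff.1 hy
      have h2 : x ^ k = g * x ^ k * g⁻¹ := by rw [← conj_zpow, h1]
      rw [h2] at hk
      have : x ^ k = y := mul_left_cancel (mul_right_cancel hk)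
      rw [← this]
      exact Subgroup.zpow_mem _ (Subgroup.mem_zpowers x) k
  have hnor : ((Cz x).subgroupOf Y).Normal := by
    refine ⟨fun c hc g => ?_⟩
    rw [Subgroup.mem_subgroupOf, mem_Cz] at hc ⊢
    push_cast
    -- `g⁻¹ x g` is a power of `x`
    have h1 : (g : X)⁻¹ * x * (g : X) ∈ zpowers x := by
      have := (Subgroup.mem_normalizer_iff.1 (Y.inv_mem g.2) x).1 (Subgroup.mem_zpowers x)
      rwa [inv_inv] at this
    obtain ⟨k, hk⟩ := Subgroup.mem_zpowers_iff.1 h1
    have h2 : (c : X) * x ^ k = x ^ k * c := ((show Commute (c : X) x from hc).zpow_right k).eq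
    rw [hk] at h2
    calc (g : X) * c * (g : X)⁻¹ * x = g * (c * ((g : X)⁻¹ * x * g)) * (g : X)⁻¹ := by group
      _ = g * (((g : X)⁻¹ * x * g) * c) * (g : X)⁻¹ := by rw [h2]
      _ = x * (g * c * (g : X)⁻¹) := by group
  -- a Sylow subgroup of `Y` containing `z`
  have hzp : IsPGroup 2 (Subgroup.zpowers (⟨z, hzY⟩ : Y)) := by
    rw [IsPGroup.iff_orderOf]
    rintro ⟨g, hg⟩
    obtain ⟨k, rfl⟩ := Subgroup.mem_zpowers_iff.1 hg
    have h3 : ((⟨z, hzY⟩ : Y) ^ k) ^ 2 = 1 := by
      rw [← zpow_natCast, ← zpow_mul, mul_comm, zpow_mul]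
      have : (⟨z, hzY⟩ : Y) ^ ((2 : ℕ) : ℤ) = 1 := by
        rw [zpow_natCast, sq]
        exact Subtype.ext hz
      rw [this, one_zpow]
    have h4 := orderOf_dvd_of_pow_eq_one h3
    rw [Subgroup.orderOf_mk]
    have h5 : orderOf ((⟨z, hzY⟩ : Y) ^ k) ∣ 2 ^ 1 := by rwa [pow_one]
    obtain ⟨m, hm, hm'⟩ := (Nat.dvd_prime_pow Nat.prime_two).1 h5
    exact ⟨m, hm'⟩
  obtain ⟨S, hS⟩ := hzp.exists_le_sylow
  have heven : Even (Nat.card ((Cz x).subgroupOf Y)) := by
    rw [Nat.card_congr (Subgroup.subgroupOfEquivOfLe hCY).toEquiv]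
    exact h
  obtain ⟨w, hw1, hw2, hw3, hw4, hw5⟩ := exists_central S ((Cz x).subgroupOf Y) heven
  have c1 : (w : X) * x = x * w := by
    rw [Subgroup.mem_subgroupOf, mem_Cz] at hw1
    exact hw1
  have c2 : z * (w : X) = w * z := congrArg Subtype.val (hw3 ⟨z, hzY⟩ (hS (Subgroup.mem_zpowers _)))
  refine ⟨w, congrArg Subtype.val hw4, fun hc => hw5 (Subtype.ext hc), ?_, ?_⟩
  · rw [mem_Cz]; exact c2.symm
  · rw [mem_Cz]
    have hvx : v = z * x := by rw [hx, ← mul_assoc, hz, one_mul]
    rw [hvx, mul_assoc, ← c1, ← mul_assoc, c2, mul_assoc]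

theorem card_eq (H : Subgroup X) : Nat.card X = H.index * Nat.card H :=
  (Subgroup.index_mul_card H).symm

section main
variable {s K : ℕ} (hs : 2 ≤ s)
  (hK : ∀ z : X, z * z = 1 → z ≠ 1 → (∃ E : Subgroup X, ElemAb E s ∧ z ∈ E) →
    Nat.card (Cz z) ≤ K) {E : Subgroup X} (hE : ElemAb E s)

include hs hK hE in
theorem odd_le (N : Subgroup X) [N.Normal] (hN : Odd (Nat.card N)) : Nat.card N ≤ K * K * K := by
  classical
  -- two distinct involutions of `E`
  have hcard : 4 ≤ Nat.card E := by
    rw [hE.2.2]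
    calc 4 = 2 ^ 2 := by norm_num
      _ ≤ 2 ^ s := Nat.pow_le_pow_right (by norm_num) hs
  letI := Fintype.ofFinite E
  rw [Nat.card_eq_fintype_card] at hcard
  obtain ⟨a, ha⟩ : ∃ a : E, a ≠ 1 := by
    by_contra! hc
    have : Fintype.card E ≤ 1 := by
      rw [Fintype.card_le_one_iff]
      intro x y; rw [hc x, hc y]
    omega
  obtain ⟨b, hb⟩ : ∃ b : E, b ∉ ({1, a} : Finset E) := by
    by_contra! hc
    have h1 : (Finset.univ : Finset E) ⊆ {1, a} := fun x _ => hc x
    have h2 := (Finset.card_le_card h1).trans Finset.card_le_two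
    rw [Finset.card_univ] at h2
    omega
  rw [Finset.mem_insert, Finset.mem_singleton, not_or] at hb
  have ha2 : (a : X) * a = 1 := hE.2.1 a a.2
  have hb2 : (b : X) * b = 1 := hE.2.1 b b.2
  refine odd_bound hN ha2 hb2 (hE.1 a a.2 b b.2)
    (hK a ha2 (fun h => ha (Subtype.ext h)) ⟨E, hE, a.2⟩)
    (hK b hb2 (fun h => hb.1 (Subtype.ext h)) ⟨E, hE, b.2⟩)
    (hK _ (hE.2.1 _ (mul_mem a.2 b.2)) ?_ ⟨E, hE, mul_mem a.2 b.2⟩)
  intro h
  apply hb.2
  apply Subtype.ext
  exact (mul_left_cancel (h.trans ha2.symm))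

include hs hK hE in
theorem bound_odd {x : X} (hx : Odd (Nat.card (Cz x))) {m : ℕ} (hm : (Cz x).index ≤ m) :
    Nat.card X ≤ m.factorial * (K * K * K) := by
  rw [card_eq (Cz x).normalCore]
  refine Nat.mul_le_mul (core_index _ hm) (odd_le hs hK hE _ ?_)
  exact hx.of_dvd_nat (Subgroup.card_dvd_of_le (Subgroup.normalCore_le _))

include hs hK hE in
theorem bound_inv {w : X} (hw : w * w = 1) (hw1 : w ≠ 1) {m : ℕ} (hm : (Cz w).index ≤ m)
    (S : Sylow 2 X) (hES : E ≤ S) (hK1 : 1 ≤ K) :
    Nat.card X ≤ m.factorial * (K * K * K) := by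
  set L := (Cz w).normalCore with hL
  rw [card_eq L]
  refine Nat.mul_le_mul (core_index _ hm) ?_
  rcases Nat.even_or_odd (Nat.card L) with he | ho
  · -- the normal closure of `w`
    set W := Subgroup.normalClosure ({w} : Set X) with hW
    have hwW : w ∈ W := Subgroup.subset_normalClosure rfl
    have hWev : Even (Nat.card W) := by
      have h1 : orderOf (⟨w, hwW⟩ : W) = 2 := by
        rw [Subgroup.orderOf_mk]
        exact orderOf_eq_prime (by rw [sq, hw]) hw1
      have h2 := orderOf_dvd_natCard (⟨w, hwW⟩ : W)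
      rw [h1] at h2
      exact even_iff_two_dvd.2 h2
    obtain ⟨z, hzW, hzS, hzc, hz, hz1⟩ := exists_central S W hWev
    have hgood := good_of_central hE (by omega) hES hz hzc
    have h3 := hK z hz hz1 hgood
    have hLz : L ≤ Cz z := by
      have h4 : W ≤ centralizer (L : Set X) := by
        haveI : (centralizer (L : Set X)).Normal := inferInstance
        apply Subgroup.normalClosure_le_normal
        rw [Set.singleton_subset_iff]
        change w ∈ centralizer (L : Set X)
        rw [Subgroup.mem_centralizer_iff]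
        intro l hl
        exact mem_Cz.1 (Subgroup.normalCore_le _ hl)
      intro l hl
      rw [mem_Cz]
      exact Subgroup.mem_centralizer_iff.1 (h4 hzW) l hl
    have h5 := (Subgroup.card_le_of_le hLz).trans h3
    nlinarith [Nat.mul_le_mul hK1 hK1]
  · exact odd_le hs hK hE L ho

include hs hK hE in
/-- the order of `X` is bounded by the centralizer orders of good involutions -/
theorem bounded : Nat.card X ≤ (2 * K * K).factorial * (K * K * K) := by
  classical
  haveI : Fact (Nat.Prime 2) := ⟨Nat.prime_two⟩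
  letI := Fintype.ofFinite X
  obtain ⟨S, hES⟩ := hE.isPGroup.exists_le_sylow
  have hXev : Even (Nat.card (⊤ : Subgroup X)) := by
    rw [Subgroup.card_top]
    have h1 : 2 ^ s ∣ Nat.card X := by rw [← hE.2.2]; exact Subgroup.card_subgroup_dvd_card E
    exact even_iff_two_dvd.2 (dvd_trans (dvd_pow_self 2 (by omega)) h1)
  obtain ⟨z, -, hzS, hzc, hz, hz1⟩ := exists_central S ⊤ hXev
  have hzK := hK z hz hz1 (good_of_central hE (by omega) hES hz hzc)
  have hK1 : 1 ≤ K := le_trans (Nat.one_le_iff_ne_zero.2 Nat.card_pos.ne') hzK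
  set Z0 : Finset X := Finset.univ.image (fun g : X => g * z * g⁻¹) with hZ0
  have hZ0sq : ∀ v ∈ Z0, v * v = 1 := by
    intro v hv
    obtain ⟨g, _, rfl⟩ := Finset.mem_image.1 hv
    calc g * z * g⁻¹ * (g * z * g⁻¹) = g * (z * z) * g⁻¹ := by group
      _ = 1 := by rw [hz]; group
  have hXle : Nat.card X ≤ K * Z0.card := by
    rw [Nat.card_eq_fintype_card, ← Finset.card_univ]
    apply Finset.card_le_mul_card_image
    intro v hv
    obtain ⟨g0, _, rfl⟩ := Finset.mem_image.1 hv
    refine le_trans ?_ hzK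
    rw [Nat.card_eq_fintype_card]
    refine Finset.card_le_card_of_injOn (t := (Finset.univ : Finset (Cz z)))
      (fun g : X => if h : g0⁻¹ * g ∈ Cz z then ⟨g0⁻¹ * g, h⟩ else 1)
      (fun _ _ => Finset.mem_univ _) ?_
    have hmem : ∀ g : X, g * z * g⁻¹ = g0 * z * g0⁻¹ → g0⁻¹ * g ∈ Cz z := by
      intro g hg
      rw [mem_Cz]
      have h6 : g * z = g0 * z * g0⁻¹ * g := by rw [← hg]; group
      rw [mul_assoc, h6]; group
    intro g hg g' hg' heq
    have e1 := hmem g (Finset.mem_filter.1 hg).2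
    have e2 := hmem g' (Finset.mem_filter.1 hg').2
    simp only at heq
    rw [dif_pos e1, dif_pos e2] at heq
    exact mul_left_cancel (congrArg Subtype.val heq : g0⁻¹ * g = g0⁻¹ * g')
  set A : Finset X := Z0.filter (fun v => Even (Nat.card (Cz (z * v)))) with hA
  set B : Finset X := Z0.filter (fun v => ¬ Even (Nat.card (Cz (z * v)))) with hB
  have hAB : A.card + B.card = Z0.card := Finset.card_filter_add_card_filter_not _
  rcases Nat.lt_or_ge (2 * A.card) Z0.card with hlt | hge
  · -- many products with odd centralizer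
    set P : Finset (X × X) :=
      (Z0 ×ˢ Z0).filter (fun q => ¬ Even (Nat.card (Cz (q.1 * q.2)))) with hP
    have hBP : Z0.card * B.card ≤ P.card := by
      have h1 : P.card = ∑ u ∈ Z0, (Z0.filter (fun v => ¬ Even (Nat.card (Cz (u * v))))).card := by
        rw [hP, Finset.card_filter, Finset.sum_product]
        refine Finset.sum_congr rfl fun u _ => ?_
        rw [Finset.card_filter]
      rw [h1, ← smul_eq_mul, ← Finset.sum_const]
      refine Finset.sum_le_sum fun u hu => ?_
      obtain ⟨g, _, rfl⟩ := Finset.mem_image.1 hu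
      refine Finset.card_le_card_of_injOn (fun v => g * v * g⁻¹) ?_ ?_
      · intro v hv
        obtain ⟨h2, h3⟩ := Finset.mem_filter.1 (Finset.mem_coe.1 hv)
        obtain ⟨g', _, rfl⟩ := Finset.mem_image.1 h2
        apply Finset.mem_coe.2
        refine Finset.mem_filter.2 ⟨?_, ?_⟩
        · refine Finset.mem_image.2 ⟨g * g', Finset.mem_univ _, ?_⟩
          group
        · have h4 : g * z * g⁻¹ * (g * (g' * z * g'⁻¹) * g⁻¹) = g * (z * (g' * z * g'⁻¹)) * g⁻¹ := by
            group
          have h5 : Nat.card (Cz (g * z * g⁻¹ * (g * (g' * z * g'⁻¹) * g⁻¹))) =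
              Nat.card (Cz (z * (g' * z * g'⁻¹))) := by
            rw [h4]
            apply le_antisymm (card_Cz_conj _ _)
            have h6 := card_Cz_conj g⁻¹ (g * (z * (g' * z * g'⁻¹)) * g⁻¹)
            have h7 : g⁻¹ * (g * (z * (g' * z * g'⁻¹)) * g⁻¹) * g⁻¹⁻¹ = z * (g' * z * g'⁻¹) := by
              group
            rwa [h7] at h6
          rw [h5]
          exact h3
      · intro v _ v' _ h
        exact mul_left_cancel (mul_right_cancel h)
    have hPne : P.Nonempty := by
      rw [← Finset.card_pos]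
      have h0 : 0 < Z0.card := Finset.card_pos.2 ⟨_, Finset.mem_image_of_mem _ (Finset.mem_univ (1 : X))⟩
      have h1 : 0 < B.card := by omega
      exact lt_of_lt_of_le (Nat.mul_pos h0 h1) hBP
    obtain ⟨q0, hq0, hmax⟩ := Finset.exists_max_image P (fun q => Nat.card (Cz (q.1 * q.2))) hPne
    have hinvt : ∀ q ∈ P, q.1 * (q.1 * q.2) * q.1⁻¹ = (q.1 * q.2)⁻¹ := by
      intro q hq
      have h1 := Finset.mem_product.1 (Finset.mem_filter.1 hq).1
      have h2 := hZ0sq _ h1.1
      have h3 := hZ0sq _ h1.2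
      rw [mul_inv_rev, inv_eq_of_mul_eq_one_right h2, inv_eq_of_mul_eq_one_right h3, ← mul_assoc,
        h2, one_mul]
    have h2 : P.card ≤ Nat.card (Cz (q0.1 * q0.2)) * (P.image (fun q => q.1 * q.2)).card := by
      apply Finset.card_le_mul_card_image
      intro x hx
      obtain ⟨q1, hq1, rfl⟩ := Finset.mem_image.1 hx
      refine le_trans ?_ (hmax q1 hq1)
      have hmem : ∀ q ∈ P, q.1 * q.2 = q1.1 * q1.2 → q1.1 * q.1 ∈ Cz (q1.1 * q1.2) := by
        intro q hq hqe
        have e1 := hinvt q hq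
        have e2 := hinvt q1 hq1
        rw [hqe] at e1
        set x := q1.1 * q1.2 with hx
        have h3 : q.1 * x = x⁻¹ * q.1 := by rw [← e1]; group
        have h4 : q1.1 * x⁻¹ = x * q1.1 := by
          have : x = (q1.1 * x * q1.1⁻¹)⁻¹ := by rw [e2, inv_inv]
          conv_rhs => rw [this]
          group
        rw [mem_Cz, mul_assoc, h3, ← mul_assoc, h4, mul_assoc]
      rw [Nat.card_eq_fintype_card]
      refine Finset.card_le_card_of_injOn (t := (Finset.univ : Finset (Cz (q1.1 * q1.2))))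
        (fun q : X × X => if h : q1.1 * q.1 ∈ Cz (q1.1 * q1.2) then ⟨q1.1 * q.1, h⟩ else 1)
        (fun _ _ => Finset.mem_univ _) ?_
      intro q hq q' hq' heq
      obtain ⟨a1, a2⟩ := Finset.mem_filter.1 (Finset.mem_coe.1 hq)
      obtain ⟨b1, b2⟩ := Finset.mem_filter.1 (Finset.mem_coe.1 hq')
      have e1 := hmem q a1 a2
      have e2 := hmem q' b1 b2
      simp only at heq
      rw [dif_pos e1, dif_pos e2] at heq
      have h5 : q.1 = q'.1 := mul_left_cancel (congrArg Subtype.val heq : q1.1 * q.1 = q1.1 * q'.1)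
      have h6 : q.2 = q'.2 := by
        have h7 : q.1 * q.2 = q'.1 * q'.2 := a2.trans b2.symm
        rw [h5] at h7
        exact mul_left_cancel h7
      exact Prod.ext h5 h6
    have h3 : P.card ≤ Nat.card (Cz (q0.1 * q0.2)) * Nat.card X := by
      refine h2.trans (Nat.mul_le_mul_left _ ?_)
      rw [Nat.card_eq_fintype_card]
      exact Finset.card_le_univ _
    have hodd : Odd (Nat.card (Cz (q0.1 * q0.2))) :=
      Nat.not_even_iff_odd.1 (Finset.mem_filter.1 hq0).2
    have h4 : (Cz (q0.1 * q0.2)).index ≤ 2 * K * K := by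
      have h5 := card_eq (Cz (q0.1 * q0.2))
      have h6 : 0 < Nat.card (Cz (q0.1 * q0.2)) := Nat.card_pos
      have hXpos : 0 < Nat.card X := Nat.card_pos
      have h8 : Nat.card X ≤ 2 * K * K * Nat.card (Cz (q0.1 * q0.2)) := by
        have h9 : Nat.card X * Nat.card X ≤
            (2 * K * K * Nat.card (Cz (q0.1 * q0.2))) * Nat.card X := by
          calc Nat.card X * Nat.card X ≤ (K * Z0.card) * (K * Z0.card) := Nat.mul_le_mul hXle hXle
            _ = K * K * (Z0.card * Z0.card) := by ring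
            _ ≤ K * K * (Z0.card * (2 * B.card)) := by
                apply Nat.mul_le_mul_left; apply Nat.mul_le_mul_left; omega
            _ = 2 * K * K * (Z0.card * B.card) := by ring
            _ ≤ 2 * K * K * (Nat.card (Cz (q0.1 * q0.2)) * Nat.card X) :=
                Nat.mul_le_mul_left _ (hBP.trans h3)
            _ = _ := by ring
        exact Nat.le_of_mul_le_mul_right h9 hXpos
      have h7 : (Cz (q0.1 * q0.2)).index * Nat.card (Cz (q0.1 * q0.2)) ≤
          2 * K * K * Nat.card (Cz (q0.1 * q0.2)) := by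
        rw [← h5]; exact h8
      exact Nat.le_of_mul_le_mul_right h7 h6
    exact bound_odd hs hK hE hodd h4
  · -- many products with even centralizer
    have h1 : ∀ v : X, ∃ w : X, v ∈ A → w * w = 1 ∧ w ≠ 1 ∧ w ∈ Cz z ∧ v ∈ Cz w := by
      intro v
      by_cases hv : v ∈ A
      · obtain ⟨h2, h3⟩ := Finset.mem_filter.1 hv
        obtain ⟨w, hw⟩ := exists_common hz (hZ0sq v h2) h3
        exact ⟨w, fun _ => hw⟩
      · exact ⟨1, fun h => absurd h hv⟩
    choose w hw using h1
    -- the image of `w`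
    have hAne : A.Nonempty := by
      rw [← Finset.card_pos]
      have : 0 < Z0.card := Finset.card_pos.2 ⟨_, Finset.mem_image_of_mem _ (Finset.mem_univ (1 : X))⟩
      omega
    have him : (A.image w).card ≤ K := by
      refine le_trans ?_ hzK
      rw [Nat.card_eq_fintype_card]
      have h8 : A.image w ⊆ (Finset.univ : Finset (Cz z)).image Subtype.val := by
        intro v hv
        obtain ⟨n, hn, rfl⟩ := Finset.mem_image.1 hv
        rw [Finset.mem_image]
        exact ⟨⟨_, (hw n hn).2.2.1⟩, Finset.mem_univ _, rfl⟩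
      refine (Finset.card_le_card h8).trans (Finset.card_image_le.trans ?_)
      rw [Finset.card_univ]
    obtain ⟨v0, hv0, hmax⟩ := Finset.exists_max_image A (fun v => Nat.card (Cz (w v))) hAne
    have h2 : A.card ≤ Nat.card (Cz (w v0)) * (A.image w).card := by
      apply Finset.card_le_mul_card_image
      intro w0 hw0
      obtain ⟨v1, hv1, rfl⟩ := Finset.mem_image.1 hw0
      refine le_trans ?_ (hmax v1 hv1)
      rw [Nat.card_eq_fintype_card]
      have h8 : (A.filter fun v => w v = w v1) ⊆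
          (Finset.univ : Finset (Cz (w v1))).image Subtype.val := by
        intro v hv
        obtain ⟨h9, h10⟩ := Finset.mem_filter.1 hv
        rw [Finset.mem_image]
        have h11 := (hw v h9).2.2.2
        rw [h10] at h11
        exact ⟨⟨_, h11⟩, Finset.mem_univ _, rfl⟩
      refine (Finset.card_le_card h8).trans (Finset.card_image_le.trans ?_)
      rw [Finset.card_univ]
    have h3 : A.card ≤ Nat.card (Cz (w v0)) * K := h2.trans (Nat.mul_le_mul_left _ him)
    have h4 : (Cz (w v0)).index ≤ 2 * K * K := by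
      have h5 := card_eq (Cz (w v0))
      have h6 : 0 < Nat.card (Cz (w v0)) := Nat.card_pos
      have h7 : (Cz (w v0)).index * Nat.card (Cz (w v0)) ≤ 2 * K * K * Nat.card (Cz (w v0)) := by
        rw [← h5]
        calc Nat.card X ≤ K * Z0.card := hXle
          _ ≤ K * (2 * A.card) := Nat.mul_le_mul_left _ hge
          _ ≤ K * (2 * (Nat.card (Cz (w v0)) * K)) := by
              apply Nat.mul_le_mul_left; apply Nat.mul_le_mul_left; exact h3
          _ = 2 * K * K * Nat.card (Cz (w v0)) := by ring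
      exact Nat.le_of_mul_le_mul_right h7 h6
    exact bound_inv hs hK hE (hw v0 hv0).1 (hw v0 hv0).2.1 h4 S hES hK1

end main

end H81.Fowler
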