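import Mathlib

/-!
# Square roots of the involution of a perfect group with one involution
-/

set_option autoImplicit false
set_option linter.unusedSectionVars false
set_option linter.unusedVariables false

open Subgroup
open scoped commutatorElement Pointwise

universe u

namespace H81.IcP6

variable {G : Type u} [Group G] [Finite G]

/-- a Sylow `2`-subgroup invariant under a `2`-group of automorphisms -/
theorem exists_inv {M A : Subgroup G} (hA : IsPGroup 2 A) (hAM : A ≤ normalizer (M : Set G)) :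
    ∃ S0 : Sylow 2 M, A ≤ normalizer (((S0 : Subgroup M).map M.subtype : Subgroup G) : Set G) := by
  classical
  haveI : Fact (Nat.Prime 2) := ⟨Nat.prime_two⟩
  let _ : MulDistribMulAction A M := MulDistribMulAction.compHom M (Subgroup.inclusion hAM)
  have hsm : ∀ (a : A) (y : M), ((a • y : M) : G) = a * y * (a : G)⁻¹ := fun a y => rfl
  have h1 : ¬ 2 ∣ Nat.card (Sylow 2 M) := by
    intro hd
    have h2 := card_sylow_modEq_one 2 M
    have h3 : Nat.card (Sylow 2 M) % 2 = 1 % 2 := h2
    omega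
  obtain ⟨S0, hS0⟩ := hA.nonempty_fixed_point_of_prime_not_dvd_card (Sylow 2 M) h1
  have key : ∀ a : A, ∀ y : M, y ∈ (S0 : Subgroup M) → a • y ∈ (S0 : Subgroup M) := by
    intro a y hy
    have h2 : a • S0 = S0 := hS0 a
    have h3 : a • y ∈ ((a • S0 : Sylow 2 M) : Subgroup M) := by
      rw [Sylow.pointwise_smul_def]
      exact Subgroup.smul_mem_pointwise_smul y a _ hy
    rwa [h2] at h3
  refine ⟨S0, ?_⟩
  intro a ha
  have h4 : ∀ b : A, ∀ h : G, h ∈ (S0 : Subgroup M).map M.subtype →
      (b : G) * h * (b : G)⁻¹ ∈ (S0 : Subgroup M).map M.subtype := by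
    rintro b _ ⟨y, hy, rfl⟩
    exact ⟨b • y, key b y hy, hsm b y⟩
  rw [Subgroup.mem_normalizer_iff]
  intro h
  constructor
  · exact h4 ⟨a, ha⟩ h
  · intro hh
    have h5 := h4 ⟨a, ha⟩⁻¹ _ hh
    have h6 : (((⟨a, ha⟩⁻¹ : A) : G)) * (a * h * a⁻¹) * (((⟨a, ha⟩⁻¹ : A) : G))⁻¹ = h := by
      push_cast
      group
    rwa [h6] at h5

theorem exists_sqrt {M : Subgroup G} (hM : ⁅M, M⁆ = M) {z : G} (hz : orderOf z = 2) (hzM : z ∈ M)
    (hu : ∀ t ∈ M, orderOf t = 2 → t = z) (A : Subgroup G) (hA : IsPGroup 2 A)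
    (hAM : A ≤ normalizer (M : Set G)) :
    ∃ S : Subgroup G, IsPGroup 2 S ∧ S ≤ M ∧ A ≤ normalizer (S : Set G) ∧ z ∈ S ∧ (∃ v ∈ S, v * v = z) ∧
      ∀ a ∈ A, ∃ x ∈ S, x ≠ 1 ∧ x ≠ z ∧ (a * x * a⁻¹ = x ∨ a * x * a⁻¹ = x * z) := by
  classical
  haveI : Fact (Nat.Prime 2) := ⟨Nat.prime_two⟩
  obtain ⟨S0, hS0⟩ := exists_inv hA hAM
  set S : Subgroup G := (S0 : Subgroup M).map M.subtype with hS
  have hSM : S ≤ M := Subgroup.map_subtype_le _
  have hSp : IsPGroup 2 S := S0.2.map _
  have hcard : Nat.card S = Nat.card (S0 : Subgroup M) :=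
    (Nat.card_congr ((S0 : Subgroup M).equivMapOfInjective M.subtype M.subtype_injective).toEquiv).symm
  have h2M : 2 ∣ Nat.card M := by
    have h1 : orderOf (⟨z, hzM⟩ : M) = 2 := by rw [← Subgroup.orderOf_coe]; exact hz
    rw [← h1]; exact orderOf_dvd_natCard _
  have h2S : 2 ∣ Nat.card S := by
    rw [hcard]
    exact S0.dvd_card_of_dvd_card h2M
  have hzS : z ∈ S := by
    obtain ⟨x, hx⟩ := exists_prime_orderOf_dvd_card' (G := S) 2 h2S
    rw [← Subgroup.orderOf_coe] at hx
    have := hu x (hSM x.2) hx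
    rw [← this]; exact x.2
  -- `S` has more than two elements
  have h4S : Nat.card S ≠ 2 := by
    intro h2
    have hc : IsCyclic (S0 : Subgroup M) := isCyclic_of_prime_card (p := 2) (by rw [← hcard, h2])
    have hne1 : Nat.card M ≠ 1 := by
      intro h; rw [h] at h2M; omega
    have hmin : (Nat.card M).minFac = 2 := (Nat.minFac_eq_two_iff _).2 h2M
    have hcomp := hc.isComplement' hmin (P := S0)
    set f := MonoidHom.transferSylow S0 (hc.normalizer_le_centralizer hmin) with hf
    have hker : f.ker = ⊤ := by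
      rw [eq_top_iff]
      have hM' : commutator M = ⊤ := by
        have h3 : (commutator M).map M.subtype = ⁅M, M⁆ := by
          rw [commutator_def, Subgroup.map_commutator, ← MonoidHom.range_eq_map, Subgroup.range_subtype]
        rw [hM] at h3
        rw [eq_top_iff]
        intro x _
        have h4 : (x : G) ∈ (commutator M).map M.subtype := by rw [h3]; exact x.2
        obtain ⟨y, hy, hyx⟩ := h4
        have : y = x := Subtype.ext hyx
        rwa [← this]
      rw [← hM', commutator_def, Subgroup.commutator_le]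
      intro a _ b _
      rw [MonoidHom.mem_ker, map_commutatorElement]
      have hcm : Commute (f a) (f b) := by
        letI := hc.commGroup
        exact mul_comm (f a) (f b)
      exact (commutatorElement_eq_one_iff_commute).2 hcm
    rw [hker, Subgroup.isComplement'_top_left] at hcomp
    rw [hcomp, Subgroup.card_bot] at hcard
    omega
  obtain ⟨k, hk⟩ := IsPGroup.iff_card.1 hSp
  have hk2 : 2 ≤ k := by
    rcases Nat.lt_or_ge k 2 with h | h
    · exfalso
      interval_cases k
      · rw [hk] at h2S; omega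
      · exact h4S (by rw [hk]; rfl)
    · exact h
  -- the central involution in `S`
  let zS : S := ⟨z, hzS⟩
  have hzo : orderOf zS = 2 := by rw [← Subgroup.orderOf_coe]; exact hz
  have hZc : Nat.card (Subgroup.zpowers zS) = 2 := by rw [Nat.card_zpowers, hzo]
  have hZm : ∀ y : S, y ∈ Subgroup.zpowers zS ↔ y = 1 ∨ y = zS := by
    intro y
    constructor
    · intro hy
      obtain ⟨j, hj⟩ := Subgroup.mem_zpowers_iff.1 hy
      rcases Int.even_or_odd' j with ⟨i, hi | hi⟩
      · left
        rw [← hj, hi, zpow_mul, zpow_ofNat, ← hzo, pow_orderOf_eq_one, one_zpow]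
      · right
        rw [← hj, hi, zpow_add, zpow_mul, zpow_ofNat, ← hzo, pow_orderOf_eq_one, one_zpow, one_mul, zpow_one]
    · rintro (rfl | rfl)
      · exact one_mem _
      · exact Subgroup.mem_zpowers _
  have hzfix : ∀ a ∈ A, a * z * a⁻¹ = z := by
    intro a ha
    apply hu
    · exact (Subgroup.mem_normalizer_iff.1 (hAM ha) z).1 hzM
    · have : orderOf (MulAut.conj a z) = orderOf z := orderOf_injective (MulAut.conj a).toMonoidHom
        (MulAut.conj a).injective z
      rw [hz] at this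
      exact this
  have hidx : 2 ∣ Nat.card (S ⧸ Subgroup.zpowers zS) := by
    have h1 := Subgroup.card_eq_card_quotient_mul_card_subgroup (Subgroup.zpowers zS)
    rw [hZc, hk] at h1
    have h2 : 2 ^ k = 2 ^ (k - 2) * 2 * 2 := by
      conv_lhs => rw [show k = (k - 2) + 1 + 1 by omega]
      rw [pow_succ, pow_succ]
    rw [h2] at h1
    have h3 : Nat.card (S ⧸ Subgroup.zpowers zS) = 2 ^ (k - 2) * 2 := by omega
    rw [h3]
    exact Dvd.intro_left _ rfl
  let _ : MulDistribMulAction A S := MulDistribMulAction.compHom S (Subgroup.inclusion hS0)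
  have hsm : ∀ (a : A) (y : S), ((a • y : S) : G) = a * y * (a : G)⁻¹ := fun a y => rfl
  have hzs : ∀ a : A, a • zS = zS := fun a => Subtype.ext (hzfix a a.2)
  haveI : MulAction.QuotientAction A (Subgroup.zpowers zS) := by
    constructor
    intro b a a' h
    have h1 : (b • a)⁻¹ * (b • a') = b • (a⁻¹ * a') := by rw [smul_mul', smul_inv']
    rw [h1]
    rcases (hZm _).1 h with h2 | h2
    · rw [h2, smul_one]; exact one_mem _
    · rw [h2, hzs]; exact Subgroup.mem_zpowers _
  have hfix1 : ((1 : S) : S ⧸ Subgroup.zpowers zS) ∈ MulAction.fixedPoints A (S ⧸ Subgroup.zpowers zS) := by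
    intro a
    have : a • ((1 : S) : S ⧸ Subgroup.zpowers zS) = ((a • (1 : S) : S) : S ⧸ Subgroup.zpowers zS) := rfl
    rw [this, smul_one]
  obtain ⟨q, hq, hq1⟩ := hA.exists_fixed_point_of_prime_dvd_card_of_fixed_point
    (S ⧸ Subgroup.zpowers zS) hidx hfix1
  obtain ⟨x, rfl⟩ := QuotientGroup.mk_surjective q
  have hxn : x ∉ Subgroup.zpowers zS := by
    intro h
    apply hq1
    rw [eq_comm, QuotientGroup.eq]
    simpa using h
  have hx1 : (x : G) ≠ 1 := fun h => hxn ((hZm x).2 (Or.inl (Subtype.ext h)))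
  have hxz : (x : G) ≠ z := fun h => hxn ((hZm x).2 (Or.inr (Subtype.ext h)))
  refine ⟨S, hSp, hSM, hS0, hzS, ?_, ?_⟩
  · -- a square root
    obtain ⟨m, hm⟩ := (IsPGroup.iff_orderOf.1 hSp) x
    have hm2 : 2 ≤ m := by
      rcases Nat.lt_or_ge m 2 with h | h
      · exfalso
        interval_cases m
        · rw [pow_zero, orderOf_eq_one_iff] at hm
          exact hx1 (congrArg Subtype.val hm)
        · rw [pow_one, ← Subgroup.orderOf_coe] at hm
          exact hxz (hu x (hSM x.2) hm)
      · exact h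
    refine ⟨((x ^ 2 ^ (m - 2) : S) : G), (x ^ 2 ^ (m - 2) : S).2, ?_⟩
    apply hu
    · exact hSM (mul_mem (x ^ 2 ^ (m - 2) : S).2 (x ^ 2 ^ (m - 2) : S).2)
    · have h1 : ((x ^ 2 ^ (m - 2) : S) : G) * ((x ^ 2 ^ (m - 2) : S) : G) = ((x ^ 2 ^ (m - 1) : S) : G) := by
        rw [← Subgroup.coe_mul, ← pow_add]
        congr 2
        have : m - 1 = (m - 2) + 1 := by omega
        rw [this, pow_succ]; ring
      rw [h1, Subgroup.orderOf_coe]
      rw [orderOf_pow' x (by positivity), hm]
      have h2 : Nat.gcd (2 ^ m) (2 ^ (m - 1)) = 2 ^ (m - 1) := Nat.gcd_eq_right (pow_dvd_pow 2 (by omega))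
      rw [h2]
      have h3 : 2 ^ m = 2 * 2 ^ (m - 1) := by
        conv_lhs => rw [show m = (m - 1) + 1 by omega]
        rw [pow_succ, mul_comm]
      rw [h3]
      exact Nat.mul_div_cancel _ (by positivity)
  · intro a ha
    refine ⟨x, x.2, hx1, hxz, ?_⟩
    have h1 := hq ⟨a, ha⟩
    have h2 : (⟨a, ha⟩ : A) • ((x : S) : S ⧸ Subgroup.zpowers zS) =
        (((⟨a, ha⟩ : A) • x : S) : S ⧸ Subgroup.zpowers zS) := rfl
    rw [h2, eq_comm, QuotientGroup.eq] at h1
    rcases (hZm _).1 h1 with h3 | h3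
    · left
      have h4 : (⟨a, ha⟩ : A) • x = x := by
        have := inv_mul_eq_one.1 h3
        exact this.symm
      have h5 := congrArg Subtype.val h4
      rw [hsm] at h5
      exact h5
    · right
      have h4 : (⟨a, ha⟩ : A) • x = x * zS := by
        rw [← h3]; group
      have h5 := congrArg Subtype.val h4
      rw [hsm] at h5
      exact h5

end H81.IcP6
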