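import Cfsg.Agent.Lib.H69.IC0
import Cfsg.Agent.Lib.H81.IcP6

/-!
# S1315, piece P9: a square root of the involution commuting with its conjugate under an outside involution
-/

set_option autoImplicit false
set_option linter.unusedSectionVars false
set_option linter.unusedVariables false

open Subgroup Cfsg H26.LocalFitting H26.OPPrime H37.PCOf H69.IC
open scoped commutatorElement Pointwise

universe u

namespace H81.IcP9

variable {G : Type u} [Group G] [Finite G]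

/-- a `2`-element congruent to an element of odd order of `N(J)` modulo `J` lies in `J` -/
theorem mem_of_two_elt {J : Subgroup G} {x o : G} {k : ℕ} (ho : o ∈ normalizer (J : Set G))
    (hodd : (orderOf o).Coprime 2) (hx : x ^ 2 ^ k = 1) (hxo : o⁻¹ * x ∈ J) : x ∈ J := by
  have hxN : x ∈ normalizer (J : Set G) := by
    have h1 := mul_mem ho (le_normalizer hxo)
    rwa [mul_inv_cancel_left] at h1
  have hn : (J.subgroupOf (normalizer (J : Set G))).Normal := normal_subgroupOf_of_le_normalizer le_rfl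
  let q := QuotientGroup.mk' (J.subgroupOf (normalizer (J : Set G)))
  have h1 : q ⟨o, ho⟩ = q ⟨x, hxN⟩ := by
    rw [QuotientGroup.mk'_apply, QuotientGroup.mk'_apply, QuotientGroup.eq]
    exact hxo
  have h2 : orderOf (q ⟨x, hxN⟩) ∣ 2 ^ k := by
    apply orderOf_dvd_of_pow_eq_one
    rw [← map_pow]
    have : (⟨x, hxN⟩ : normalizer (J : Set G)) ^ 2 ^ k = 1 := Subtype.ext hx
    rw [this, map_one]
  have h3 : orderOf (q ⟨x, hxN⟩) ∣ orderOf o := by
    rw [← h1]
    apply orderOf_dvd_of_pow_eq_one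
    rw [← map_pow]
    have : (⟨o, ho⟩ : normalizer (J : Set G)) ^ orderOf o = 1 := Subtype.ext (pow_orderOf_eq_one o)
    rw [this, map_one]
  have h4 : Nat.Coprime (2 ^ k) (orderOf o) := Nat.Coprime.pow_left k hodd.symm
  have h5 := Nat.eq_one_of_dvd_coprimes h4 h2 h3
  rw [orderOf_eq_one_iff, QuotientGroup.mk'_apply, QuotientGroup.eq_one_iff] at h5
  exact h5

/-- a `2`-component normalizes the others -/
theorem le_normalizer_of_commutator {X J L : Subgroup G} (hJ : IsPComponentOf 2 J X) (hLX : L ≤ X)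
    (hc : ⁅J, L⁆ ≤ ppc 2 X) : L ≤ normalizer (J : Set G) := by
  have : Fact (Nat.Prime 2) := ⟨Nat.prime_two⟩
  have hO : ppc 2 X ≤ normalizer (J : Set G) := ppc_le_normalizer hJ
  have hop : opp 2 J = J := (pcOf_iff.1 hJ).2.2
  have key : ∀ l ∈ L, ∀ j ∈ J, l * j * l⁻¹ ∈ J := by
    intro l hl j hj
    have h1 : J ≤ J.comap (MulAut.conj l).toMonoidHom := by
      conv_lhs => rw [← hop]
      rw [opp, closure_le]
      rintro x ⟨hx, k, hk⟩
      change l * x * l⁻¹ ∈ J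
      have h2 : ⁅x, l⁆ ∈ ppc 2 X := hc (commutator_mem_commutator hx hl)
      have h3 : ⁅x, l⁆⁻¹ ∈ ppc 2 X := inv_mem h2
      refine mem_of_two_elt (k := k) (o := ⁅x, l⁆⁻¹) (hO h3) (coprime_orderOf_of_mem_ppc h3) ?_ ?_
      · rw [conj_pow, hk]; group
      · have : (⁅x, l⁆⁻¹)⁻¹ * (l * x * l⁻¹) = x := by
          rw [commutatorElement_def]; group
        rw [this]; exact hx
    exact h1 hj
  intro l hl
  rw [mem_normalizer_iff]
  intro j
  constructor
  · exact key l hl j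
  · intro h
    have h1 := key l⁻¹ (inv_mem hl) _ h
    have : l⁻¹ * (l * j * l⁻¹) * l⁻¹⁻¹ = j := by group
    rwa [this] at h1

theorem exists_comm_sqrt {u z : G} {J : Subgroup G} (hJ : Dat u J) (hz : z * z = 1)
    (hzu : z * u = u * z) (hzJ : z ∉ normalizer (J : Set G)) :
    ∃ v ∈ J, v * v = u ∧ v * (z * v * z⁻¹) = (z * v * z⁻¹) * v := by
  classical
  have : Fact (Nat.Prime 2) := ⟨Nat.prime_two⟩
  set X : Subgroup G := centralizer ({u} : Set G) with hX
  set O : Subgroup G := ppc 2 X with hOd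
  have hpc := hJ.pc
  rw [← hX] at hpc
  have hQS := (pcOf_iff.1 hpc).2
  have hzX : z ∈ X := by
    rw [hX, mem_centralizer_singleton_iff]; exact hzu
  have hzi : z⁻¹ = z := by rw [inv_eq_iff_mul_eq_one]; exact hz
  obtain ⟨S, -, hSJ, -, -, ⟨v0, hv0, hv0u⟩, -⟩ := H81.IcP6.exists_sqrt hQS.commutator_self hJ.ord hJ.mem
    hJ.uniq ⊥ (IsPGroup.of_bot) bot_le
  set J' : Subgroup G := MulAut.conj z • J with hJ'
  have hpc' : IsPComponentOf 2 J' X := smul_pc' hpc (le_normalizer hzX)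
  have hne : J ≠ J' := fun h => hzJ (mem_normalizer_of_smul_eq h.symm)
  have hcm : ⁅J, J'⁆ ≤ O := commutator_le hpc hpc' hne
  have hJX : J ≤ X := hpc.1
  have hJ'X : J' ≤ X := hpc'.1
  have hOX : O ≤ X := ppc_le 2 X
  have hON : O ≤ normalizer (J : Set G) := ppc_le_normalizer hpc
  have hJ'N : J' ≤ normalizer (J : Set G) := le_normalizer_of_commutator hpc hJ'X hcm
  set L : Subgroup G := J ⊔ J' ⊔ O with hL
  have hLX : L ≤ X := sup_le (sup_le hJX hJ'X) hOX
  have hLN : L ≤ normalizer (J : Set G) := sup_le (sup_le le_normalizer hJ'N) hON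
  have hzO : z ∈ normalizer (O : Set G) := le_normalizer_ppc 2 X hzX
  have hJ'J : MulAut.conj z • J' = J := by
    rw [hJ', ← mul_smul, ← map_mul, hz, map_one, one_smul]
  have hOO : MulAut.conj z • O = O := smul_eq_of_mem_normalizer hzO
  have hzL : z ∈ normalizer (L : Set G) := by
    apply mem_normalizer_of_smul_eq
    rw [hL, Subgroup.smul_sup, Subgroup.smul_sup, hJ'J, ← hJ', hOO, sup_comm J' J]
  have hA : IsPGroup 2 (zpowers z) := by
    rw [IsPGroup.iff_card] 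
    rw [Nat.card_zpowers]
    have : orderOf z ∣ 2 ^ 1 := orderOf_dvd_of_pow_eq_one (by rw [pow_one, pow_two]; exact hz)
    obtain ⟨m, -, hm⟩ := (Nat.dvd_prime_pow Nat.prime_two).1 this
    exact ⟨m, hm⟩
  obtain ⟨S0, hS0⟩ := H81.IcP6.exists_inv hA (by rw [zpowers_le]; exact hzL)
  have hv0L : v0 ∈ L := (le_sup_left.trans le_sup_left : J ≤ L) (hSJ hv0)
  -- conjugate `v0` into `T`
  have hu2 : u * u = 1 := by rw [← pow_two, ← hJ.ord, pow_orderOf_eq_one]
  have hv4 : (⟨v0, hv0L⟩ : L) ^ 2 ^ 2 = 1 := by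
    apply Subtype.ext
    change v0 ^ 2 ^ 2 = 1
    rw [show (2 : ℕ) ^ 2 = 2 * 2 from rfl, pow_mul v0 2 2, pow_two v0, hv0u, pow_two, hu2]
  have hP : IsPGroup 2 (zpowers (⟨v0, hv0L⟩ : L)) := by
    rw [IsPGroup.iff_card, Nat.card_zpowers]
    obtain ⟨m, -, hm⟩ := (Nat.dvd_prime_pow Nat.prime_two).1 (orderOf_dvd_of_pow_eq_one hv4)
    exact ⟨m, hm⟩
  obtain ⟨Q, hQ⟩ := hP.exists_le_sylow
  obtain ⟨l, hl⟩ := MulAction.exists_smul_eq L Q S0
  have hvT : l * ⟨v0, hv0L⟩ * l⁻¹ ∈ (S0 : Subgroup L) := by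
    rw [← hl, Sylow.smul_def, Sylow.pointwise_smul_def] 
    exact Subgroup.smul_mem_pointwise_smul (⟨v0, hv0L⟩ : L) (MulAut.conj l) _ (hQ (mem_zpowers _))
  set v : G := (l : G) * v0 * (l : G)⁻¹ with hv
  have hvJ : v ∈ J := (mem_normalizer_iff.1 (hLN l.2) v0).1 (hSJ hv0)
  have hlu : (l : G) * u = u * l := mem_centralizer_singleton_iff.1 (hLX l.2)
  have hvv : v * v = u := by
    have : v * v = (l : G) * (v0 * v0) * (l : G)⁻¹ := by rw [hv]; group
    rw [this, hv0u, hlu]; group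
  set T : Subgroup G := (S0 : Subgroup L).map L.subtype with hT
  have hvT' : v ∈ T := ⟨_, hvT, rfl⟩
  have hTp : IsPGroup 2 T := S0.2.map _
  have hzv : z * v * z⁻¹ ∈ T := (mem_normalizer_iff.1 (hS0 (mem_zpowers z)) v).1 hvT'
  have hzvJ : z * v * z⁻¹ ∈ J' := ⟨v, hvJ, rfl⟩
  have hcT : ⁅v, z * v * z⁻¹⁆ ∈ T := by
    rw [commutatorElement_def]
    exact mul_mem (mul_mem (mul_mem hvT' hzv) (inv_mem hvT')) (inv_mem hzv)
  have hcO : ⁅v, z * v * z⁻¹⁆ ∈ O := hcm (commutator_mem_commutator hvJ hzvJ)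
  have hc1 : ⁅v, z * v * z⁻¹⁆ = 1 := by
    obtain ⟨m, hm⟩ := (IsPGroup.iff_orderOf.1 hTp) ⟨_, hcT⟩
    rw [← Subgroup.orderOf_coe] at hm
    have h1 := coprime_orderOf_of_mem_ppc hcO
    have h2 : orderOf ⁅v, z * v * z⁻¹⁆ ∣ 2 ^ m := by
      rw [← hm]
    exact orderOf_eq_one_iff.1 (Nat.eq_one_of_dvd_coprimes (Nat.Coprime.pow_right m h1) dvd_rfl h2)
  exact ⟨v, hvJ, hvv, commutatorElement_eq_one_iff_mul_comm.1 hc1⟩

end H81.IcP9
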