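import Cfsg.Agent.Lib.H81.RegMat
import Cfsg.Agent.Lib.H81.Contrib

/-!
# Height zero constituents of induced characters
-/

set_option autoImplicit false
set_option linter.unusedSectionVars false
set_option linter.unusedVariables false
set_option linter.style.haveILetI false
open Cfsg H20.Loc H20.GA H20.Blk H20.DefGrp H20.Orth H20.Defect H20.Ind H20.Height
open scoped ComplexConjugate

namespace H81.IndHeight

open H18.CharBasic H18.CharOrtho H18.CharInd

universe u
variable {G : Type u} [Group G] [Fintype G] {M : Ideal AlgInt} {p : ℕ}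

theorem main (hM : IsPModular p M) (H : Subgroup G) {b : Set (IrrCharacter H)}
    {B : Set (IrrCharacter G)} (hind : IsInducedBlock M H b B)
    (hdef : blockDefect p b = blockDefect p B) (ζ : IrrCharacter H) (hζ : ζ ∈ b)
    (hζ0 : blockHeight p b (ζ : H → ℂ) = 0) :
    ∃ χ ∈ B, blockHeight p B (χ : G → ℂ) = 0 ∧ ∃ a : ℕ,
      classInner (indFun H (ζ : H → ℂ)) (χ : G → ℂ) = (a : ℂ) ∧ ¬ p ∣ a := by
  classical
  haveI := pm_isPrime hM
  letI := Fintype.ofFinite H
  letI := Fintype.ofFinite (IrrCharacter G)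
  obtain ⟨χ, hχ, hχ0⟩ := exists_height_zero hM hind.2.1
  have hresC := isCharacter_restrict H (irr_char χ)
  have hres : IsClassFunction H (fun h : H => (χ : G → ℂ) h) := isClassFunction_of_isCharacter hresC
  -- a unit
  obtain ⟨u, hu1, hu2, hu⟩ := H81.RegMat.exists_scaled hM hind.1 hζ
  have h1 := hu _ hres
  rw [hζ0, pow_zero, one_mul] at h1
  have hunit : ¬ MemLocalIdeal M ((p : ℂ) ^ blockDefect p b *
      classInner (reg p (ζ : H → ℂ)) (fun h : H => (χ : G → ℂ) h)) := by
    rw [h1]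
    refine not_locI_mul hu1 (Q_memR ζ hres (fun h => irr_int χ _)) hu2 ?_
    intro hc
    have h2 := Q_induced (p := p) hind hζ hχ (irr_class χ) (irr_int χ) hres
    exact (Q_unit_iff hM hind.2.1 hχ χ).2 ⟨hχ, hχ0⟩ ((locI_congr h2).1 hc)
  -- expansion
  have hindC : IsCharacter G (indFun H (ζ : H → ℂ)) := isCharacter_ind H (irr_char ζ)
  choose a ha using fun ψ : IrrCharacter G => inner_char_natCast hindC (irr_char ψ)
  have h3 : classInner (reg p (ζ : H → ℂ)) (fun h : H => (χ : G → ℂ) h) =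
      ∑ ψ : IrrCharacter G, (a ψ : ℂ) * classInner (reg p (χ : G → ℂ)) (ψ : G → ℂ) := by
    rw [inner_reg_symm (irr_char ζ) hresC]
    have h4 : (reg p (fun h : H => (χ : G → ℂ) h)) = fun h : H => reg p (χ : G → ℂ) (h : G) := by
      funext h
      by_cases hh : p ∣ orderOf h
      · rw [reg_not hh, reg_not (by rwa [Subgroup.orderOf_coe])]
      · rw [reg_of hh, reg_of (by rwa [Subgroup.orderOf_coe])]
    rw [h4, ← frobenius' H (ζ : H → ℂ) (reg_class (irr_class χ))]
    conv_lhs => rw [mem_classFun_expand (isClassFunction_of_isCharacter hindC)]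
    rw [inner_sum_right]
    refine Finset.sum_congr rfl fun ψ _ => ?_
    rw [H18.CharOrtho.inner_smul_right, ha ψ, Complex.conj_natCast]
  rw [h3, hdef, Finset.mul_sum] at hunit
  obtain ⟨ψ, hψ⟩ : ∃ ψ : IrrCharacter G, ¬ MemLocalIdeal M ((p : ℂ) ^ blockDefect p B *
      ((a ψ : ℂ) * classInner (reg p (χ : G → ℂ)) (ψ : G → ℂ))) := by
    by_contra! hc
    exact hunit (locI_sum fun ψ _ => hc ψ)
  have hψB : ψ ∈ B := by
    by_contra hc
    apply hψ
    rw [inner_reg_eq_zero hM (fun hs => hc ((isPBlock_mem_iff hind.2.1 hχ ψ).2 hs))]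
    rw [mul_zero, mul_zero]; exact locI_zero
  obtain ⟨n, hn⟩ := H81.RegMat.exists_int hM hind.2.1 hχ ψ
  have h5 : (p : ℂ) ^ blockDefect p B *
      ((a ψ : ℂ) * classInner (reg p (χ : G → ℂ)) (ψ : G → ℂ)) = (a ψ : ℂ) * (n : ℂ) := by
    have : (p : ℂ) ^ blockDefect p B *
      ((a ψ : ℂ) * classInner (reg p (χ : G → ℂ)) (ψ : G → ℂ)) = (a ψ : ℂ) *
      ((p : ℂ) ^ blockDefect p B * classInner (reg p (χ : G → ℂ)) (ψ : G → ℂ)) := by ring
    rw [this, hn, hχ0, pow_zero, one_mul]
  rw [h5] at hψ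
  refine ⟨ψ, hψB, ?_, a ψ, ha ψ, ?_⟩
  · by_contra h0
    apply hψ
    exact locI_mul_left (locR_natCast _) ((locI_intCast_iff hM).2
      (H81.RegMat.dvd_of_height_pos hM hind.2.1 hχ hψB h0 hn))
  · intro hd
    apply hψ
    exact locI_mul_right ((locI_natCast_iff hM).2 hd) (locR_intCast _)

end H81.IndHeight
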