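import Cfsg.Agent.Lib.H81.Pair4

/-!
# Blocks of subgroups determined by a root
-/

set_option autoImplicit false
set_option linter.unusedSectionVars false
set_option linter.unusedVariables false
set_option linter.style.haveILetI false
open Cfsg H20.Loc H20.GA H20.Blk H20.DefGrp H20.Orth H20.Defect H20.Nil H20.Ind H20.LN
  H19.BrMap H19.BrMap2 H77.Cov1 H81.BrIdem H81.Pair
open scoped ComplexConjugate

namespace H81.Inert

universe u
variable {G : Type u} [Group G] [Finite G] {K : Type u} [Group K] [Finite K] {M : Ideal AlgInt}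
  {p : ℕ}

/-- the block of `K` determined by `θ` along `j : K →* G`. -/
def blj (M : Ideal AlgInt) [M.IsPrime] {H : Subgroup G} (θ : IrrCharacter H) (j : K →* G) :
    Set (IrrCharacter K) :=
  {ψ | ∀ F : G → ℂ, ∀ z : ZG K, z ∈ zr M K → (∀ k, zc z k = F (j k)) →
    MemLocalIdeal M (ev θ F - omega ψ z)}

theorem conj_hom_apply {A : Type u} [Group A] (a y : A) :
    (MulAut.conj a).toMonoidHom y = a * y * a⁻¹ := rfl

section maps
variable {D : Subgroup G} (j : K →* G) (hj : Function.Injective j) (hD : D ≤ j.range)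
  (hC : Cn D ≤ j.range)

theorem map_comap_D (hD : D ≤ j.range) : (D.comap j).map j = D := Subgroup.map_comap_eq_self hD

include hj in
theorem map_Cn (hD : D ≤ j.range) (hC : Cn D ≤ j.range) : (Cn (D.comap j)).map j = Cn D := by
  ext x
  constructor
  · rintro ⟨y, hy, rfl⟩
    rw [Subgroup.mem_centralizer_iff]
    intro q hq
    obtain ⟨k, rfl⟩ := hD hq
    have := Subgroup.mem_centralizer_iff.1 hy k hq
    rw [← map_mul, ← map_mul, this]
  · intro hx
    obtain ⟨k, rfl⟩ := hC hx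
    refine ⟨k, ?_, rfl⟩
    change k ∈ Cn (D.comap j)
    rw [Subgroup.mem_centralizer_iff]
    intro q hq
    apply hj
    rw [map_mul, map_mul]
    exact Subgroup.mem_centralizer_iff.1 hx (j q) hq

include hj in
theorem map_L (hD : D ≤ j.range) (hC : Cn D ≤ j.range) : (L (D.comap j)).map j = L D := by
  rw [L, Subgroup.map_sup, map_comap_D j hD]
  have h1 : (Subgroup.centralizer ((D.comap j : Subgroup K) : Set K)).map j = Cn D :=
    map_Cn j hj hD hC
  rw [h1]

/-- transported character -/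
noncomputable def thj (hj : Function.Injective j) (hL : (L (D.comap j)).map j = L D)
    (θ : IrrCharacter (L D)) : IrrCharacter (L (D.comap j)) := pull (tr j hj hL).symm θ

theorem pull_thj (hL : (L (D.comap j)).map j = L D) (θ : IrrCharacter (L D)) :
    pull (tr j hj hL) (thj j hj hL θ) = θ := pull_pull_symm _ θ

theorem omega_thj (hL : (L (D.comap j)).map j = L D) (θ : IrrCharacter (L D)) (F : G → ℂ)
    (z : ZG K) (hz : ∀ k, zc z k = F (j k)) :
    omega (thj j hj hL θ) (resZ (L (D.comap j)) z) = ev θ F := by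
  conv_rhs => rw [← pull_thj j hj hL θ, ev_pull]
  exact omega_eq_ev _ _ _ fun h => by rw [zc_resZ]; exact hz h

open Classical in
/-- extension of a function along `j`. -/
noncomputable def extF (f : K → ℂ) : G → ℂ := fun g =>
  if h : ∃ k, j k = g then f h.choose else 0

include hj in
theorem extF_apply (f : K → ℂ) (k : K) : extF j f (j k) = f k := by
  have h : ∃ k', j k' = j k := ⟨k, rfl⟩
  rw [extF, dif_pos h]
  congr 1
  exact hj h.choose_spec

theorem blj_eq (hM : IsPModular p M) [M.IsPrime] (hL : (L (D.comap j)).map j = L D)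
    (θ : IrrCharacter (L D)) {β : Set (IrrCharacter K)}
    (h : IsInducedBlock M (L (D.comap j)) (blockOf M (thj j hj hL θ : L (D.comap j) → ℂ)) β) :
    β = blj M θ j := by
  have key : ∀ ψ ∈ β, ψ ∈ blj M θ j := by
    intro ψ hψ F z hz hF
    have h1 := isInducedBlock_omega h (mem_blockOf_self _) hψ hz
    rwa [omega_thj j hj hL θ F z hF] at h1
  apply Set.Subset.antisymm key
  intro ψ hψ
  obtain ⟨ψ0, hψ0⟩ := isPBlock_nonempty h.2.1
  have h0 := key ψ0 hψ0
  rw [isPBlock_mem_iff h.2.1 hψ0, sameBlock_iff]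
  intro z hz
  have e1 := h0 (extF j (zc z)) z hz (fun k => (extF_apply j hj _ k).symm)
  have e2 := hψ (extF j (zc z)) z hz (fun k => (extF_apply j hj _ k).symm)
  exact locI_trans (locI_sub_comm.1 e1) e2

theorem blj_induced (hM : IsPModular p M) [M.IsPrime] (hDp : IsPGroup p D)
    (hL : (L (D.comap j)).map j = L D) (θ : IrrCharacter (L D)) :
    IsInducedBlock M (L (D.comap j)) (blockOf M (thj j hj hL θ : L (D.comap j) → ℂ))
      (blj M θ j) := by
  obtain ⟨β, hβ⟩ := exists_induced hM (hDp.comap_of_injective j hj)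
    (le_sup_left : D.comap j ≤ L (D.comap j))
    (le_sup_right : Subgroup.centralizer ((D.comap j : Subgroup K) : Set K) ≤ L (D.comap j))
    (L_le_N _) (isPBlock_blockOf (thj j hj hL θ))
  have := blj_eq j hj hM hL θ hβ
  rw [← this]
  exact hβ

end maps

/-- roots have large defect groups -/
theorem defect_of_card (hM : IsPModular p M) {P : Subgroup K} (hP : IsPGroup p P)
    {b : Set (IrrCharacter (L P))} {β : Set (IrrCharacter K)} (h : IsInducedBlock M (L P) b β)
    {E : Subgroup K} (hE : IsDefectGroup p M β E) (hcard : Nat.card E ≤ Nat.card P) :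
    IsDefectGroup p M β P := by
  haveI : Fact p.Prime := ⟨pm_prime hM⟩
  obtain ⟨D, hD⟩ := exists_isDefectGroup hM h.1
  obtain ⟨E', hE', hDE⟩ := Cfsg.Agent.S0917.result p M hM (L P) b h.1 β h.2.1 h D hD
  have h1 := Cfsg.Agent.S0912.result p M hM b h.1 D hD
  have hn : (P.subgroupOf (L P)).Normal := by
    refine ⟨fun n hn g => ?_⟩
    rw [Subgroup.mem_subgroupOf] at hn ⊢
    have := (Subgroup.mem_normalizer_iff.1 (L_le_N P g.2) (n : K)).1 hn
    simpa using this
  have h2 : P.subgroupOf (L P) ≤ D :=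
    le_trans (le_sSup ⟨hn, hP.comap_of_injective _
      (Subgroup.subtype_injective _)⟩ : P.subgroupOf (L P) ≤ pCore p (L P)) h1
  have h3 : P ≤ E' := by
    refine le_trans ?_ hDE
    intro x hx
    exact ⟨⟨x, (le_sup_left : P ≤ L P) hx⟩, h2 (Subgroup.mem_subgroupOf.2 hx), rfl⟩
  have h4 : P = E' := by
    apply Subgroup.eq_of_le_of_card_ge h3
    rw [card_defectGroup hM h.2.1 hE', ← card_defectGroup hM h.2.1 hE]
    exact hcard
  rw [h4]; exact hE'

/-- conjugation of roots -/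
theorem conj_roots (hM : IsPModular p M) [M.IsPrime] {β : Set (IrrCharacter K)}
    {P₁ P₂ : Subgroup K} (h₁ : IsDefectGroup p M β P₁) (h₂ : IsDefectGroup p M β P₂)
    {b₁ : Set (IrrCharacter (L P₁))} {b₂ : Set (IrrCharacter (L P₂))}
    (hb₁ : IsInducedBlock M (L P₁) b₁ β) (hb₂ : IsInducedBlock M (L P₂) b₂ β) :
    ∃ x : K, P₂.map (MulAut.conj x).toMonoidHom = P₁ ∧ ∀ θ₂ ∈ b₂, ∀ θ₁ : IrrCharacter (L P₁),
      (∀ (k : L P₂) (k' : L P₁), (k' : K) = x * k * x⁻¹ →
        (θ₁ : L P₁ → ℂ) k' = (θ₂ : L P₂ → ℂ) k) → θ₁ ∈ b₁ := by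
  obtain ⟨x0, hx0⟩ := isDefectGroup_conj hM hb₁.2.1 h₂ h₁
  have hj : Function.Injective (MulAut.conj x0⁻¹).toMonoidHom := (MulAut.conj x0⁻¹).injective
  -- transport `b₂` to `L P₁`
  have hL : (L P₁).map (MulAut.conj x0⁻¹).toMonoidHom = L P₂ := by
    have e1 : P₁.map (MulAut.conj x0⁻¹).toMonoidHom = P₂ := by
      rw [hx0, Subgroup.map_map]
      ext g
      constructor
      · rintro ⟨y, hy, rfl⟩
        have : ((MulAut.conj x0⁻¹).toMonoidHom.comp (MulAut.conj x0).toMonoidHom) y = y := by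
          rw [MonoidHom.comp_apply, conj_hom_apply, conj_hom_apply]; group
        rw [this]; exact hy
      · intro hg
        exact ⟨g, hg, by rw [MonoidHom.comp_apply, conj_hom_apply, conj_hom_apply]; group⟩
    have e2 := map_Cn_equiv (MulAut.conj x0⁻¹) P₁
    rw [e1] at e2
    rw [L, Subgroup.map_sup, e1]
    have e3 : (Subgroup.centralizer (P₁ : Set K)).map (MulAut.conj x0⁻¹).toMonoidHom = Cn P₂ := e2
    rw [e3]
  obtain ⟨η, hη⟩ := isPBlock_nonempty hb₂.1
  set η' : IrrCharacter (L P₁) := pull (tr _ hj hL).symm η with hη'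
  have hηη : pull (tr _ hj hL) η' = η := pull_pull_symm _ η
  have hval : ∀ k : L P₁, ∀ k2 : L P₂, (k2 : K) = x0⁻¹ * k * x0 → (η' : L P₁ → ℂ) k =
      (η : L P₂ → ℂ) k2 := by
    intro k k2 hk
    have h0 : (η : L P₂ → ℂ) k2 = (η' : L P₁ → ℂ) (tr _ hj hL k2) := by
      conv_lhs => rw [← hηη]
      rfl
    rw [h0, tr_eq _ hj hL k2 k (by rw [hk, conj_hom_apply, inv_inv])]
  have hind : IsInducedBlock M (L P₁) (blockOf M (η' : L P₁ → ℂ)) β := by
    rw [H20.Ind.isInducedBlock_iff]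
    refine ⟨isPBlock_blockOf _, hb₁.2.1, fun ξ hξ χ hχ z hz => ?_⟩
    have h1 := isInducedBlock_omega hb₂ hη hχ hz
    have h2 : omega η (resZ (L P₂) z) = omega η' (resZ (L P₁) z) := by
      rw [ev_resZ, ev_resZ]
      conv_lhs => rw [← hηη, ev_pull]
      congr 1
      funext k
      exact zc_class z k _
    rw [h2] at h1
    exact locI_trans (locI_sub_comm.1 (sameBlock_iff.1 hξ _ (resZ_mem _ hz))) h1
  obtain ⟨n, hn, hconj⟩ := conj_L P₁ hM hb₁.2.1 h₁ hind hb₁
  have hnN := hn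
  refine ⟨n⁻¹ * x0, ?_, ?_⟩
  · ext g
    constructor
    · rintro ⟨y, hy, rfl⟩
      have h1 : x0 * y * x0⁻¹ ∈ P₁ := by rw [hx0]; exact ⟨y, hy, rfl⟩
      have h2 := (Subgroup.mem_normalizer_iff.1 ((Subgroup.normalizer (P₁ : Set K)).inv_mem hn) _).1 h1
      have h3 : (MulAut.conj (n⁻¹ * x0)).toMonoidHom y = n⁻¹ * (x0 * y * x0⁻¹) * n⁻¹⁻¹ := by
        simp [mul_assoc]
      rw [h3]; exact h2
    · intro hg
      have h2 := (Subgroup.mem_normalizer_iff.1 hn _).1 hg
      rw [hx0] at h2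
      obtain ⟨y, hy, hyg⟩ := h2
      refine ⟨y, hy, ?_⟩
      have hyg' : x0 * y * x0⁻¹ = n * g * n⁻¹ := hyg
      have h3 : (MulAut.conj (n⁻¹ * x0)).toMonoidHom y = n⁻¹ * (x0 * y * x0⁻¹) * n := by
        simp [mul_assoc]
      rw [h3, hyg']; group
  · intro θ₂ hθ₂ θ₁ h
    obtain ⟨θ', hθ', h'⟩ := hconj η' (mem_blockOf_self _)
    -- `η'` conjugated by `n` is `θ'`
    rw [isPBlock_mem_iff hb₁.1 hθ']
    -- `θ₁` and `θ'` are the transports of `θ₂`, `η`.
    have hj2 : Function.Injective (MulAut.conj (n⁻¹ * x0)⁻¹).toMonoidHom :=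
      (MulAut.conj (n⁻¹ * x0)⁻¹).injective
    have hL2 : (L P₁).map (MulAut.conj (n⁻¹ * x0)⁻¹).toMonoidHom = L P₂ := by
      have e1 : (L P₁).map (MulAut.conj n).toMonoidHom = L P₁ := by
        apply le_antisymm
        · rintro _ ⟨y, hy, rfl⟩
          exact conj_mem_L P₁ hn hy
        · intro y hy
          refine ⟨n⁻¹ * y * n⁻¹⁻¹, conj_mem_L P₁ (Subgroup.inv_mem _ hn) hy, ?_⟩
          simp [mul_assoc]
      rw [← hL]
      conv_rhs => rw [← e1]
      rw [Subgroup.map_map]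
      congr 1
      ext g
      rw [MonoidHom.comp_apply, conj_hom_apply, conj_hom_apply, conj_hom_apply]
      group
    have e1 : ∀ k : L P₂, ((tr _ hj2 hL2 k : L P₁) : K) = (n⁻¹ * x0) * k * (n⁻¹ * x0)⁻¹ := by
      intro k
      have := tr_apply _ hj2 hL2 k
      have h3 : (MulAut.conj (n⁻¹ * x0)⁻¹).toMonoidHom ((tr _ hj2 hL2 k : L P₁) : K) =
        (n⁻¹ * x0)⁻¹ * ((tr _ hj2 hL2 k : L P₁) : K) * (n⁻¹ * x0) := by
        rw [conj_hom_apply, inv_inv]
      rw [h3] at this
      rw [← this]; group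
    have e2 : pull (tr _ hj2 hL2) θ₁ = θ₂ := by
      apply Subtype.ext
      funext k
      rw [pull_apply]
      exact h k _ (e1 k)
    have e3 : pull (tr _ hj2 hL2) θ' = η := by
      apply Subtype.ext
      funext k
      rw [pull_apply]
      have hx : n * ((tr _ hj2 hL2 k : L P₁) : K) * n⁻¹ ∈ L P₁ :=
        conj_mem_L P₁ hn (tr _ hj2 hL2 k).2
      rw [h' _ hx]
      apply hval
      show (k : K) = x0⁻¹ * (n * ((tr _ hj2 hL2 k : L P₁) : K) * n⁻¹) * x0
      rw [e1 k]
      group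
    rw [← sameBlock_pull (tr _ hj2 hL2), e2, e3]
    exact isPBlock_sameBlock hb₂.1 hη hθ₂

end H81.Inert
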