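import Cfsg.Agent.Lib.H81.Inert1

/-!
# Major subsections attached to central elements of the defect group
-/

set_option autoImplicit false
set_option linter.unusedSectionVars false
set_option linter.unusedVariables false
set_option linter.style.haveILetI false
open Cfsg H20.Loc H20.GA H20.Blk H20.DefGrp H20.Orth H20.Defect H20.Nil H20.Ind H20.LN
  H19.BrMap H19.BrMap2 H77.Cov1 H81.BrIdem H81.Pair
open scoped ComplexConjugate

namespace H81.Inert

universe u
variable {G : Type u} [Group G] [Finite G] {M : Ideal AlgInt} {p : ℕ} {D : Subgroup G}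

section sub
variable {X : Subgroup G} (hD : D ≤ X) (hC : Cn D ≤ X)

theorem le_range (h : D ≤ X) : D ≤ X.subtype.range := by rwa [Subgroup.range_subtype]

theorem hLX (hD : D ≤ X) (hC : Cn D ≤ X) : (L (D.comap X.subtype)).map X.subtype = L D :=
  map_L X.subtype (Subgroup.subtype_injective X) (le_range hD) (le_range hC)

theorem bl_isPBlock (hM : IsPModular p M) [M.IsPrime] (hDp : IsPGroup p D) (hD : D ≤ X)
    (hC : Cn D ≤ X) (θ : IrrCharacter (L D)) : IsPBlock M (blj M θ X.subtype) :=
  (blj_induced X.subtype (Subgroup.subtype_injective X) hM hDp (hLX hD hC) θ).2.1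

theorem bl_induces (hM : IsPModular p M) [M.IsPrime] (hDp : IsPGroup p D) (hD : D ≤ X)
    (hC : Cn D ≤ X) (θ : IrrCharacter (L D)) {B : Set (IrrCharacter G)}
    (hind : IsInducedBlock M (L D) (blockOf M (θ : L D → ℂ)) B) :
    IsInducedBlock M X (blj M θ X.subtype) B := by
  rw [H20.Ind.isInducedBlock_iff]
  refine ⟨bl_isPBlock hM hDp hD hC θ, hind.2.1, fun ψ hψ χ hχ z hz => ?_⟩
  have h1 := hψ (zc z) (resZ X z) (resZ_mem X hz) (fun k => by rw [zc_resZ]; rfl)
  have h2 := isInducedBlock_omega hind (mem_blockOf_self θ) hχ hz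
  rw [ev_resZ] at h2
  exact locI_trans (locI_sub_comm.1 h1) h2

theorem card_comap (hD : D ≤ X) : Nat.card (D.comap X.subtype) = Nat.card D := by
  rw [← Subgroup.card_map_of_injective (K := D.comap X.subtype) (Subgroup.subtype_injective X),
    Subgroup.map_comap_eq_self (le_range hD)]

theorem bl_defect (hM : IsPModular p M) [M.IsPrime] (hD : D ≤ X)
    (hC : Cn D ≤ X) (θ : IrrCharacter (L D)) {B : Set (IrrCharacter G)}
    (hBD : IsDefectGroup p M B D)
    (hind : IsInducedBlock M (L D) (blockOf M (θ : L D → ℂ)) B) :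
    IsDefectGroup p M (blj M θ X.subtype) (D.comap X.subtype) := by
  haveI : Fact p.Prime := ⟨pm_prime hM⟩
  have hDp := isPGroup_of_isDefectGroup hBD
  have h1 := blj_induced X.subtype (Subgroup.subtype_injective X) hM hDp (hLX hD hC) θ
  have h2 := bl_induces hM hDp hD hC θ hind
  obtain ⟨E, hE⟩ := exists_isDefectGroup hM h1.2.1
  refine defect_of_card hM (hDp.comap_of_injective _ (Subgroup.subtype_injective X)) h1 hE ?_
  obtain ⟨E', hE', hle⟩ := Cfsg.Agent.S0917.result p M hM X _ h2.1 B h2.2.1 h2 E hE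
  have h3 := Subgroup.card_le_of_le hle
  rw [card_defectGroup hM h2.2.1 hE', ← card_defectGroup hM h2.2.1 hBD,
    Subgroup.card_map_of_injective (Subgroup.subtype_injective _)] at h3
  rwa [card_comap hD]

theorem bl_blockDefect (hM : IsPModular p M) [M.IsPrime] (hD : D ≤ X)
    (hC : Cn D ≤ X) (θ : IrrCharacter (L D)) {B : Set (IrrCharacter G)}
    (hBD : IsDefectGroup p M B D)
    (hind : IsInducedBlock M (L D) (blockOf M (θ : L D → ℂ)) B) :
    blockDefect p (blj M θ X.subtype) = blockDefect p B := by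
  have h1 := bl_defect hM hD hC θ hBD hind
  have h2 := card_defectGroup hM (bl_isPBlock hM (isPGroup_of_isDefectGroup hBD) hD hC θ) h1
  have h3 := card_defectGroup hM hind.2.1 hBD
  rw [card_comap hD, h3] at h2
  exact (Nat.pow_right_injective (pm_prime hM).two_le h2).symm

end sub

/-- fusion of the subsections -/
theorem exists_t (hM : IsPModular p M) [M.IsPrime] {X : Subgroup G} (hD : D ≤ X) (hC : Cn D ≤ X)
    (θ : IrrCharacter (L D)) {B : Set (IrrCharacter G)} (hBD : IsDefectGroup p M B D)
    (hind : IsInducedBlock M (L D) (blockOf M (θ : L D → ℂ)) B) {g : G}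
    (hgD : ∀ d ∈ D, g * d * g⁻¹ ∈ X) (hgC : ∀ d ∈ Cn D, g * d * g⁻¹ ∈ X)
    (heq : blj M θ ((MulAut.conj g⁻¹).toMonoidHom.comp X.subtype) = blj M θ X.subtype) :
    ∃ x ∈ X, x * g ∈ Subgroup.normalizer (D : Set G) ∧ ∀ θ' : IrrCharacter (L D),
      (∀ h h' : L D, (h' : G) = (x * g) * h * (x * g)⁻¹ → (θ' : L D → ℂ) h' = (θ : L D → ℂ) h) →
        θ' ∈ blockOf M (θ : L D → ℂ) := by
  haveI : Fact p.Prime := ⟨pm_prime hM⟩
  have hDp := isPGroup_of_isDefectGroup hBD
  set j : X →* G := (MulAut.conj g⁻¹).toMonoidHom.comp X.subtype with hjdef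
  have hjv : ∀ k : X, j k = g⁻¹ * k * g := by
    intro k
    rw [hjdef, MonoidHom.comp_apply, conj_hom_apply, inv_inv]; rfl
  have hj : Function.Injective j := by
    intro a b hab
    rw [hjv, hjv] at hab
    apply Subtype.ext
    exact mul_left_cancel (mul_right_cancel hab)
  have hran : ∀ d : G, g * d * g⁻¹ ∈ X → d ∈ j.range := by
    intro d hd
    exact ⟨⟨_, hd⟩, by rw [hjv]; group⟩
  have hD' : D ≤ j.range := fun d hd => hran d (hgD d hd)
  have hC' : Cn D ≤ j.range := fun d hd => hran d (hgC d hd)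
  have hL2 := map_L j hj hD' hC'
  have hi : Function.Injective X.subtype := Subgroup.subtype_injective X
  have hL1 := hLX hD hC
  have i1 := blj_induced X.subtype hi hM hDp hL1 θ
  have i2 := blj_induced j hj hM hDp hL2 θ
  rw [heq] at i2
  have d1 := bl_defect hM hD hC θ hBD hind
  have d2 : IsDefectGroup p M (blj M θ X.subtype) (D.comap j) := by
    refine defect_of_card hM (hDp.comap_of_injective j hj) i2 d1 ?_
    rw [card_comap hD, ← Subgroup.card_map_of_injective (K := D.comap j) hj,
      Subgroup.map_comap_eq_self hD']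
  obtain ⟨x, hx, hconj⟩ := conj_roots hM d1 d2 i1 i2
  refine ⟨x, x.2, ?_, ?_⟩
  · -- `x g` normalizes `D`
    have h1 : ∀ d ∈ D, (x * g) * d * (x * g)⁻¹ ∈ D := by
      intro d hd
      have h2 : (⟨g * d * g⁻¹, hgD d hd⟩ : X) ∈ D.comap j := by
        rw [Subgroup.mem_comap, hjv]
        show g⁻¹ * (g * d * g⁻¹) * g ∈ D
        have : g⁻¹ * (g * d * g⁻¹) * g = d := by group
        rwa [this]
      have h3 : (MulAut.conj x).toMonoidHom (⟨g * d * g⁻¹, hgD d hd⟩ : X) ∈
          D.comap X.subtype := by rw [← hx]; exact ⟨_, h2, rfl⟩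
      rw [Subgroup.mem_comap, conj_hom_apply] at h3
      have h4 : X.subtype (x * (⟨g * d * g⁻¹, hgD d hd⟩ : X) * x⁻¹) = (x * g) * d * (x * g)⁻¹ := by
        show (x : G) * (g * d * g⁻¹) * (x : G)⁻¹ = _
        group
      rwa [h4] at h3
    have h2 : D.map (MulAut.conj ((x : G) * g)).toMonoidHom = D := by
      apply Subgroup.eq_of_le_of_card_ge
      · rintro _ ⟨d, hd, rfl⟩
        exact h1 d hd
      · rw [Subgroup.card_map_of_injective (MulAut.conj ((x : G) * g)).injective]
    rw [Subgroup.mem_normalizer_iff]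
    intro d
    constructor
    · exact h1 d
    · intro hd
      rw [← h2] at hd
      obtain ⟨d', hd', he⟩ := hd
      rw [conj_hom_apply] at he
      have : d' = d := mul_left_cancel (mul_right_cancel he)
      rwa [← this]
  · intro θ' hθ'
    have h1 : thj X.subtype hi hL1 θ' ∈
        blockOf M (thj X.subtype hi hL1 θ : L (D.comap X.subtype) → ℂ) := by
      apply hconj (thj j hj hL2 θ) (mem_blockOf_self _)
      intro k k' hk
      have e1 : ((tr X.subtype hi hL1).symm k' : L D) = (tr X.subtype hi hL1).symm k' := rfl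
      have v1 : (((tr X.subtype hi hL1).symm k' : L D) : G) = ((k' : X) : G) := by
        have := tr_apply X.subtype hi hL1 ((tr X.subtype hi hL1).symm k')
        rw [MulEquiv.apply_symm_apply] at this
        exact this.symm
      have v2 : (((tr j hj hL2).symm k : L D) : G) = g⁻¹ * ((k : X) : G) * g := by
        have := tr_apply j hj hL2 ((tr j hj hL2).symm k)
        rw [MulEquiv.apply_symm_apply, hjv] at this
        exact this.symm
      show (θ' : L D → ℂ) ((tr X.subtype hi hL1).symm k') = (θ : L D → ℂ) ((tr j hj hL2).symm k)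
      apply hθ'
      rw [v1, v2, hk]
      show (x : G) * (k : X) * (x : G)⁻¹ = _
      group
    have h2 : SameBlock M (thj X.subtype hi hL1 θ : L (D.comap X.subtype) → ℂ)
      (thj X.subtype hi hL1 θ' : L (D.comap X.subtype) → ℂ) := h1
    exact (sameBlock_pull (tr X.subtype hi hL1).symm).1 h2

end H81.Inert
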