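import Cfsg.Agent.Lib.H81.Contrib

/-!
# Divisibility of the major contributions by the height
-/

set_option autoImplicit false
set_option linter.unusedSectionVars false
set_option linter.unusedVariables false
set_option linter.style.haveILetI false
open Cfsg H20.Loc H20.GA H20.Blk H20.DefGrp H20.Orth H20.Defect H20.Ind H20.Height
open scoped ComplexConjugate

namespace H81.Inert

open H18.CharBasic H18.CharOrtho H18.CharInd H81.Section H81.Contrib

universe u
variable {G : Type u} [Group G] {M : Ideal AlgInt} {p : ℕ}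

/-- values of functions induced from a section -/
theorem section_cases [Fintype G] (hp : p.Prime) {y : G} (hy : ∃ k : ℕ, orderOf y = p ^ k)
    {f : C y → ℂ} (hf : IsClassFunction (C y) f) (hreg : ∀ c : C y, p ∣ orderOf c → f c = 0)
    (g : G) : indFun (C y) (shift y f) g = 0 ∨ ∃ (x : G) (c : C y), ¬ p ∣ orderOf c ∧
      x * g * x⁻¹ = y * (c : G) ∧ indFun (C y) (shift y f) g = f c := by
  classical
  by_cases h : ∃ (x : G) (c : C y), ¬ p ∣ orderOf c ∧ x * g * x⁻¹ = y * (c : G)
  · obtain ⟨x, c, hc, hx⟩ := h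
    right
    refine ⟨x, c, hc, hx, ?_⟩
    rw [← indFun_shift_apply hp hy hf hreg hc, ← hx]
    exact (isClassFunction_indFun (C y) (shift y f) g x).symm
  · left
    rw [indFun_apply, Finset.sum_eq_zero, mul_zero]
    intro x _
    by_cases hmem : x⁻¹ * g * x ∈ C y
    · rw [ext_mem (C y) (shift y f) hmem, shift]
      apply hreg
      by_contra hno
      apply h
      refine ⟨x⁻¹, (cy y)⁻¹ * ⟨x⁻¹ * g * x, hmem⟩, hno, ?_⟩
      push_cast
      rw [coe_cy, mul_inv_cancel_left, inv_inv]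
    · exact ext_notMem _ _ hmem

variable [Fintype G]

/-- local integrality of the components -/
theorem comp_locR [M.IsPrime] {y : G} [Fintype (C y)]
    {b : Set (IrrCharacter (C y))} (χ : IrrCharacter G) (c : C y) :
    MemLocalRing M (comp p y b (χ : G → ℂ) c) := by
  classical
  letI := Fintype.ofFinite (IrrCharacter (C y))
  rw [comp_eq, Finset.sum_apply]
  refine locR_sum fun ξ _ => ?_
  rw [Pi.smul_apply, smul_eq_mul]
  refine locR_mul ?_ ?_
  · split_ifs
    · obtain ⟨ω, hω, h1⟩ := exists_twist y ξ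
      obtain ⟨m, hm⟩ := inner_char_natCast
        (isCharacter_restrict (C y) (irr_char χ)) (irr_char ξ)
      rw [h1, hm]
      refine locR_mul ?_ (locR_natCast m)
      apply isIntegral_mem
      refine ⟨Polynomial.X ^ orderOf y - 1, Polynomial.monic_X_pow_sub_C 1 (orderOf_pos y).ne', ?_⟩
      simp [hω]
    · exact locR_zero
  · by_cases hc : p ∣ orderOf c
    · rw [reg_not hc]; exact locR_zero
    · rw [reg_of hc]; exact isIntegral_mem (irr_int ξ c)

/-- pairing class functions with local values against characters -/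
theorem exists_omega [M.IsPrime] {Φ : G → ℂ} (hΦ : IsClassFunction G Φ)
    (hloc : ∀ g, MemLocalRing M (Φ g)) : ∃ w ∈ zr M G, ∀ χ : IrrCharacter G,
      classInner Φ (χ : G → ℂ) = (Nat.card G : ℂ)⁻¹ * ((χ : G → ℂ) 1 * omega χ w) := by
  have hcl : IsClassFunction G (fun g => Φ g⁻¹) := by
    intro g h
    have h1 : (h * g * h⁻¹)⁻¹ = h * g⁻¹ * h⁻¹ := by group
    simp only [h1]
    exact hΦ g⁻¹ h
  refine ⟨zof _ hcl, fun g => hloc g⁻¹, fun χ => ?_⟩
  rw [omega_eq_sum, mul_div_cancel₀ _ (irr_one_ne_zero χ.2), classInner]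
  congr 1
  refine Fintype.sum_equiv (Equiv.inv G) _ _ fun g => ?_
  show Φ g * conj ((χ : G → ℂ) g) = Φ (g⁻¹)⁻¹ * (χ : G → ℂ) g⁻¹
  rw [inv_inv, H18.CharBasic.char_inv (irr_char χ)]

section major
variable {y : G} [Fintype (C y)] {b : Set (IrrCharacter (C y))} {B : Set (IrrCharacter G)}

theorem phi_inner (hM : IsPModular p M) (hb : IsUnion M b) (χ : G → ℂ) {ψ : G → ℂ}
    (hψ : IsClassFunction G ψ) :
    classInner (indFun (C y) (shift y (comp p y b χ))) ψ =
      classInner (comp p y b χ) (comp p y b ψ) := by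
  rw [frobenius (C y) _ hψ, inner_shift, inner_comp hM hb]

theorem phi_locR (hM : IsPModular p M) [M.IsPrime] (hb : IsUnion M b)
    (hy : ∃ k : ℕ, orderOf y = p ^ k) (χ : IrrCharacter G) (g : G) :
    MemLocalRing M (indFun (C y) (shift y (comp p y b (χ : G → ℂ))) g) := by
  obtain ⟨h1, h2, h3⟩ := mem_Vb hM hb (comp_mem (p := p) (y := y) (b := b) (χ : G → ℂ))
  rcases section_cases (pm_prime hM) hy h1 (fun c hc => by rw [← h2, reg_not hc]) g with
    h | ⟨x, c, _, _, h⟩
  · rw [h]; exact locR_zero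
  · rw [h]; exact comp_locR χ c

/-- the major contributions -/
theorem major (hM : IsPModular p M) [M.IsPrime] (hy : ∃ k : ℕ, orderOf y = p ^ k)
    (hind : IsInducedBlock M (C y) b B) (hd : blockDefect p b = blockDefect p B)
    {χ : IrrCharacter G} (hχ : χ ∈ B) :
    classInner (comp p y b (χ : G → ℂ)) (comp p y b (χ : G → ℂ)) ≠ 0 ∧
    ∃ v : ℂ, MemLocalRing M v ∧
      (p : ℂ) ^ blockDefect p B * classInner (comp p y b (χ : G → ℂ)) (comp p y b (χ : G → ℂ)) =
        (p : ℂ) ^ blockHeight p B (χ : G → ℂ) * v := by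
  have hb := isUnion_of_isPBlock hind.1
  have hG : (Nat.card G : ℂ) ≠ 0 := by exact_mod_cast (Nat.card_pos (α := G)).ne'
  have hp0 : (p : ℂ) ≠ 0 := by exact_mod_cast (pm_prime hM).ne_zero
  obtain ⟨ψ, hψ, hψ0⟩ := exists_height_zero hM hind.2.1
  obtain ⟨u, hu1, hu2, hu⟩ := H81.RegMat.exists_ratio hM hind.2.1 hχ
  obtain ⟨u', hu1', hu2', hu'⟩ := H81.RegMat.exists_ratio hM hind.2.1 hψ
  constructor
  · -- nonvanishing
    obtain ⟨w, hw, hw'⟩ := exists_omega (M := M) (isClassFunction_indFun (C y)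
      (shift y (comp p y b (ψ : G → ℂ)))) (phi_locR hM hb hy ψ)
    have h1 := scaled_unit hM hy hind hψ hψ hψ0 hψ0
    rw [← phi_inner hM hb _ (irr_class ψ), hw', hd] at h1
    have h2 : ¬ MemLocalIdeal M (omega ψ w) := by
      intro hc
      apply h1
      have h3 : (p : ℂ) ^ blockDefect p B * ((Nat.card G : ℂ)⁻¹ * ((ψ : G → ℂ) 1 * omega ψ w)) =
          u' * omega ψ w := by
        have h4 : (p : ℂ) ^ blockDefect p B * ((Nat.card G : ℂ)⁻¹ * ((ψ : G → ℂ) 1 * omega ψ w)) =
          ((p : ℂ) ^ blockDefect p B * (ψ : G → ℂ) 1) * (Nat.card G : ℂ)⁻¹ * omega ψ w := by ring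
        rw [h4, hu', hψ0, pow_zero, one_mul]
        field_simp
      rw [h3]
      exact locI_mul_left hu1' hc
    have h3 : ¬ MemLocalIdeal M (omega χ w) := fun hc => h2
      ((locI_congr (sameBlock_iff.1 (isPBlock_sameBlock hind.2.1 hψ hχ) w hw)).2 hc)
    have h4 : classInner (comp p y b (ψ : G → ℂ)) (comp p y b (χ : G → ℂ)) ≠ 0 := by
      rw [← phi_inner hM hb _ (irr_class χ), hw']
      refine mul_ne_zero (inv_ne_zero hG) (mul_ne_zero (irr_one_ne_zero χ.2) ?_)
      exact ne_zero_of_not_locI h3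
    intro hc
    apply h4
    rw [H18.CharOrtho.inner_self_eq_zero.1 hc, H18.CharOrtho.inner_zero_right]
  · obtain ⟨w, hw, hw'⟩ := exists_omega (M := M) (isClassFunction_indFun (C y)
      (shift y (comp p y b (χ : G → ℂ)))) (phi_locR hM hb hy χ)
    refine ⟨u * omega χ w, locR_mul hu1 (omega_mem χ hw), ?_⟩
    rw [← phi_inner hM hb _ (irr_class χ), hw']
    have h4 : (p : ℂ) ^ blockDefect p B * ((Nat.card G : ℂ)⁻¹ * ((χ : G → ℂ) 1 * omega χ w)) =
      ((p : ℂ) ^ blockDefect p B * (χ : G → ℂ) 1) * (Nat.card G : ℂ)⁻¹ * omega χ w := by ring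
    rw [h4, hu]
    field_simp

end major

end H81.Inert
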