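import Cfsg.Agent.Lib.H81.Inert3

/-!
# Galois action on the major contributions
-/

set_option autoImplicit false
set_option linter.unusedSectionVars false
set_option linter.unusedVariables false
set_option linter.style.haveILetI false
open Cfsg H20.Loc H20.GA H20.Blk H20.DefGrp H20.Orth H20.Defect H20.Ind H20.Height
open scoped ComplexConjugate

namespace H81.Inert

open H18.CharBasic H18.CharOrtho H18.CharInd H81.Section H81.Contrib

universe u
variable {G : Type u} [Group G] [Finite G] {M : Ideal AlgInt} {p : ℕ}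

open Classical in
/-- the double sum of the contributions, for a general subgroup `X` and `z` central in `X`. -/
noncomputable def EE (p : ℕ) (X : Subgroup G) (S : Set (IrrCharacter X)) (z : G) (χ : G → ℂ) : ℂ :=
  letI := Fintype.ofFinite X
  letI := Fintype.ofFinite (IrrCharacter X)
  ∑ ξ : IrrCharacter X, ∑ ξ' : IrrCharacter X, if ξ ∈ S then
    classInner (fun c : X => χ (z * c)) (ξ : X → ℂ) *
      conj (classInner (fun c : X => χ (z * c)) (ξ' : X → ℂ)) *
      classInner (reg p (ξ : X → ℂ)) (ξ' : X → ℂ) else 0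

theorem twist_pow {X : Subgroup G} [Fintype X] {z : G} (hz : z ∈ X) (hX : X ≤ C z)
    (ξ : IrrCharacter X) : ∃ c : ℂ, c ^ orderOf z = 1 ∧ ∀ (k : ℕ) (χ : G → ℂ),
      classInner (fun x : X => χ (z ^ k * x)) (ξ : X → ℂ) =
        c ^ k * classInner (fun x : X => χ x) (ξ : X → ℂ) := by
  have hzc : (⟨z, hz⟩ : X) ∈ Subgroup.center X := by
    rw [Subgroup.mem_center_iff]
    intro g
    apply Subtype.ext
    exact Subgroup.mem_centralizer_singleton_iff.1 (hX g.2)
  obtain ⟨c, hc0, hc, hcn⟩ := H81.CentralVal.exists_central ξ.2 hzc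
  have hord : (⟨z, hz⟩ : X) ^ orderOf z = 1 := by
    apply Subtype.ext
    push_cast
    exact pow_orderOf_eq_one z
  have hc1 := hcn _ hord
  have hpw : ∀ (k : ℕ) (x : X), (ξ : X → ℂ) ((⟨z, hz⟩ : X) ^ k * x) = c ^ k * (ξ : X → ℂ) x := by
    intro k
    induction k with
    | zero => intro x; rw [pow_zero, one_mul, pow_zero, one_mul]
    | succ k ih =>
      intro x
      rw [pow_succ', mul_assoc, hc, ih, pow_succ']
      ring
  refine ⟨c, hc1, fun k χ => ?_⟩
  have hconj : conj (c ^ k) = (c ^ k)⁻¹ := by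
    apply H81.Siegel.conj_root (orderOf_pos z)
    rw [← pow_mul, mul_comm, pow_mul, hc1, one_pow]
  have hck : c ^ k ≠ 0 := pow_ne_zero _ (by
    intro h
    rw [h, zero_pow (orderOf_pos z).ne'] at hc1
    exact zero_ne_one hc1)
  have h3 : ∑ g : X, χ (z ^ k * (g : G)) * conj ((ξ : X → ℂ) g) =
      ∑ g : X, c ^ k * (χ (g : G) * conj ((ξ : X → ℂ) g)) := by
    refine Fintype.sum_equiv (Equiv.mulLeft ((⟨z, hz⟩ : X) ^ k)) _ _ fun g => ?_
    rw [Equiv.coe_mulLeft, hpw, map_mul, hconj]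
    show χ (z ^ k * (g : G)) * _ = _ * (χ (z ^ k * (g : G)) * _)
    field_simp
  rw [classInner, classInner, h3, ← Finset.mul_sum]
  ring

/-- Galois action. -/
theorem sigma_EE (hM : IsPModular p M) {X : Subgroup G} {z : G} (hz : z ∈ X) (hX : X ≤ C z)
    {S : Set (IrrCharacter X)} (hS : IsPBlock M S) (χ : IrrCharacter G) (σ : ℂ ≃+* ℂ) {j : ℕ}
    (hσ : ∀ ω : ℂ, ω ^ orderOf z = 1 → σ ω = ω ^ j) :
    σ (EE p X S z (χ : G → ℂ)) = EE p X S (z ^ j) (χ : G → ℂ) := by
  classical
  haveI := pm_isPrime hM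
  letI := Fintype.ofFinite X
  letI := Fintype.ofFinite (IrrCharacter X)
  rw [EE, EE, map_sum]
  refine Finset.sum_congr rfl fun ξ _ => ?_
  rw [map_sum]
  refine Finset.sum_congr rfl fun ξ' _ => ?_
  split_ifs with hξ
  · obtain ⟨c, hc, h1⟩ := twist_pow hz hX ξ
    obtain ⟨c', hc', h1'⟩ := twist_pow hz hX ξ'
    obtain ⟨m, hm⟩ := inner_char_natCast
      (isCharacter_restrict X (irr_char χ)) (irr_char ξ)
    obtain ⟨m', hm'⟩ := inner_char_natCast
      (isCharacter_restrict X (irr_char χ)) (irr_char ξ')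
    obtain ⟨k, hk⟩ := H81.RegMat.exists_int hM hS hξ ξ'
    have hm1 : classInner (fun x : X => (χ : G → ℂ) x) (ξ : X → ℂ) = m := hm
    have hm1' : classInner (fun x : X => (χ : G → ℂ) x) (ξ' : X → ℂ) = m' := hm'
    have e1 := h1 1 (χ : G → ℂ)
    have e1' := h1' 1 (χ : G → ℂ)
    rw [pow_one, pow_one, hm1] at e1
    rw [pow_one, pow_one, hm1'] at e1'
    rw [e1, e1', h1 j, h1' j, hm1, hm1']
    have hp0 : (p : ℂ) ≠ 0 := by exact_mod_cast (pm_prime hM).ne_zero
    have hr : σ (classInner (reg p (ξ : X → ℂ)) (ξ' : X → ℂ)) =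
        classInner (reg p (ξ : X → ℂ)) (ξ' : X → ℂ) := by
      have h2 := congrArg σ hk
      rw [map_mul, map_pow, map_natCast, map_mul, map_pow, map_natCast, map_intCast, ← hk] at h2
      exact mul_left_cancel₀ (pow_ne_zero _ hp0) h2
    have hcinv : (c'⁻¹) ^ orderOf z = 1 := by rw [inv_pow, hc', inv_one]
    have hcj : (c' ^ j) ^ orderOf z = 1 := by rw [← pow_mul, mul_comm, pow_mul, hc', one_pow]
    rw [map_mul, map_mul, map_mul, map_mul, map_mul, map_mul, hr,
      H81.Siegel.conj_root (orderOf_pos z) hc', H81.Siegel.conj_root (orderOf_pos z) hcj,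
      hσ _ hc, hσ _ hcinv, Complex.conj_natCast, map_natCast, map_natCast, inv_pow]
  · exact map_zero σ

/-- powers -/
theorem int_dvd (hM : IsPModular p M) [M.IsPrime] (k : ℕ) : ∀ (m : ℤ) (v : ℂ), MemLocalRing M v →
    (m : ℂ) = (p : ℂ) ^ k * v → (p : ℤ) ^ k ∣ m := by
  induction k with
  | zero => intro m v _ _; rw [pow_zero]; exact one_dvd _
  | succ k ih =>
    intro m v hv h
    have hp0 : (p : ℂ) ≠ 0 := by exact_mod_cast (pm_prime hM).ne_zero
    have h1 : MemLocalIdeal M (m : ℂ) := by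
      rw [h, pow_succ', mul_assoc]
      refine locI_mul_right ?_ (locR_mul (locR_pow (locR_natCast p) k) hv)
      exact (locI_natCast_iff hM).2 dvd_rfl
    obtain ⟨m', rfl⟩ := (locI_intCast_iff hM).1 h1
    have h2 : (m' : ℂ) = (p : ℂ) ^ k * v := by
      push_cast at h
      rw [pow_succ', mul_assoc] at h
      exact mul_left_cancel₀ hp0 h
    rw [pow_succ']
    exact mul_dvd_mul_left _ (ih m' v hv h2)

end H81.Inert
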