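import Cfsg.Agent.Lib.H81.Inert4
import Cfsg.Agent.Lib.H81.Inert2

/-!
# The lower bound for the sum of the major contributions
-/

set_option autoImplicit false
set_option linter.unusedSectionVars false
set_option linter.unusedVariables false
set_option linter.style.haveILetI false
open Cfsg H20.Loc H20.GA H20.Blk H20.DefGrp H20.Orth H20.Defect H20.Ind H20.Height H20.LN
open scoped ComplexConjugate

namespace H81.Inert

open H18.CharBasic H18.CharOrtho H18.CharInd H81.Section H81.Contrib H81.Pair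

universe u
variable {G : Type u} [Group G] [Finite G] {M : Ideal AlgInt} {p : ℕ}

/-- arithmetic-geometric mean for Galois stable sets of totally positive integers -/
theorem amgm {ι : Type*} (hM : IsPModular p M) [M.IsPrime] (Z : Finset ι) (α : ι → ℂ) (a : ι → ℝ)
    (h : ℕ) (h1 : ∀ z ∈ Z, IsIntegral ℤ (α z)) (h2 : ∀ z ∈ Z, α z = (a z : ℂ) ∧ 0 < a z)
    (h3 : ∀ σ : ℂ ≃+* ℂ, σ (∏ z ∈ Z, α z) = ∏ z ∈ Z, α z)
    (h4 : ∀ z ∈ Z, ∃ v, MemLocalRing M v ∧ α z = (p : ℂ) ^ h * v) :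
    (Z.card : ℝ) * (p : ℝ) ^ h ≤ ∑ z ∈ Z, a z := by
  classical
  rcases Z.eq_empty_or_nonempty with rfl | hne
  · simp
  have hp := pm_prime hM
  obtain ⟨m, hm⟩ := H5.BurnsideZero.int_of_fixed (IsIntegral.prod _ h1) h3
  have hprod : (∏ z ∈ Z, α z) = ((∏ z ∈ Z, a z : ℝ) : ℂ) := by
    push_cast
    exact Finset.prod_congr rfl fun z hz => (h2 z hz).1
  have hP : (∏ z ∈ Z, a z : ℝ) = (m : ℝ) := by
    rw [hprod] at hm
    exact_mod_cast hm.symm
  have hPpos : 0 < (∏ z ∈ Z, a z : ℝ) := Finset.prod_pos fun z hz => (h2 z hz).2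
  have hv : ∀ z : ι, ∃ v, MemLocalRing M v ∧ (z ∈ Z → α z = (p : ℂ) ^ h * v) := by
    intro z
    by_cases hz : z ∈ Z
    · obtain ⟨v, hv1, hv2⟩ := h4 z hz
      exact ⟨v, hv1, fun _ => hv2⟩
    · exact ⟨0, locR_zero, fun hc => absurd hc hz⟩
  choose v hv1 hv2 using hv
  have hdvd : (p : ℤ) ^ (h * Z.card) ∣ m := by
    apply int_dvd hM _ m (∏ z ∈ Z, v z) (locR_prod fun z _ => hv1 z)
    rw [hm, Finset.prod_congr rfl fun z hz => hv2 z hz, Finset.prod_mul_distrib,
      Finset.prod_const, pow_mul]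
  have hmpos : 0 < m := by
    rw [hP] at hPpos
    exact_mod_cast hPpos
  have hle : (p : ℝ) ^ (h * Z.card) ≤ ∏ z ∈ Z, a z := by
    rw [hP]
    exact_mod_cast Int.le_of_dvd hmpos hdvd
  set T : ℝ := (Z.card : ℝ) with hT
  have hTpos : 0 < T := by
    rw [hT]; exact_mod_cast Finset.card_pos.2 hne
  have h8 := Real.geom_mean_le_arith_mean_weighted Z
    (fun _ => T⁻¹) a (fun _ _ => by positivity)
    (by rw [Finset.sum_const, nsmul_eq_mul]; exact mul_inv_cancel₀ hTpos.ne')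
    (fun z hz => (h2 z hz).2.le)
  rw [Real.finsetProd_rpow _ _ (fun z hz => (h2 z hz).2.le), ← Finset.mul_sum] at h8
  have h9 : (p : ℝ) ^ h ≤ (∏ z ∈ Z, a z) ^ T⁻¹ := by
    have h10 : ((p : ℝ) ^ (h * Z.card)) ^ T⁻¹ = (p : ℝ) ^ h := by
      rw [pow_mul, hT]
      exact Real.pow_rpow_inv_natCast (by positivity) (Finset.card_pos.2 hne).ne'
    rw [← h10]
    exact Real.rpow_le_rpow (by positivity) hle (by positivity)
  have h11 := h9.trans h8
  have := mul_le_mul_of_nonneg_left h11 hTpos.le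
  rwa [← mul_assoc, mul_inv_cancel₀ hTpos.ne', one_mul] at this

theorem C_pow {z : G} {j : ℕ} (hj : j.Coprime (orderOf z)) : C (z ^ j) = C z := by
  ext x
  rw [Subgroup.mem_centralizer_singleton_iff, Subgroup.mem_centralizer_singleton_iff]
  constructor
  · intro h
    obtain ⟨m, hm⟩ := exists_pow_eq_self_of_coprime hj
    have h1 : Commute x (z ^ j) := h
    have h2 := h1.pow_right m
    rw [hm] at h2
    exact h2
  · intro h
    have h1 : Commute x z := h
    exact h1.pow_right j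

variable {D : Subgroup G}

/-- the block of `C(z)` -/
abbrev bl (M : Ideal AlgInt) [M.IsPrime] (θ : IrrCharacter (L D)) (z : G) :
    Set (IrrCharacter (C z)) := blj M θ (C z).subtype

/-- the contribution of `(z, b_z)` -/
noncomputable def mm (M : Ideal AlgInt) [M.IsPrime] (p : ℕ) (θ : IrrCharacter (L D)) (χ : G → ℂ)
    (z : G) : ℂ :=
  letI := Fintype.ofFinite (C z)
  classInner (comp p z (bl M θ z) χ) (comp p z (bl M θ z) χ)

theorem D_le_C {z : G} (hz : z ∈ D ⊓ Cn D) : D ≤ C z := le_of_mem_Cn hz.2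

theorem Cn_le_C {z : G} (hz : z ∈ D ⊓ Cn D) : Cn D ≤ C z := by
  intro x hx
  rw [Subgroup.mem_centralizer_singleton_iff]
  exact (Subgroup.mem_centralizer_iff.1 hx z hz.1).symm

theorem mm_eq (hM : IsPModular p M) [M.IsPrime] (hDp : IsPGroup p D) (θ : IrrCharacter (L D))
    (χ : IrrCharacter G) {z : G} (hz : z ∈ D ⊓ Cn D) :
    mm M p θ (χ : G → ℂ) z = EE p (C z) (bl M θ z) z (χ : G → ℂ) := by
  classical
  letI := Fintype.ofFinite G
  letI := Fintype.ofFinite (C z)
  letI := Fintype.ofFinite (IrrCharacter (C z))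
  have hb := bl_isPBlock hM hDp (D_le_C hz) (Cn_le_C hz) θ
  exact inner_comp_eq hM (isUnion_of_isPBlock hb) (irr_class χ)

theorem EE_congr [M.IsPrime] (θ : IrrCharacter (L D)) (χ : G → ℂ) (w : G) {X X' : Subgroup G}
    (h : X = X') : EE p X (blj M θ X.subtype) w χ = EE p X' (blj M θ X'.subtype) w χ := by
  subst h; rfl

theorem sigma_mm (hM : IsPModular p M) [M.IsPrime] (hDp : IsPGroup p D) (θ : IrrCharacter (L D))
    (χ : IrrCharacter G) {z : G} (hz : z ∈ D ⊓ Cn D) (σ : ℂ ≃+* ℂ) {j : ℕ}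
    (hj : j.Coprime (Nat.card G)) (hσ : ∀ ω : ℂ, ω ^ Nat.card G = 1 → σ ω = ω ^ j) :
    σ (mm M p θ (χ : G → ℂ) z) = mm M p θ (χ : G → ℂ) (z ^ j) := by
  have hjz : j.Coprime (orderOf z) := Nat.Coprime.coprime_dvd_right (orderOf_dvd_natCard z) hj
  rw [mm_eq hM hDp θ χ hz, mm_eq hM hDp θ χ ((D ⊓ Cn D).pow_mem hz j),
    sigma_EE hM (self_mem z) le_rfl (bl_isPBlock hM hDp (D_le_C hz) (Cn_le_C hz) θ) χ σ (j := j)]
  · exact (EE_congr θ _ _ (C_pow hjz)).symm
  · intro ω hω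
    apply hσ
    obtain ⟨k, hk⟩ := orderOf_dvd_natCard z
    rw [hk, pow_mul, hω, one_pow]

/-- the lower bound -/
theorem lower (hM : IsPModular p M) [M.IsPrime] (θ : IrrCharacter (L D))
    {B : Set (IrrCharacter G)} (hBD : IsDefectGroup p M B D)
    (hind : IsInducedBlock M (L D) (blockOf M (θ : L D → ℂ)) B) {χ : IrrCharacter G}
    (hχ : χ ∈ B) [Fintype (D ⊓ Cn D : Subgroup G)] :
    (Nat.card (D ⊓ Cn D : Subgroup G) : ℝ) * (p : ℝ) ^ blockHeight p B (χ : G → ℂ) ≤
      (p : ℝ) ^ blockDefect p B * ∑ z : (D ⊓ Cn D : Subgroup G), (mm M p θ (χ : G → ℂ) z).re := by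
  classical
  have hDp := isPGroup_of_isDefectGroup hBD
  letI := Fintype.ofFinite G
  have hp := pm_prime hM
  haveI : Fact p.Prime := ⟨hp⟩
  have hreal : ∀ z : G, mm M p θ (χ : G → ℂ) z = ((mm M p θ (χ : G → ℂ) z).re : ℂ) := by
    intro z
    letI := Fintype.ofFinite (C z)
    apply Complex.ext
    · simp
    · rw [Complex.ofReal_im]
      exact H18.CharOrtho.inner_self_im _
  have hnn : ∀ z : G, 0 ≤ (mm M p θ (χ : G → ℂ) z).re := by
    intro z
    letI := Fintype.ofFinite (C z)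
    exact H18.CharOrtho.inner_self_re_nonneg _
  have hmaj : ∀ z : (D ⊓ Cn D : Subgroup G), mm M p θ (χ : G → ℂ) z ≠ 0 ∧ ∃ v : ℂ,
      MemLocalRing M v ∧ (p : ℂ) ^ blockDefect p B * mm M p θ (χ : G → ℂ) z =
        (p : ℂ) ^ blockHeight p B (χ : G → ℂ) * v := by
    intro z
    letI := Fintype.ofFinite (C (z : G))
    refine major hM ?_ (bl_induces hM hDp (D_le_C z.2) (Cn_le_C z.2) θ hind)
      (bl_blockDefect hM (D_le_C z.2) (Cn_le_C z.2) θ hBD hind) hχ
    have h1 := IsPGroup.iff_orderOf.1 hDp ⟨z, z.2.1⟩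
    rwa [Subgroup.orderOf_mk] at h1
  have hpos : ∀ z : (D ⊓ Cn D : Subgroup G), 0 < (mm M p θ (χ : G → ℂ) z).re := by
    intro z
    apply lt_of_le_of_ne (hnn z)
    intro h0
    apply (hmaj z).1
    rw [hreal, ← h0, Complex.ofReal_zero]
  have hn : (0 : ℕ) < Nat.card G := Nat.card_pos
  have h1 := amgm hM (Finset.univ : Finset (D ⊓ Cn D : Subgroup G))
    (fun z => (p : ℂ) ^ blockDefect p B * mm M p θ (χ : G → ℂ) z)
    (fun z => (p : ℝ) ^ blockDefect p B * (mm M p θ (χ : G → ℂ) z).re)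
    (blockHeight p B (χ : G → ℂ)) (by
      intro z _
      letI := Fintype.ofFinite (C (z : G))
      letI := Fintype.ofFinite (IrrCharacter (C (z : G)))
      haveI : NeZero (Nat.card G) := ⟨hn.ne'⟩
      have hζ := Complex.isPrimitiveRoot_exp (Nat.card G) hn.ne'
      have hb := bl_isPBlock hM hDp (D_le_C z.2) (Cn_le_C z.2) θ
      have h2 := scaled_mem hM hb hn (orderOf_dvd_natCard (z : G)) hζ χ χ
      rw [bl_blockDefect hM (D_le_C z.2) (Cn_le_C z.2) θ hBD hind] at h2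
      have h3 : Algebra.adjoin ℤ {Complex.exp (2 * Real.pi * Complex.I / Nat.card G)} ≤
          integralClosure ℤ ℂ := by
        rw [Algebra.adjoin_le_iff]
        rintro _ rfl
        exact hζ.isIntegral hn
      exact h3 h2) (by
      intro z _
      refine ⟨?_, mul_pos (pow_pos (by exact_mod_cast hp.pos) _) (hpos z)⟩
      push_cast
      rw [← hreal]) (by
      intro σ
      obtain ⟨j, hj, hσj⟩ := H5.BurnsideZero.exists_pow σ hn.ne'
      rw [map_prod]
      have hco : (Nat.card (D ⊓ Cn D : Subgroup G)).Coprime j :=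
        (Nat.Coprime.coprime_dvd_right (Subgroup.card_subgroup_dvd_card _) hj).symm
      refine Fintype.prod_equiv (powCoprime hco) _ _ fun z => ?_
      rw [map_mul, map_pow, map_natCast, sigma_mm hM hDp θ χ z.2 σ hj hσj]
      rfl) (by
      intro z _
      exact (hmaj z).2)
  rw [Finset.mul_sum]
  refine le_trans (le_of_eq ?_) h1
  rw [Finset.card_univ, Nat.card_eq_fintype_card]

end H81.Inert
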