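import Cfsg.Agent.Lib.H81.Inert5

/-!
# Fusion of the major subsections
-/

set_option autoImplicit false
set_option linter.unusedSectionVars false
set_option linter.unusedVariables false
set_option linter.style.haveILetI false
open Cfsg H20.Loc H20.GA H20.Blk H20.DefGrp H20.Orth H20.Defect H20.Ind H20.Height H20.LN
open scoped ComplexConjugate

namespace H81.Inert

open H18.CharBasic H18.CharOrtho H18.CharInd H81.Section H81.Contrib H81.Pair

universe u

section transport
variable {A B : Type u} [Group A] [Group B] (e : A ≃* B) {M : Ideal AlgInt} {p : ℕ}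

/-- transported sets of characters -/
def tset (S : Set (IrrCharacter B)) : Set (IrrCharacter A) := {ψ | pull e.symm ψ ∈ S}

theorem pull_mem_tset {S : Set (IrrCharacter B)} {ψ : IrrCharacter B} :
    pull e ψ ∈ tset e S ↔ ψ ∈ S := by
  show pull e.symm (pull e ψ) ∈ S ↔ ψ ∈ S
  rw [pull_symm_pull]

theorem isPBlock_tset [M.IsPrime] [Finite A] [Finite B] {S : Set (IrrCharacter B)}
    (hS : IsPBlock M S) : IsPBlock M (tset e S) := by
  obtain ⟨ψ0, h0⟩ := isPBlock_nonempty hS
  have h : tset e S = blockOf M (pull e ψ0 : A → ℂ) := by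
    ext ψ
    have h1 : pull e (pull e.symm ψ) = ψ := pull_pull_symm e ψ
    constructor
    · intro hψ
      have h2 : SameBlock M (ψ0 : B → ℂ) (pull e.symm ψ : B → ℂ) := isPBlock_sameBlock hS h0 hψ
      rw [← sameBlock_pull e, h1] at h2
      exact h2
    · intro hψ
      have h2 : SameBlock M (pull e ψ0 : A → ℂ) (ψ : A → ℂ) := hψ
      rw [← h1, sameBlock_pull e] at h2
      exact (isPBlock_mem_iff hS h0 _).2 h2
  rw [h]
  exact isPBlock_blockOf _

theorem proj_transport [Fintype A] [Fintype B] (S : Set (IrrCharacter B)) (f : B → ℂ) (a : A) :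
    proj (tset e S) (fun x => f (e x)) a = proj S f (e a) := by
  classical
  letI := Fintype.ofFinite (IrrCharacter A)
  letI := Fintype.ofFinite (IrrCharacter B)
  rw [proj_eq_sum, proj_eq_sum]
  symm
  refine Fintype.sum_equiv (pullE e) _ _ fun ψ => ?_
  have h1 : (pullE e) ψ = pull e ψ := rfl
  rw [h1]
  have h2 : classInner (fun x => f (e x)) (pull e ψ : A → ℂ) = classInner f (ψ : B → ℂ) :=
    H18.CharQuot.classInner_mulEquiv e f (ψ : B → ℂ)
  by_cases h : ψ ∈ S
  · rw [if_pos h, if_pos ((pull_mem_tset e).2 h), h2]; rfl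
  · rw [if_neg h, if_neg (fun hc => h ((pull_mem_tset e).1 hc))]

end transport

section ortho
variable {X : Type u} [Group X] [Fintype X] {M : Ideal AlgInt} {p : ℕ}

theorem Vb_ortho (hM : IsPModular p M) {b b' : Set (IrrCharacter X)} (hb : IsPBlock M b)
    (hb' : IsPBlock M b') {e e' : X → ℂ} (he : e ∈ Vb p b) (he' : e' ∈ Vb p b')
    (h : classInner e e' ≠ 0) : b = b' := by
  classical
  haveI := pm_isPrime hM
  letI := Fintype.ofFinite (IrrCharacter X)
  obtain ⟨h1, h2, h3⟩ := mem_Vb hM (isUnion_of_isPBlock hb) he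
  obtain ⟨h1', h2', h3'⟩ := mem_Vb hM (isUnion_of_isPBlock hb') he'
  rw [parseval h1] at h
  obtain ⟨ξ, _, hξ⟩ := Finset.exists_ne_zero_of_sum_ne_zero h
  have k1 : ξ ∈ b := by
    by_contra hc
    apply hξ
    rw [← h3, inner_proj, if_neg hc, zero_mul]
  have k2 : ξ ∈ b' := by
    by_contra hc
    apply hξ
    have h5 : classInner e' (ξ : X → ℂ) = 0 := by
      rw [← h3', inner_proj, if_neg hc]
    rw [h5, map_zero, mul_zero]
  exact isPBlock_eq_of_mem hb hb' k1 k2

end ortho

variable {G : Type u} [Group G] [Finite G] {M : Ideal AlgInt} {p : ℕ} {D : Subgroup G}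

/-- conjugation as an isomorphism of centralizers -/
noncomputable def cjC {z z' g : G} (h : g * z * g⁻¹ = z') : C z ≃* C z' where
  toFun c := ⟨g * c * g⁻¹, by
    rw [Subgroup.mem_centralizer_singleton_iff, ← h]
    have := comm_mem c
    calc g * (c : G) * g⁻¹ * (g * z * g⁻¹) = g * ((c : G) * z) * g⁻¹ := by group
      _ = g * (z * c) * g⁻¹ := by rw [this]
      _ = _ := by group⟩
  invFun c := ⟨g⁻¹ * c * g, by
    rw [Subgroup.mem_centralizer_singleton_iff]
    have := comm_mem c
    have hz : z = g⁻¹ * z' * g := by rw [← h]; group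
    rw [hz]
    calc g⁻¹ * (c : G) * g * (g⁻¹ * z' * g) = g⁻¹ * ((c : G) * z') * g := by group
      _ = g⁻¹ * (z' * c) * g := by rw [this]
      _ = _ := by group⟩
  left_inv c := Subtype.ext (by simp [mul_assoc])
  right_inv c := Subtype.ext (by simp [mul_assoc])
  map_mul' a b := Subtype.ext (by simp [mul_assoc])

theorem cjC_apply {z z' g : G} (h : g * z * g⁻¹ = z') (c : C z) :
    ((cjC h c : C z') : G) = g * c * g⁻¹ := rfl

/-- the transported block -/
theorem mem_blj_conj [M.IsPrime] (θ : IrrCharacter (L D)) {z z' g : G} (h : g * z * g⁻¹ = z')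
    (ψ : IrrCharacter (C z')) :
    ψ ∈ blj M θ ((MulAut.conj g⁻¹).toMonoidHom.comp (C z').subtype) ↔
      pull (cjC h) ψ ∈ blj M θ (C z).subtype := by
  have hjv : ∀ k : C z', ((MulAut.conj g⁻¹).toMonoidHom.comp (C z').subtype) k = g⁻¹ * k * g := by
    intro k
    rw [MonoidHom.comp_apply, conj_hom_apply, inv_inv]; rfl
  constructor
  · intro hψ F w hw hF
    have hcl : IsClassFunction (C z') (fun k => zc w ((cjC h).symm k)) := by
      intro a b
      simp only
      rw [map_mul, map_mul, map_inv]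
      exact zc_class w _ _
    have h1 := hψ F (zof _ hcl) (fun k => hw _) (fun k => by
      rw [zc_zof, hjv, hF]
      congr 1)
    rwa [omega_pull (cjC h) ψ w (zof _ hcl) (fun a => by
      rw [zc_zof, MulEquiv.symm_apply_apply])]
  · intro hψ F w hw hF
    have hcl : IsClassFunction (C z) (fun k => zc w ((cjC h) k)) := by
      intro a b
      simp only
      rw [map_mul, map_mul, map_inv]
      exact zc_class w _ _
    have h1 := hψ F (zof _ hcl) (fun k => hw _) (fun k => by
      rw [zc_zof, hF, hjv, cjC_apply]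
      congr 1
      show g⁻¹ * (g * (k : G) * g⁻¹) * g = (k : G)
      group)
    rwa [omega_pull (cjC h) ψ (zof _ hcl) w (fun a => by rw [zc_zof])] at h1

/-- the class function on `G` attached to `(z, b_z)` -/
noncomputable def phi (M : Ideal AlgInt) [M.IsPrime] (p : ℕ) (θ : IrrCharacter (L D)) (χ : G → ℂ)
    (z : G) : G → ℂ :=
  letI := Fintype.ofFinite G
  letI := Fintype.ofFinite (C z)
  indFun (C z) (shift z (comp p z (bl M θ z) χ))

/-- nonorthogonal subsections are conjugate -/
theorem fusion (hM : IsPModular p M) [M.IsPrime] [Fintype G] (θ : IrrCharacter (L D))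
    {B : Set (IrrCharacter G)} (hBD : IsDefectGroup p M B D)
    (hind : IsInducedBlock M (L D) (blockOf M (θ : L D → ℂ)) B) (χ : IrrCharacter G)
    {z z' : G} (hz : z ∈ D ⊓ Cn D) (hz' : z' ∈ D ⊓ Cn D)
    (hne : classInner (phi M p θ (χ : G → ℂ) z) (phi M p θ (χ : G → ℂ) z') ≠ 0) :
    ∃ t ∈ Subgroup.normalizer (D : Set G), t * z * t⁻¹ = z' ∧ ∀ θ' : IrrCharacter (L D),
      (∀ h h' : L D, (h' : G) = t * h * t⁻¹ → (θ' : L D → ℂ) h' = (θ : L D → ℂ) h) →
        θ' ∈ blockOf M (θ : L D → ℂ) := by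
  classical
  have hDp := isPGroup_of_isDefectGroup hBD
  have hp := pm_prime hM
  haveI : Fact p.Prime := ⟨hp⟩
  letI : ∀ z : G, Fintype (C z) := fun z => Fintype.ofFinite _
  have hord : ∀ z : G, z ∈ D ⊓ Cn D → ∃ k : ℕ, orderOf z = p ^ k := by
    intro z hz
    have h1 := IsPGroup.iff_orderOf.1 hDp ⟨z, hz.1⟩
    rwa [Subgroup.orderOf_mk] at h1
  have hb : ∀ z : G, z ∈ D ⊓ Cn D → IsPBlock M (bl M θ z) := fun z hz =>
    bl_isPBlock hM hDp (D_le_C hz) (Cn_le_C hz) θ
  set f := comp p z (bl M θ z) (χ : G → ℂ) with hf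
  set f' := comp p z' (bl M θ z') (χ : G → ℂ) with hf'
  obtain ⟨k1, k2, k3⟩ := mem_Vb hM (isUnion_of_isPBlock (hb z hz)) (comp_mem (p := p) (y := z)
    (b := bl M θ z) (χ : G → ℂ))
  obtain ⟨k1', k2', k3'⟩ := mem_Vb hM (isUnion_of_isPBlock (hb z' hz')) (comp_mem (p := p)
    (y := z') (b := bl M θ z') (χ : G → ℂ))
  have e1 : phi M p θ (χ : G → ℂ) z = indFun (C z) (shift z f) := by
    rw [phi]; congr!
  have e2 : phi M p θ (χ : G → ℂ) z' = indFun (C z') (shift z' f') := by
    rw [phi]; congr!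
  rw [e1, e2, frobenius (C z) _ (isClassFunction_indFun _ _), inner_shift] at hne
  -- find a common element of the sections
  have hex : ∃ c : C z, ¬ p ∣ orderOf c ∧ indFun (C z') (shift z' f') (z * (c : G)) ≠ 0 := by
    by_contra! hc
    apply hne
    rw [classInner, Finset.sum_eq_zero, mul_zero]
    intro c _
    by_cases hcp : p ∣ orderOf c
    · rw [hf, ← k2, reg_not hcp, zero_mul]
    · rw [tw, hc c hcp, map_zero, mul_zero]
  obtain ⟨c0, hc0, hc0'⟩ := hex
  rcases section_cases hp (hord z' hz') k1' (fun c hc => by rw [← k2', reg_not hc])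
    (z * (c0 : G)) with h0 | ⟨g, c', hc', hg, _⟩
  · exact absurd h0 hc0'
  have hgz : g * z * g⁻¹ = z' := by
    have p1 : IsPPart p (z * (c0 : G)) z :=
      ⟨c0, rfl, (comm_mem c0).symm, hord z hz, by rwa [Subgroup.orderOf_coe]⟩
    have p2 := H19.Second.isPPart_conj (h := g) p1
    rw [hg] at p2
    have p3 : IsPPart p (z' * (c' : G)) z' :=
      ⟨c', rfl, (comm_mem c').symm, hord z' hz', by rwa [Subgroup.orderOf_coe]⟩
    exact H19.Second.isPPart_unique hp p2 p3
  -- transport of the component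
  have hS := isPBlock_tset (M := M) (cjC hgz) (hb z' hz')
  have htr : classInner f (tw z (indFun (C z') (shift z' f'))) =
      classInner f (comp p z (tset (cjC hgz) (bl M θ z')) (χ : G → ℂ)) := by
    rw [classInner, classInner]
    congr 1
    refine Finset.sum_congr rfl fun c _ => ?_
    by_cases hcp : p ∣ orderOf c
    · rw [hf, ← k2, reg_not hcp, zero_mul, zero_mul]
    · congr 2
      have h1 : ¬ p ∣ orderOf (cjC hgz c) := by rwa [MulEquiv.orderOf_eq]
      have h2 : indFun (C z') (shift z' f') (z * (c : G)) = f' (cjC hgz c) := by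
        rw [hf', ← indFun_shift_apply hp (hord z' hz') k1' (fun c hc => by rw [← k2', reg_not hc]) h1]
        have h3 : z' * ((cjC hgz c : C z') : G) = g * (z * c) * g⁻¹ := by
          rw [cjC_apply, ← hgz]; group
        rw [h3]
        exact (isClassFunction_indFun (C z') (shift z' f') (z * c) g).symm
      rw [tw, h2, hf', comp, comp, reg_of hcp, reg_of h1,
        ← proj_transport (cjC hgz) (bl M θ z') (tw z' (χ : G → ℂ)) c]
      congr 1
      funext x
      show (χ : G → ℂ) (z' * ((cjC hgz x : C z') : G)) = (χ : G → ℂ) (z * x)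
      have h3 : z' * ((cjC hgz x : C z') : G) = g * (z * x) * g⁻¹ := by
        rw [cjC_apply, ← hgz]; group
      rw [h3]
      exact irr_class χ _ _
  rw [htr] at hne
  have heq := Vb_ortho hM (hb z hz) hS (comp_mem _) (comp_mem _) hne
  have heq2 : blj M θ ((MulAut.conj g⁻¹).toMonoidHom.comp (C z').subtype) =
      blj M θ (C z').subtype := by
    ext ψ
    rw [mem_blj_conj θ hgz]
    have h4 : pull (cjC hgz) ψ ∈ bl M θ z ↔ ψ ∈ bl M θ z' := by
      rw [heq]; exact pull_mem_tset (cjC hgz)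
    exact h4
  have hcen : ∀ d : G, d ∈ C z → g * d * g⁻¹ ∈ C z' := by
    intro d hd
    exact (cjC hgz ⟨d, hd⟩).2
  obtain ⟨x, hx, hN, hθ⟩ := exists_t hM (D_le_C hz') (Cn_le_C hz') θ hBD hind
    (fun d hd => hcen d (D_le_C hz hd)) (fun d hd => hcen d (Cn_le_C hz hd)) heq2
  refine ⟨x * g, hN, ?_, hθ⟩
  have h5 : x * g * z * (x * g)⁻¹ = x * (g * z * g⁻¹) * x⁻¹ := by group
  rw [h5, hgz]
  have h6 : x * z' = z' * x := Subgroup.mem_centralizer_singleton_iff.1 hx
  rw [h6, mul_inv_cancel_right]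

end H81.Inert
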