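import Cfsg.Agent.Lib.H81.Inert6

/-!
# The height bound by the inertial index
-/

set_option autoImplicit false
set_option linter.unusedSectionVars false
set_option linter.unusedVariables false
set_option linter.style.haveILetI false
open Cfsg H20.Loc H20.GA H20.Blk H20.DefGrp H20.Orth H20.Defect H20.Ind H20.Height H20.LN
open scoped ComplexConjugate

namespace H81.Inert

open H18.CharBasic H18.CharOrtho H18.CharInd H81.Section H81.Contrib H81.Pair

universe u
variable {G : Type u} [Group G] [Finite G] {M : Ideal AlgInt} {p : ℕ} {D : Subgroup G}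

/-- abstract quadratic inequality -/
theorem quad {ι : Type*} [Fintype ι] (r : ι → ι → ℝ) (a : ι → ℝ) (rel : ι → ι → Prop)
    [∀ i j, Decidable (rel i j)] (e : ℝ) (he : 0 < e) (ha : ∀ i, 0 ≤ a i)
    (hr : ∀ i j, r i j ≤ if rel i j then (a i + a j) / 2 else 0)
    (h1 : ∀ i, ((Finset.univ.filter fun j => rel i j).card : ℝ) ≤ e)
    (h2 : ∀ j, ((Finset.univ.filter fun i => rel i j).card : ℝ) ≤ e)
    (hQ : 0 ≤ (∑ i, ∑ j, r i j) - 2 * e * (∑ i, a i) + e ^ 2) : ∑ i, a i ≤ e := by
  classical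
  have k1 : ∑ i, ∑ j, (if rel i j then a i else 0) ≤ e * ∑ i, a i := by
    rw [Finset.mul_sum]
    refine Finset.sum_le_sum fun i _ => ?_
    rw [← Finset.sum_filter, Finset.sum_const, nsmul_eq_mul]
    exact mul_le_mul_of_nonneg_right (h1 i) (ha i)
  have k2 : ∑ i, ∑ j, (if rel i j then a j else 0) ≤ e * ∑ i, a i := by
    rw [Finset.sum_comm, Finset.mul_sum]
    refine Finset.sum_le_sum fun j _ => ?_
    rw [← Finset.sum_filter, Finset.sum_const, nsmul_eq_mul]
    exact mul_le_mul_of_nonneg_right (h2 j) (ha j)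
  have k3 : ∑ i, ∑ j, r i j ≤ e * ∑ i, a i := by
    calc ∑ i, ∑ j, r i j ≤ ∑ i, ∑ j, (if rel i j then (a i + a j) / 2 else 0) :=
          Finset.sum_le_sum fun i _ => Finset.sum_le_sum fun j _ => hr i j
      _ = (∑ i, ∑ j, (if rel i j then a i else 0) + ∑ i, ∑ j, (if rel i j then a j else 0)) / 2 := by
          rw [← Finset.sum_add_distrib, Finset.sum_div]
          refine Finset.sum_congr rfl fun i _ => ?_
          rw [← Finset.sum_add_distrib, Finset.sum_div]
          refine Finset.sum_congr rfl fun j _ => ?_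
          split_ifs <;> ring
      _ ≤ (e * ∑ i, a i + e * ∑ i, a i) / 2 := by linarith
      _ = e * ∑ i, a i := by ring
  have k4 : e * (∑ i, a i) ≤ e * e := by nlinarith
  exact le_of_mul_le_mul_left k4 he

/-- counting conjugates in the centre -/
theorem count_le (T : Subgroup G) {z : G} (hz : z ∈ D ⊓ Cn D) (e : ℕ)
    (he : (L D).relIndex T = e) [Fintype (D ⊓ Cn D : Subgroup G)]
    [DecidablePred fun z' : (D ⊓ Cn D : Subgroup G) => ∃ t ∈ T, t * z * t⁻¹ = z'] :
    (Finset.univ.filter fun z' : (D ⊓ Cn D : Subgroup G) =>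
      ∃ t ∈ T, t * z * t⁻¹ = z').card ≤ e := by
  classical
  have hLz : ∀ l ∈ L D, l * z = z * l := by
    intro l hl
    have h1 : L D ≤ C z := sup_le (D_le_C hz) (Cn_le_C hz)
    exact Subgroup.mem_centralizer_singleton_iff.1 (h1 hl)
  letI := Fintype.ofFinite (T ⧸ (L D).subgroupOf T)
  let r : T ⧸ (L D).subgroupOf T → G := Quotient.lift (fun t : T => (t : G) * z * (t : G)⁻¹) (by
    intro a b hab
    have h1 : a⁻¹ * b ∈ (L D).subgroupOf T := QuotientGroup.leftRel_apply.1 hab
    rw [Subgroup.mem_subgroupOf] at h1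
    have h2 := hLz _ h1
    push_cast at h2
    show (a : G) * z * (a : G)⁻¹ = (b : G) * z * (b : G)⁻¹
    have h3 : (b : G) * z = a * ((a : G)⁻¹ * b * z) := by group
    rw [h3, h2]; group)
  have h1 : ((Finset.univ.filter fun z' : (D ⊓ Cn D : Subgroup G) =>
      ∃ t ∈ T, t * z * t⁻¹ = z').image (Subtype.val : (D ⊓ Cn D : Subgroup G) → G)) ⊆
      Finset.univ.image r := by
    intro x hx
    rw [Finset.mem_image] at hx
    obtain ⟨z', hz', rfl⟩ := hx
    obtain ⟨t, ht, htz⟩ := (Finset.mem_filter.1 hz').2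
    rw [Finset.mem_image]
    exact ⟨QuotientGroup.mk ⟨t, ht⟩, Finset.mem_univ _, htz⟩
  have h2 := Finset.card_le_card h1
  rw [Finset.card_image_of_injective _ Subtype.val_injective] at h2
  refine h2.trans (Finset.card_image_le.trans ?_)
  rw [Finset.card_univ, ← Nat.card_eq_fintype_card]
  exact le_of_eq he

/-- the upper bound -/
theorem upper (hM : IsPModular p M) [M.IsPrime] (θ : IrrCharacter (L D))
    {B : Set (IrrCharacter G)} (hBD : IsDefectGroup p M B D)
    (hind : IsInducedBlock M (L D) (blockOf M (θ : L D → ℂ)) B) (χ : IrrCharacter G)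
    (T : Subgroup G) (hT : ∀ t ∈ Subgroup.normalizer (D : Set G), (∀ θ' : IrrCharacter (L D),
      (∀ h h' : L D, (h' : G) = t * h * t⁻¹ → (θ' : L D → ℂ) h' = (θ : L D → ℂ) h) →
        θ' ∈ blockOf M (θ : L D → ℂ)) → t ∈ T) (e : ℕ) (he : (L D).relIndex T = e) (he0 : 0 < e)
    [Fintype (D ⊓ Cn D : Subgroup G)] :
    ∑ z : (D ⊓ Cn D : Subgroup G), (mm M p θ (χ : G → ℂ) z).re ≤ e := by
  classical
  have hDp := isPGroup_of_isDefectGroup hBD
  have hp := pm_prime hM
  haveI : Fact p.Prime := ⟨hp⟩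
  letI := Fintype.ofFinite G
  letI : ∀ z : G, Fintype (C z) := fun z => Fintype.ofFinite _
  have hord : ∀ z : G, z ∈ D ⊓ Cn D → ∃ k : ℕ, orderOf z = p ^ k := by
    intro z hz
    have h1 := IsPGroup.iff_orderOf.1 hDp ⟨z, hz.1⟩
    rwa [Subgroup.orderOf_mk] at h1
  have hb : ∀ z : G, z ∈ D ⊓ Cn D → IsPBlock M (bl M θ z) := fun z hz =>
    bl_isPBlock hM hDp (D_le_C hz) (Cn_le_C hz) θ
  set φ : (D ⊓ Cn D : Subgroup G) → G → ℂ := fun z => phi M p θ (χ : G → ℂ) z with hφ
  have e1 : ∀ z : (D ⊓ Cn D : Subgroup G), φ z = indFun (C (z : G)) (shift (z : G)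
      (comp p (z : G) (bl M θ z) (χ : G → ℂ))) := by
    intro z
    rw [hφ]
    simp only [phi]
  have i1 : ∀ z, classInner (φ z) (χ : G → ℂ) = mm M p θ (χ : G → ℂ) z := by
    intro z
    rw [e1, phi_inner hM (isUnion_of_isPBlock (hb z z.2)) _ (irr_class χ)]
    rfl
  have i2 : ∀ z, classInner (φ z) (φ z) = mm M p θ (χ : G → ℂ) z := by
    intro z
    obtain ⟨k1, k2, k3⟩ := mem_Vb hM (isUnion_of_isPBlock (hb z z.2)) (comp_mem (p := p)
      (y := (z : G)) (b := bl M θ z) (χ : G → ℂ))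
    rw [e1, inner_indFun_shift hp (hord z z.2) (fun c hc => by rw [← k2, reg_not hc]) k1
      (fun c hc => by rw [← k2, reg_not hc])]
    rfl
  have hnn : ∀ z : (D ⊓ Cn D : Subgroup G), 0 ≤ (mm M p θ (χ : G → ℂ) z).re := by
    intro z
    rw [← i2]
    exact H18.CharOrtho.inner_self_re_nonneg _
  refine quad (fun z z' => (classInner (φ z) (φ z')).re)
    (fun z => (mm M p θ (χ : G → ℂ) z).re)
    (fun z z' => ∃ t ∈ T, t * (z : G) * t⁻¹ = z') (e : ℝ) (by exact_mod_cast he0) hnn ?_ ?_ ?_ ?_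
  · intro z z'
    have h0 := H18.CharOrtho.inner_self_re_nonneg (φ z - φ z')
    rw [H18.CharOrtho.inner_sub_left, H18.CharOrtho.inner_sub_right,
      H18.CharOrtho.inner_sub_right, i2, i2, ← H18.CharOrtho.inner_conj_symm (φ z) (φ z')] at h0
    simp only [Complex.sub_re, Complex.conj_re] at h0
    split_ifs with h
    · linarith
    · have h1 : classInner (φ z) (φ z') = 0 := by
        by_contra hne
        apply h
        obtain ⟨t, ht, htz, hθ⟩ := fusion hM θ hBD hind χ z.2 z'.2 hne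
        exact ⟨t, hT t ht hθ, htz⟩
      rw [h1, Complex.zero_re]
  · intro z
    exact_mod_cast count_le T z.2 e he
  · intro z'
    have h1 : (Finset.univ.filter fun z : (D ⊓ Cn D : Subgroup G) =>
        ∃ t ∈ T, t * (z : G) * t⁻¹ = z') = (Finset.univ.filter fun z : (D ⊓ Cn D : Subgroup G) =>
        ∃ t ∈ T, t * (z' : G) * t⁻¹ = z) := by
      ext z
      simp only [Finset.mem_filter, Finset.mem_univ, true_and]
      constructor
      · rintro ⟨t, ht, h⟩
        exact ⟨t⁻¹, T.inv_mem ht, by rw [← h]; group⟩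
      · rintro ⟨t, ht, h⟩
        exact ⟨t⁻¹, T.inv_mem ht, by rw [← h]; group⟩
    rw [h1]
    exact_mod_cast count_le T z'.2 e he
  · -- the norm of `Φ - e χ`
    set S : ℂ := ∑ z : (D ⊓ Cn D : Subgroup G), mm M p θ (χ : G → ℂ) z with hS
    have hSre : S.re = ∑ z : (D ⊓ Cn D : Subgroup G), (mm M p θ (χ : G → ℂ) z).re := by
      rw [hS, Complex.re_sum]
    have h0 := H18.CharOrtho.inner_self_re_nonneg ((∑ z, φ z) - (e : ℂ) • (χ : G → ℂ))
    have h1 : classInner (∑ z, φ z) (χ : G → ℂ) = S := by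
      rw [H18.CharOrtho.inner_sum_left, hS]
      exact Finset.sum_congr rfl fun z _ => i1 z
    have h2 : classInner (χ : G → ℂ) (∑ z, φ z) = conj S := by
      rw [← h1, H18.CharOrtho.inner_conj_symm]
    have h3 : classInner (∑ z, φ z) (∑ z, φ z) = ∑ z, ∑ z', classInner (φ z) (φ z') := by
      rw [H18.CharOrtho.inner_sum_left]
      exact Finset.sum_congr rfl fun z _ => by rw [H18.CharOrtho.inner_sum_right]
    rw [H18.CharOrtho.inner_sub_left, H18.CharOrtho.inner_sub_right,
      H18.CharOrtho.inner_sub_right, H18.CharOrtho.inner_smul_left,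
      H18.CharOrtho.inner_smul_right, H18.CharOrtho.inner_smul_left,
      H18.CharOrtho.inner_smul_right, h1, h2, h3, H18.CharOrtho.inner_irr_self χ.2,
      Complex.conj_natCast] at h0
    have h4 : ((∑ z, ∑ z', classInner (φ z) (φ z')) - (e : ℂ) * S -
        ((e : ℂ) * conj S - (e : ℂ) * ((e : ℂ) * 1))).re =
        (∑ z, ∑ z', (classInner (φ z) (φ z')).re) - 2 * e *
          (∑ z : (D ⊓ Cn D : Subgroup G), (mm M p θ (χ : G → ℂ) z).re) + (e : ℝ) ^ 2 := by
      rw [← hSre]
      simp only [Complex.sub_re, Complex.mul_re, Complex.natCast_re, Complex.natCast_im,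
        Complex.conj_re, Complex.re_sum, zero_mul, sub_zero, mul_one]
      ring
    rw [← h4]
    convert h0 using 2

theorem final (hM : IsPModular p M) {B : Set (IrrCharacter G)}
    (hBD : IsDefectGroup p M B D) (d : ℕ) (hDd : Nat.card D = p ^ d)
    (b : Set (IrrCharacter (L D))) (hind : IsInducedBlock M (L D) b B) (T : Subgroup G)
    (hT : ∀ g : G, g ∈ T ↔ (g ∈ Subgroup.normalizer (D : Set G) ∧ ∀ θ ∈ b,
      ∀ θ' : IrrCharacter (L D), (∀ h h' : L D, (h' : G) = g * h * g⁻¹ →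
        (θ' : L D → ℂ) h' = (θ : L D → ℂ) h) → θ' ∈ b)) (e : ℕ)
    (he : (L D).relIndex T = e) (n : ℕ) (hn : p ^ n ≤ e ∧ e < p ^ (n + 1)) (c : ℕ)
    (hc : Nat.card (Subgroup.center D) = p ^ c) :
    ∀ χ ∈ B, blockHeight p B (χ : G → ℂ) + c ≤ n + d := by
  classical
  haveI := pm_isPrime hM
  have hp := pm_prime hM
  intro χ hχ
  letI := Fintype.ofFinite (D ⊓ Cn D : Subgroup G)
  obtain ⟨θ, hθ⟩ := isPBlock_nonempty hind.1
  have hbθ : b = blockOf M (θ : L D → ℂ) := isPBlock_eq hind.1 hθ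
  have he0 : 0 < e := lt_of_lt_of_le (pow_pos hp.pos n) hn.1
  have hind' : IsInducedBlock M (L D) (blockOf M (θ : L D → ℂ)) B := by rwa [← hbθ]
  have h1 := lower hM θ hBD hind' hχ
  have h2 := upper hM θ hBD hind' χ T (by
    intro t ht hcond
    rw [hT]
    refine ⟨ht, fun θ1 hθ1 θ' hrel => ?_⟩
    have hj : Function.Injective (MulAut.conj t).toMonoidHom := (MulAut.conj t).injective
    have hL : (L D).map (MulAut.conj t).toMonoidHom = L D := by
      apply le_antisymm
      · rintro _ ⟨y, hy, rfl⟩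
        exact conj_mem_L D ht hy
      · intro y hy
        refine ⟨t⁻¹ * y * t⁻¹⁻¹, conj_mem_L D (Subgroup.inv_mem _ ht) hy, ?_⟩
        rw [conj_hom_apply]; group
    have hval : ∀ l : L D, ((tr _ hj hL l : L D) : G) = t⁻¹ * l * t := by
      intro l
      have := tr_apply _ hj hL l
      rw [conj_hom_apply] at this
      rw [← this]; group
    have e2 : pull (tr _ hj hL) θ1 = θ' := by
      apply Subtype.ext
      funext l
      rw [pull_apply]
      refine (hrel _ _ ?_).symm
      rw [hval]; group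
    have e3 : pull (tr _ hj hL) θ ∈ blockOf M (θ : L D → ℂ) := by
      apply hcond
      intro h h' hh
      rw [pull_apply, tr_eq _ hj hL h' h (by rw [conj_hom_apply, hh])]
    rw [← e2, hbθ]
    refine sameBlock_trans e3 ?_
    rw [sameBlock_pull]
    rw [hbθ] at hθ1
    exact hθ1) e he he0
  -- `p ^ (c + h) ≤ p ^ d * e`
  have hbd : blockDefect p B = d := by
    have h3 := card_defectGroup hM hind.2.1 hBD
    rw [hDd] at h3
    exact (Nat.pow_right_injective hp.two_le h3).symm
  have hcard : Nat.card (D ⊓ Cn D : Subgroup G) = p ^ c := by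
    rw [← hc]
    have h3 : (Subgroup.center D).map D.subtype = D ⊓ Cn D := by
      ext x
      exact mem_center_map
    rw [← h3, Subgroup.card_map_of_injective (Subgroup.subtype_injective _)]
  rw [hcard, hbd] at h1
  have h3 : ((p : ℝ) ^ c) * (p : ℝ) ^ blockHeight p B (χ : G → ℂ) ≤ (p : ℝ) ^ d * e := by
    have h7 := mul_le_mul_of_nonneg_left h2 (pow_nonneg (Nat.cast_nonneg p) d : (0 : ℝ) ≤ (p : ℝ) ^ d)
    push_cast at h1
    exact h1.trans h7
  have h4 : p ^ (c + blockHeight p B (χ : G → ℂ)) ≤ p ^ d * e := by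
    rw [pow_add]
    exact_mod_cast h3
  have h5 : p ^ (c + blockHeight p B (χ : G → ℂ)) < p ^ (d + (n + 1)) := by
    refine lt_of_le_of_lt h4 ?_
    rw [pow_add]
    exact Nat.mul_lt_mul_of_pos_left hn.2 (pow_pos hp.pos d)
  have h6 := (Nat.pow_lt_pow_iff_right hp.one_lt).1 h5
  omega

end H81.Inert
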