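import Cfsg.Agent.Lib.H81.RegSpan
import Cfsg.Agent.Lib.H78.Cover
import Cfsg.Agent.Lib.H19.PSum

/-!
# Invariant height zero characters of blocks of normal subgroups
-/

set_option autoImplicit false
set_option linter.unusedSectionVars false
set_option linter.unusedVariables false
set_option linter.style.haveILetI false
open Cfsg H20.Loc H20.GA H20.Blk H20.DefGrp H20.Orth H20.Defect H20.Ind H20.Height
open scoped ComplexConjugate

namespace H81.InvHeight

open H18.CharBasic H18.CharOrtho H18.CharInd H18.CharQuot H78.Cover H31.Clifford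

/-- sums supported on a subset -/
theorem sum_set {ι : Type*} [Fintype ι] (b : Set ι) [Fintype b] (f : ι → ℂ)
    (h0 : ∀ θ, θ ∉ b → f θ = 0) : ∑ θ : ι, f θ = ∑ θ : b, f θ.1 := by
  classical
  rw [← Finset.sum_subset (Finset.subset_univ (Finset.univ.filter (fun θ => θ ∈ b)))]
  · exact Finset.sum_subtype (Finset.univ.filter (fun θ => θ ∈ b)) (p := fun θ => θ ∈ b)
      (fun θ => by simp) f
  · intro θ _ hθ
    exact h0 θ (fun h => hθ (Finset.mem_filter.2 ⟨Finset.mem_univ _, h⟩))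

universe u
variable {G : Type u} [Group G] [Finite G] {p : ℕ} {M : Ideal AlgInt}
variable (H : Subgroup G) [hN : H.Normal]

/-- conjugation as a permutation of the characters -/
noncomputable def cjE (g : G) : Equiv.Perm (IrrCharacter H) where
  toFun := cjIrr H g
  invFun := cjIrr H g⁻¹
  left_inv θ := by rw [cjIrr_cjIrr, mul_inv_cancel, cjIrr_one]
  right_inv θ := by rw [cjIrr_cjIrr, inv_mul_cancel, cjIrr_one]

theorem blockCoeff_stable {S : Set (IrrCharacter H)} (hS : ∀ (g : G) (θ : IrrCharacter H), θ ∈ S →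
    cjIrr H g θ ∈ S) (g : G) (n : H) :
    blockCoeff S ⟨g * n * g⁻¹, hN.conj_mem n n.2 g⟩ = blockCoeff S n := by
  classical
  letI := Fintype.ofFinite (IrrCharacter H)
  rw [blockCoeff_eq_sum, blockCoeff_eq_sum]
  congr 1
  refine Fintype.sum_equiv (cjE H g) _ _ fun θ => ?_
  have h1 : ((cjE H g θ : IrrCharacter H) : H → ℂ) n =
      (θ : H → ℂ) ⟨g * n * g⁻¹, hN.conj_mem n n.2 g⟩ := rfl
  have h2 : ((cjE H g θ : IrrCharacter H) : H → ℂ) 1 = (θ : H → ℂ) 1 := cj_at_one H g _
  rw [h1, h2]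
  by_cases h : θ ∈ S
  · rw [if_pos h, if_pos (show cjE H g θ ∈ S from hS g θ h)]
  · rw [if_neg h, if_neg]
    intro hc
    apply h
    have h3 := hS g⁻¹ _ hc
    have h4 : cjIrr H g⁻¹ (cjE H g θ) = θ := (cjE H g).symm_apply_apply θ
    rwa [h4] at h3

/-- If `ξ` lies in a `G`-stable union of blocks, then `Q ξ χ_H` is a unit for some irreducible
character `χ` of `G`. -/
theorem exists_unit_restriction (hM : IsPModular p M) {S : Set (IrrCharacter H)}
    (hSu : IsUnion M S) (hS : ∀ (g : G) (θ : IrrCharacter H), θ ∈ S → cjIrr H g θ ∈ S)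
    {ξ : IrrCharacter H} (hξ : ξ ∈ S) :
    ∃ χ : IrrCharacter G, ¬ MemLocalIdeal M (Q p ξ (fun h : H => (χ : G → ℂ) h)
      (isClassFunction_of_isCharacter (isCharacter_restrict H (irr_char χ)))) := by
  classical
  haveI := pm_isPrime hM
  letI := Fintype.ofFinite G
  letI := Fintype.ofFinite (IrrCharacter G)
  letI := Fintype.ofFinite (ConjClasses G)
  by_contra! hcon
  -- class sums of `p`-regular elements
  have hcls : ∀ x : G, ¬ p ∣ orderOf x → MemLocalIdeal M (omega ξ (resZ H (cls x))) := by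
    intro x hx
    obtain ⟨n, c, hn, hc, h1, h2⟩ := RegSpan.exists_local (pm_prime hM) hx
    have h3 : (c : ℂ) • resZ H (cls x) = ∑ χ : IrrCharacter G, conj (n χ) •
        zreg p (fun h : H => (χ : G → ℂ) h)
          (isClassFunction_of_isCharacter (isCharacter_restrict H (irr_char χ))) := by
      apply zG_ext
      intro h
      rw [zc_smul, zc_resZ, zc_sum]
      simp only [zc_smul]
      by_cases hh : p ∣ orderOf h
      · have h4 : ¬ IsConj x (h : G) := by
          intro hc'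
          obtain ⟨t, ht⟩ := isConj_iff.1 hc'
          apply hx
          have h5 : orderOf (h : G) = orderOf x := by rw [← ht]; exact orderOf_conj t x
          rw [← h5, Subgroup.orderOf_coe]; exact hh
        rw [zc_cls_not h4, mul_zero]
        refine (Finset.sum_eq_zero fun χ _ => ?_).symm
        rw [zc_zreg_not _ hh, mul_zero]
      · have h6 : ∀ χ : IrrCharacter G, conj (n χ) * zc (zreg p (fun h : H => (χ : G → ℂ) h)
          (isClassFunction_of_isCharacter (isCharacter_restrict H (irr_char χ)))) h =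
            conj (n χ * (χ : G → ℂ) (h : G)) := by
          intro χ
          rw [zc_zreg_of _ hh, map_mul]
        simp only [h6]
        rw [← map_sum]
        have hh' : ¬ p ∣ orderOf (h : G) := by rwa [Subgroup.orderOf_coe]
        by_cases h4 : IsConj x (h : G)
        · rw [zc_cls_of h4, h1 _ hh' h4, Complex.conj_natCast, mul_one]
        · rw [zc_cls_not h4, h2 _ hh' h4, map_zero, mul_zero]
    have h4 : MemLocalIdeal M (omega ξ ((c : ℂ) • resZ H (cls x))) := by
      rw [h3, map_sum]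
      refine locI_sum fun χ _ => ?_
      rw [map_smul, smul_eq_mul]
      exact locI_mul_left (isIntegral_mem ((hn χ).map (starRingEnd ℂ).toIntAlgHom)) (hcon χ)
    rw [map_smul, smul_eq_mul] at h4
    rcases locI_or_locI (locR_natCast c) (omega_mem ξ (resZ_mem H (cls_mem x))) h4 with h5 | h5
    · exact absurd ((locI_natCast_iff hM).1 h5) hc
    · exact h5
  -- the idempotent of `S`
  let E : G → ℂ := fun g => if h : g ∈ H then blockCoeff S ⟨g, h⟩ else 0
  have hE : IsClassFunction G E := by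
    intro g h
    by_cases hg : g ∈ H
    · have hg' : h * g * h⁻¹ ∈ H := hN.conj_mem g hg h
      show (if h' : h * g * h⁻¹ ∈ H then blockCoeff S ⟨_, h'⟩ else 0) =
        (if h' : g ∈ H then blockCoeff S ⟨g, h'⟩ else 0)
      rw [dif_pos hg, dif_pos hg']
      exact blockCoeff_stable H hS h ⟨g, hg⟩
    · have hg' : h * g * h⁻¹ ∉ H := by
        intro hc
        apply hg
        have := hN.conj_mem _ hc h⁻¹
        simpa [mul_assoc] using this
      show (if h' : h * g * h⁻¹ ∈ H then blockCoeff S ⟨_, h'⟩ else 0) =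
        (if h' : g ∈ H then blockCoeff S ⟨g, h'⟩ else 0)
      rw [dif_neg hg, dif_neg hg']
  have h1 : eB S = resZ H (zof E hE) := by
    apply zG_ext
    intro h
    rw [zc_eB, zc_resZ, zc_zof]
    show _ = (if h' : (h : G) ∈ H then blockCoeff S ⟨h, h'⟩ else 0)
    rw [dif_pos h.2]
  have h2 : omega ξ (eB S) = 1 := omega_eB_mem hξ
  rw [h1, eq_sum_cls (zof E hE), map_sum, map_sum] at h2
  apply not_locI_one (M := M)
  rw [← h2]
  refine locI_sum fun c _ => ?_
  rw [map_smul, map_smul, smul_eq_mul, zc_zof]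
  by_cases hreg : p ∣ orderOf c.out
  · have h3 : E c.out = 0 := by
      show (if h' : c.out ∈ H then blockCoeff S ⟨c.out, h'⟩ else 0) = 0
      split_ifs with h'
      · apply blockCoeff_eq_zero hM hSu
        rwa [Subgroup.orderOf_mk]
      · rfl
    rw [h3, zero_mul]; exact locI_zero
  · apply locI_mul_left _ (hcls _ hreg)
    show MemLocalRing M (if h' : c.out ∈ H then blockCoeff S ⟨c.out, h'⟩ else 0)
    split_ifs with h'
    · exact eB_mem_of_isUnion hSu _
    · exact locR_zero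

theorem sameBlock_cj (g : G) {θ φ : IrrCharacter H} (h : SameBlock M (θ : H → ℂ) (φ : H → ℂ)) :
    SameBlock M ((cjIrr H g θ : IrrCharacter H) : H → ℂ) ((cjIrr H g φ : IrrCharacter H) : H → ℂ) := by
  intro n
  show MemLocalIdeal M (centralChar (conjFunN H g θ) n - centralChar (conjFunN H g φ) n)
  rw [centralChar_conj, centralChar_conj]
  exact h _

/-- the `Q`-functional is equivariant. -/
theorem Q_cj (g : G) (ξ : IrrCharacter H) (θ : H → ℂ) (hθ : IsClassFunction H θ) :
    Q p (cjIrr H g ξ) (conjFunN H g θ) (cj_classFun H g hθ) = Q p ξ θ hθ := by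
  letI := Fintype.ofFinite H
  rw [Q_eq, Q_eq]
  have h1 : ((cjIrr H g ξ : IrrCharacter H) : H → ℂ) 1 = (ξ : H → ℂ) 1 := cj_at_one H g _
  have h2 : reg p ((cjIrr H g ξ : IrrCharacter H) : H → ℂ) = conjFunN H g (reg p (ξ : H → ℂ)) := by
    funext h
    rw [cj_apply]
    have h3 : orderOf (⟨g * h * g⁻¹, hN.conj_mem h h.2 g⟩ : H) = orderOf h := by
      rw [Subgroup.orderOf_mk, orderOf_conj, Subgroup.orderOf_coe]
    by_cases hh : p ∣ orderOf h
    · rw [reg_not hh, reg_not (by rwa [h3])]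
    · rw [reg_of hh, reg_of (by rwa [h3])]
      rfl
  rw [h1, h2, inner_cj]

theorem main (hM : IsPModular p M) (b : Set (IrrCharacter H)) (hb : IsPBlock M b) (T : Subgroup G)
    (hT : (∀ g : G, g ∈ T ↔ ∀ θ ∈ b, ∀ θ' : IrrCharacter H,
      (∀ h h' : H, (h' : G) = g * h * g⁻¹ → (θ' : H → ℂ) h' = (θ : H → ℂ) h) → θ' ∈ b)) :
    ∃ θ ∈ b, blockHeight p b (θ : H → ℂ) = 0 ∧ ∃ S : Subgroup G, S ≤ T ∧
      (∀ g : G, g ∈ S ↔ (g ∈ T ∧ ∀ h h' : H, (h' : G) = g * h * g⁻¹ →
        (θ : H → ℂ) h' = (θ : H → ℂ) h)) ∧ ¬ p ∣ S.relIndex T := by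
  classical
  haveI := pm_isPrime hM
  haveI := hM.2.1
  haveI : Fact p.Prime := ⟨pm_prime hM⟩
  haveI := charP_resF hM
  letI := Fintype.ofFinite G
  letI := Fintype.ofFinite (IrrCharacter G)
  letI := Fintype.ofFinite H
  letI := Fintype.ofFinite (IrrCharacter H)
  -- members of `T` preserve `b`
  have hTb : ∀ g ∈ T, ∀ θ ∈ b, cjIrr H g⁻¹ θ ∈ b := by
    intro g hg θ hθ
    refine (hT g).1 hg θ hθ _ ?_
    intro h h' hh
    rw [cjIrr_apply]
    refine congrArg _ (Subtype.ext ?_)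
    show g⁻¹ * (h' : G) * g⁻¹⁻¹ = h
    rw [hh]; group
  obtain ⟨ξ, hξ⟩ := isPBlock_nonempty hb
  -- the union of the conjugates
  let S : Set (IrrCharacter H) := {θ | ∃ g : G, cjIrr H g θ ∈ b}
  have hSu : IsUnion M S := by
    rintro θ ⟨g, hg⟩ φ hφ
    exact ⟨g, (isPBlock_mem_iff hb hg _).2 (sameBlock_cj H g hφ)⟩
  have hSs : ∀ (g : G) (θ : IrrCharacter H), θ ∈ S → cjIrr H g θ ∈ S := by
    rintro g θ ⟨x, hx⟩
    refine ⟨g⁻¹ * x, ?_⟩
    rw [cjIrr_cjIrr, mul_inv_cancel_left]
    exact hx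
  obtain ⟨χ, hχ⟩ := exists_unit_restriction H hM hSu hSs
    (ξ := ξ) ⟨1, by rw [cjIrr_one]; exact hξ⟩
  have hresC := isCharacter_restrict H (irr_char χ)
  have hres : IsClassFunction H (fun h : H => (χ : G → ℂ) h) := isClassFunction_of_isCharacter hresC
  choose m hm using fun θ : IrrCharacter H => inner_char_natCast hresC (irr_char θ)
  -- expansion of `Q ξ χ_H`
  have h4 : Q p ξ (fun h : H => (χ : G → ℂ) h) hres =
      ∑ θ : IrrCharacter H, (m θ : ℂ) * Q p ξ (θ : H → ℂ) (irr_class θ) := by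
    rw [Q_eq]
    have h5 : (fun h : H => (χ : G → ℂ) h) = ∑ θ : IrrCharacter H, (m θ : ℂ) • (θ : H → ℂ) := by
      conv_lhs => rw [mem_classFun_expand hres]
      refine Finset.sum_congr rfl fun ξ _ => ?_
      rw [hm ξ]
    rw [h5, inner_sum_right, Finset.mul_sum]
    refine Finset.sum_congr rfl fun θ _ => ?_
    rw [H18.CharOrtho.inner_smul_right, Complex.conj_natCast, Q_eq]
    ring
  -- the action of a Sylow subgroup of `T`
  obtain ⟨P⟩ : Nonempty (Sylow p T) := inferInstance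
  letI act : MulAction P b :=
    { smul := fun q θ => ⟨cjIrr H ((q : T) : G)⁻¹ θ.1, hTb _ (q : T).2 θ.1 θ.2⟩
      one_smul := by
        intro θ
        apply Subtype.ext
        show cjIrr H (((1 : P) : T) : G)⁻¹ θ.1 = θ.1
        rw [OneMemClass.coe_one, OneMemClass.coe_one, inv_one, cjIrr_one]
      mul_smul := by
        intro q r θ
        apply Subtype.ext
        show cjIrr H (((q * r : P) : T) : G)⁻¹ θ.1 = cjIrr H ((q : T) : G)⁻¹ (cjIrr H ((r : T) : G)⁻¹ θ.1)
        rw [cjIrr_cjIrr]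
        congr 1
        push_cast
        rw [mul_inv_rev] }
  have hact : ∀ (q : P) (θ : b), ((q • θ : b) : IrrCharacter H) = cjIrr H ((q : T) : G)⁻¹ θ.1 :=
    fun q θ => rfl
  letI := Fintype.ofFinite b
  let F : b → ResF M := fun θ => redFun M ((m θ.1 : ℂ) * Q p ξ (θ.1 : H → ℂ) (irr_class θ.1))
  have hFR : ∀ θ : b, MemLocalRing M ((m θ.1 : ℂ) * Q p ξ (θ.1 : H → ℂ) (irr_class θ.1)) :=
    fun θ => locR_mul (locR_natCast _) (Q_memR ξ (irr_class θ.1) (irr_int θ.1))
  have hFinv : ∀ (q : P) (θ : b), F (q • θ) = F θ := by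
    intro q θ
    apply (redFun_eq_iff (hFR _) (hFR _)).2
    have h6 : m (q • θ : b).1 = m θ.1 := by
      have h7 := hm (q • θ : b).1
      have h8 := inner_restrict_cj H ((q : T) : G)⁻¹ (irr_class χ) (θ.1 : H → ℂ)
      have h9 : classInner (fun h : H => (χ : G → ℂ) h) (((q • θ : b).1 : IrrCharacter H) : H → ℂ) =
          classInner (fun h : H => (χ : G → ℂ) h) (θ.1 : H → ℂ) := h8
      rw [h9, hm θ.1] at h7
      exact_mod_cast h7.symm
    rw [h6, ← mul_sub]
    apply locI_mul_left (locR_natCast _)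
    -- Q ξ (g θ) ≡ Q (g ξ) (g θ) = Q ξ θ
    have h10 : Q p (cjIrr H ((q : T) : G)⁻¹ ξ) (((q • θ : b).1 : IrrCharacter H) : H → ℂ)
        (irr_class _) = Q p ξ (θ.1 : H → ℂ) (irr_class θ.1) :=
      Q_cj H ((q : T) : G)⁻¹ ξ _ (irr_class θ.1)
    rw [← h10]
    refine Q_congr ?_ (irr_class _) (irr_int _)
    exact isPBlock_sameBlock hb hξ (hTb _ (q : T).2 ξ hξ)
  have hchar : ∀ w : ResF M, p • w = 0 := by
    intro w
    rw [nsmul_eq_mul, CharP.cast_eq_zero, zero_mul]
  have h11 := H19.PSum.sum_eq_sum_fixed P.isPGroup' hchar F hFinv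
  have h12 : ∑ θ : b, F θ ≠ 0 := by
    intro h0
    apply hχ
    rw [h4]
    have h13 : ∑ θ : IrrCharacter H, (m θ : ℂ) * Q p ξ (θ : H → ℂ) (irr_class θ) =
        ∑ θ : b, (m θ.1 : ℂ) * Q p ξ (θ.1 : H → ℂ) (irr_class θ.1) := by
      apply sum_set b
      intro θ h14
      rw [Q_eq_zero hM (fun hs => h14 ((isPBlock_mem_iff hb hξ θ).2 hs)), mul_zero]
    rw [h13]
    have h15 : MemLocalRing M (∑ θ : b, (m θ.1 : ℂ) * Q p ξ (θ.1 : H → ℂ) (irr_class θ.1)) :=
      locR_sum fun θ _ => hFR θ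
    rw [← redFun_eq_zero_iff h15, redFun_sum fun θ _ => hFR θ]
    exact h0
  rw [h11] at h12
  obtain ⟨θ, -, hθ⟩ := Finset.exists_ne_zero_of_sum_ne_zero h12
  have hfix : ∀ q : P, q • θ = θ := by
    by_contra hc
    exact hθ (if_neg hc)
  have hθ' : F θ ≠ 0 := by
    intro h0
    apply hθ
    split_ifs
    · exact h0
    · rfl
  have hunit : ¬ MemLocalIdeal M (Q p ξ (θ.1 : H → ℂ) (irr_class θ.1)) := by
    intro hc
    apply hθ'
    rw [redFun_eq_zero_iff (hFR θ)]
    exact locI_mul_left (locR_natCast _) hc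
  refine ⟨θ.1, θ.2, ((Q_unit_iff hM hb hξ θ.1).1 hunit).2, T ⊓ inertia H (θ.1 : H → ℂ),
    inf_le_left, ?_, ?_⟩
  · intro g
    rw [Subgroup.mem_inf]
    refine and_congr Iff.rfl ?_
    rw [mem_inertia_iff]
    constructor
    · intro h1 h h' hh
      rw [← h1 h]
      exact congrArg _ (Subtype.ext hh)
    · intro h1 h
      exact h1 h _ rfl
  · have hle : (P : Subgroup T) ≤ (T ⊓ inertia H (θ.1 : H → ℂ)).subgroupOf T := by
      intro q hq
      rw [Subgroup.mem_subgroupOf, Subgroup.mem_inf]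
      refine ⟨q.2, ?_⟩
      rw [mem_inertia]
      have h1 := congrArg (fun x : b => ((x : IrrCharacter H) : H → ℂ)) (hfix (⟨q, hq⟩ : P)⁻¹)
      have h2 : conjFunN H (((((⟨q, hq⟩ : P)⁻¹ : P) : T) : G)⁻¹) (θ.1 : H → ℂ) = (θ.1 : H → ℂ) := h1
      rw [InvMemClass.coe_inv, InvMemClass.coe_inv, inv_inv] at h2
      exact h2
    intro hdvd
    rw [Subgroup.relIndex] at hdvd
    apply P.not_dvd_index
    exact hdvd.trans (Subgroup.index_dvd_of_le hle)

end H81.InvHeight
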