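import Cfsg.Agent.S4652
import Cfsg.Agent.Lib.H80.CQ2
import Cfsg.Agent.Lib.H78.Cover2
import Cfsg.Agent.Lib.H19.Second3
import Cfsg.Agent.Lib.H19.Cover

/-!
# Characters lying over the principal block of a normal subgroup containing `P C(P)`
-/

set_option autoImplicit false
set_option linter.unusedSectionVars false
set_option linter.unusedVariables false
set_option linter.style.haveILetI false

namespace H81.PL1

open Cfsg H20.Loc H20.GA H80.GA H80.GB H18.CharBasic H18.CharOrtho H18.CharInd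
open H20.Blk H20.Orth H20.Ind H20.Defect H80.BR1 H80.BR2 H19.Second3 H78.PrincReal

universe u

variable {M : Ideal AlgInt} {G : Type u} [Group G] [Fintype G] {p : ℕ} [Fact p.Prime]

theorem central_zero (hM : IsPModular p M) (P : Sylow p G) {B : Set (IrrCharacter G)} (hB : IsPBlock M B)
    {χ : IrrCharacter G} (hχ : χ ∈ B) {D : Subgroup G} (hD : IsDefectGroup p M B D) {x : G}
    (hx : (P : Subgroup G) ≤ cs x D) {g : G}
    (hg : ∀ y, IsConj g y → ¬ (P : Subgroup G) ≤ Subgroup.centralizer ({y} : Set G)) :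
    MemLocalIdeal M (centralChar (χ : G → ℂ) g) := by
  by_contra hcon
  obtain ⟨h, hh, Q, rfl⟩ := hD
  have hQ : IsPGroup p ((P : Subgroup G).map (MulAut.conj x⁻¹).toMonoidHom) := P.2.map _
  have hle : (P : Subgroup G).map (MulAut.conj x⁻¹).toMonoidHom ≤ Subgroup.centralizer ({h} : Set G) := by
    rintro _ ⟨a, ha, rfl⟩
    obtain ⟨d, hd, hda⟩ := hx ha
    obtain ⟨d', hd', rfl⟩ := hd
    have e1 : x * (d' : G) * x⁻¹ = a := hda
    have e2 : (MulAut.conj x⁻¹).toMonoidHom a = (d' : G) := by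
      show x⁻¹ * a * x⁻¹⁻¹ = _
      rw [← e1]; group
    rw [e2]
    exact d'.2
  obtain ⟨y, hy1, hy2⟩ := H20.DefGrp.sylow_le_of_blockCoeff hM hB ⟨χ, hχ, hcon⟩ hh.2.1 hQ hle
  refine hg (x * y * x⁻¹) (hy1.trans (isConj_iff.2 ⟨x, rfl⟩)) ?_
  intro a ha
  have h1 := hy2 ⟨a, ha, rfl⟩
  rw [Subgroup.mem_centralizer_singleton_iff] at h1 ⊢
  have h2 : (x⁻¹ * a * x⁻¹⁻¹) * y = y * (x⁻¹ * a * x⁻¹⁻¹) := h1
  rw [inv_inv] at h2
  calc a * (x * y * x⁻¹) = x * ((x⁻¹ * a * x) * y) * x⁻¹ := by group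
    _ = x * (y * (x⁻¹ * a * x)) * x⁻¹ := by rw [h2]
    _ = _ := by group

theorem mem_principal (hM : IsPModular p M) (P : Sylow p G) (L : Subgroup G) [hL : L.Normal] [Fintype L]
    (hPL : (P : Subgroup G) ≤ L) (hC : Subgroup.centralizer ((P : Subgroup G) : Set G) ≤ L)
    {χ : IrrCharacter G} {θ : IrrCharacter L} (hθ : θ ∈ principalBlock M L)
    (h : classInner (fun n : L => (χ : G → ℂ) n) (θ : L → ℂ) ≠ 0) : χ ∈ principalBlock M G := by
  classical
  have hmax : M.IsMaximal := hM.2.1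
  have hpr : M.IsPrime := hmax.isPrime
  have : CharP (H20.Loc.ResF M) p := H20.Loc.charP_resF hM
  let _ : Algebra (ZMod p) (H20.Loc.ResF M) := ZMod.algebra (H20.Loc.ResF M) p
  have : Algebra.IsAlgebraic (ZMod p) (H20.Loc.ResF M) := H80.BR1.isAlgebraic_resF hM
  have hB : IsPBlock M (blockOf M (χ : G → ℂ)) := isPBlock_blockOf χ
  have hc : IsPBlock M (principalBlock M L) := isPBlock_principal
  have hcov := (H80.BR6.cov_iff hB hc).1 ⟨χ, mem_blockOf_self χ, θ, hθ, h⟩
  have hNn : (⊤ : Subgroup G) ≤ Subgroup.normalizer (L : Set G) := by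
    rw [Subgroup.normalizer_eq_top]
  -- the defect group of the covered block
  have hPd : IsDefectGroup p M (principalBlock M L) ((P : Subgroup G).subgroupOf L) :=
    (Cfsg.Agent.S4652.result p M hM _).2 ⟨P.subtype hPL, rfl⟩
  rw [isDefectGroup_iff_isDef' hM hc] at hPd
  have hmap : ((P : Subgroup G).subgroupOf L).map L.subtype = (P : Subgroup G) := by
    rw [Subgroup.subgroupOf_map_subtype, inf_eq_left.2 hPL]
  rw [hmap] at hPd
  obtain ⟨D, hD⟩ := H20.DefGrp.exists_isDefectGroup hM hB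
  have hD' := hD
  rw [isDefectGroup_iff_isDef hM hB] at hD'
  obtain ⟨x, -, hx⟩ := H80.GO.cover_def_le le_top hNn (isBlk_ebar hB) (isBlk_bl hc) hcov
    hD' P.2 hPL hPd.ne
  have hG : IsPBlock M (principalBlock M G) := isPBlock_principal
  have hPG : IsDefectGroup p M (principalBlock M G) (P : Subgroup G) :=
    (Cfsg.Agent.S4652.result p M hM _).2 ⟨P, rfl⟩
  show ∀ g : G, MemLocalIdeal M (centralChar (fun _ : G => (1 : ℂ)) g - centralChar (χ : G → ℂ) g)
  intro g
  by_cases hg : ∃ y, IsConj g y ∧ (P : Subgroup G) ≤ Subgroup.centralizer ({y} : Set G)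
  · obtain ⟨y, hy1, hy2⟩ := hg
    have hyL : y ∈ L := by
      apply hC
      rw [Subgroup.mem_centralizer_iff]
      intro a ha
      exact Subgroup.mem_centralizer_singleton_iff.1 (hy2 ha)
    have hgL : g ∈ L := by
      obtain ⟨c, hc⟩ := isConj_iff.1 hy1
      have := hL.conj_mem y hyL c⁻¹
      rw [← hc] at this
      simpa [mul_assoc] using this
    have hsupp : ∀ k ∉ L, zc (cls g) k = 0 := by
      intro k hk
      apply zc_cls_not
      intro hconj
      obtain ⟨c, hc⟩ := isConj_iff.1 hconj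
      exact hk (hc ▸ hL.conj_mem g hgL c)
    have e1 := H19.Cover.omega_eq_of_over L χ θ h (cls g) hsupp
    have hone : classInner (fun n : L => ((triv G : IrrCharacter G) : G → ℂ) n) ((triv L : IrrCharacter L) : L → ℂ) ≠ 0 := by
      have h1 : classInner ((triv L : IrrCharacter L) : L → ℂ) ((triv L : IrrCharacter L) : L → ℂ) = 1 :=
        inner_irr_self (triv L).2
      have h2 : (fun n : L => ((triv G : IrrCharacter G) : G → ℂ) n) = ((triv L : IrrCharacter L) : L → ℂ) := rfl
      rw [h2, h1]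
      exact one_ne_zero
    have e2 := H19.Cover.omega_eq_of_over L (triv G) (triv L) hone (cls g) hsupp
    have h3 : SameBlock M ((triv L : IrrCharacter L) : L → ℂ) (θ : L → ℂ) := hθ
    have e3 := sameBlock_iff.1 h3 _ (trunc_mem L (cls_mem (M := M) g))
    rw [← e1, ← e2, omega_cls, omega_cls] at e3
    exact e3
  · push Not at hg
    have h1 := central_zero hM P hB (mem_blockOf_self χ) hD hx hg
    have h2 := central_zero hM P hG triv_mem hPG (x := 1) (by
      intro a ha
      exact ⟨a, ha, by simp⟩) hg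
    exact locI_sub h2 h1

end H81.PL1
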