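import Cfsg.Agent.Lib.H81.PL1a

/-!
# Characters of the principal block with a Sylow subgroup in the kernel
-/

set_option autoImplicit false
set_option linter.unusedSectionVars false
set_option linter.unusedVariables false
set_option linter.style.haveILetI false

namespace H81.PL1

open Cfsg H20.Loc H20.GA H80.GA H80.GB H18.CharBasic H18.CharOrtho H18.CharInd
open H20.Blk H20.Orth H20.Ind H20.Defect H80.BR1 H80.BR2 H19.Second3 H78.PrincReal H20.NormQ

universe u

attribute [local instance 2000] Fintype.ofFinite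

variable {M : Ideal AlgInt} {G : Type u} [Group G] [Finite G] {p : ℕ} [Fact p.Prime]

theorem cong (hM : IsPModular p M) (P : Sylow p G) {χ : IrrCharacter G} (hχ : χ ∈ principalBlock M G) {x : G}
    (hx : x ∈ Subgroup.centralizer ((P : Subgroup G) : Set G)) :
    MemLocalIdeal M ((χ : G → ℂ) x - (χ : G → ℂ) 1) := by
  have hpr := pm_isPrime hM
  have h1 : MemLocalIdeal M (centralChar (fun _ : G => (1 : ℂ)) x - centralChar (χ : G → ℂ) x) := hχ x
  have hidx : ¬ p ∣ (Subgroup.centralizer ({x} : Set G)).index := by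
    have hle : (P : Subgroup G) ≤ Subgroup.centralizer ({x} : Set G) := by
      intro a ha
      rw [Subgroup.mem_centralizer_singleton_iff]
      exact Subgroup.mem_centralizer_iff.1 hx a ha
    intro hd
    exact P.not_dvd_index (hd.trans (Subgroup.index_dvd_of_le hle))
  have hi0 : ((Subgroup.centralizer ({x} : Set G)).index : ℂ) ≠ 0 := by
    exact_mod_cast Subgroup.index_ne_zero_of_finite
  have h0 := irr_one_ne_zero χ.2
  have h2 := locI_mul_left (locR_natCast_inv hM hidx) h1
  have h3 := locI_mul_left (isIntegral_mem (M := M) (char_isIntegral (isCharacter_of_isIrr χ.2) 1)) h2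
  have h4 : (χ : G → ℂ) 1 * (((Subgroup.centralizer ({x} : Set G)).index : ℂ)⁻¹ *
      (centralChar (fun _ : G => (1 : ℂ)) x - centralChar (χ : G → ℂ) x)) = -((χ : G → ℂ) x - (χ : G → ℂ) 1) := by
    unfold centralChar
    field_simp
    ring
  rw [h4] at h3
  have h5 := locI_neg h3
  rwa [neg_neg] at h5

theorem cent_ker (hM : IsPModular p M) (P : Sylow p G) {χ : IrrCharacter G} (hχ : χ ∈ principalBlock M G)
    (hirr : IsIrrCharacter (Subgroup.normalizer ((P : Subgroup G) : Set G))
      (fun n : Subgroup.normalizer ((P : Subgroup G) : Set G) => (χ : G → ℂ) n))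
    (hker : ∀ x ∈ (P : Subgroup G), (χ : G → ℂ) x = (χ : G → ℂ) 1) {x : G}
    (hx : x ∈ Subgroup.centralizer ((P : Subgroup G) : Set G)) : (χ : G → ℂ) x = (χ : G → ℂ) 1 := by
  classical
  have hpr := pm_isPrime hM
  set N := Subgroup.normalizer ((P : Subgroup G) : Set G) with hN
  have hPN : (P : Subgroup G) ≤ N := Subgroup.le_normalizer
  have hCN : Subgroup.centralizer ((P : Subgroup G) : Set G) ≤ N := by
    intro a ha
    rw [hN, Subgroup.mem_normalizer_iff]
    intro h
    have h1 : ∀ h ∈ (P : Subgroup G), a * h * a⁻¹ = h := by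
      intro h hh
      rw [← Subgroup.mem_centralizer_iff.1 ha h hh, mul_inv_cancel_right]
    constructor
    · intro hh
      rw [h1 h hh]; exact hh
    · intro hh
      have h2 := Subgroup.mem_centralizer_iff.1 (Subgroup.inv_mem _ ha) _ hh
      have h3 : h = a * h * a⁻¹ := by
        calc h = a⁻¹ * (a * h * a⁻¹) * a := by group
          _ = (a * h * a⁻¹) * a⁻¹ * a := by rw [← h2]
          _ = _ := by group
      rw [h3]; exact hh
  haveI hn1 : ((P : Subgroup G).subgroupOf N).Normal := Subgroup.normal_in_normalizer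
  haveI hn2 : ((Subgroup.centralizer ((P : Subgroup G) : Set G)).subgroupOf N).Normal := by
    constructor
    intro c hc n
    rw [Subgroup.mem_subgroupOf] at hc ⊢
    rw [Subgroup.mem_centralizer_iff] at hc ⊢
    intro a ha
    have h1 : (n : G)⁻¹ * a * (n : G)⁻¹⁻¹ ∈ (P : Subgroup G) := by
      have h2 := (Subgroup.mem_normalizer_iff.1 (N.inv_mem n.2) a).1 ha
      exact h2
    have h3 := hc _ h1
    rw [inv_inv] at h3
    push_cast
    calc a * ((n : G) * c * (n : G)⁻¹) = n * (((n : G)⁻¹ * a * n) * c) * (n : G)⁻¹ := by group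
      _ = n * (c * ((n : G)⁻¹ * a * n)) * (n : G)⁻¹ := by rw [h3]
      _ = _ := by group
  let ψ : IrrCharacter N := ⟨fun n => (χ : G → ℂ) n, hirr⟩
  obtain ⟨ψ', hψ'⟩ := exists_infl (N := (P : Subgroup G).subgroupOf N) (ψ := ψ) (by
    intro n hn
    exact hker n hn)
  have hval : ∀ n : N, (ψ' : N ⧸ (P : Subgroup G).subgroupOf N → ℂ) (n : N ⧸ (P : Subgroup G).subgroupOf N) =
      (χ : G → ℂ) n := by
    intro n
    rw [← infl_apply, hψ']
  have hp1 : ¬ p ∣ Nat.card (N ⧸ (P : Subgroup G).subgroupOf N) := by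
    intro hd
    have h1 : (P : Subgroup G).relIndex N * N.index = (P : Subgroup G).index := Subgroup.relIndex_mul_index hPN
    apply P.not_dvd_index
    rw [← h1]
    exact Dvd.dvd.mul_right hd _
  have hdeg : ¬ p ∣ charDegree (ψ' : N ⧸ (P : Subgroup G).subgroupOf N → ℂ) :=
    fun hd => hp1 (hd.trans (charDegree_dvd_card ψ'))
  set C' := ((Subgroup.centralizer ((P : Subgroup G) : Set G)).subgroupOf N).map
    (QuotientGroup.mk' ((P : Subgroup G).subgroupOf N)) with hC'
  haveI hn3 : C'.Normal := Subgroup.Normal.map hn2 _ (QuotientGroup.mk'_surjective _)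
  have hpC : ¬ p ∣ Nat.card C' := fun hd => hp1 (hd.trans (Subgroup.card_subgroup_dvd_card C'))
  have hcong : ∀ c : C', MemLocalIdeal M ((ψ' : N ⧸ (P : Subgroup G).subgroupOf N → ℂ) c -
      (ψ' : N ⧸ (P : Subgroup G).subgroupOf N → ℂ) 1) := by
    rintro ⟨_, c, hc, rfl⟩
    have h1 : (ψ' : N ⧸ (P : Subgroup G).subgroupOf N → ℂ) 1 = (χ : G → ℂ) 1 := hval 1
    have h2 := hval c
    show MemLocalIdeal M ((ψ' : N ⧸ (P : Subgroup G).subgroupOf N → ℂ) (c : N ⧸ (P : Subgroup G).subgroupOf N) - _)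
    rw [h1, h2]
    exact cong hM P hχ hc
  have hne : classInner (fun c : C' => (ψ' : N ⧸ (P : Subgroup G).subgroupOf N → ℂ) c) (fun _ => 1) ≠ 0 := by
    intro h0
    unfold classInner at h0
    have hc0 : (Nat.card C' : ℂ) ≠ 0 := by exact_mod_cast Nat.card_pos.ne'
    have h1 : ∑ c : C', (ψ' : N ⧸ (P : Subgroup G).subgroupOf N → ℂ) c = 0 := by
      rcases mul_eq_zero.1 h0 with h | h
      · exact absurd h (inv_ne_zero hc0)
      · simpa using h
    have h2 := locI_sum (M := M) (s := Finset.univ) fun c _ => hcong c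
    rw [Finset.sum_sub_distrib, h1, zero_sub, Finset.sum_const, Finset.card_univ, ← Nat.card_eq_fintype_card,
      nsmul_eq_mul, ← charDegree_irr ψ'] at h2
    have h3 := locI_neg h2
    rw [neg_neg, ← Nat.cast_mul, locI_natCast_iff hM, (Fact.out : p.Prime).dvd_mul] at h3
    exact h3.elim hpC hdeg
  have hk := H78.Cover.ker_of_over_one C' ψ'.2 hne
  have h1 := hk ((⟨x, hCN hx⟩ : N) : N ⧸ (P : Subgroup G).subgroupOf N) ⟨⟨x, hCN hx⟩, hx, rfl⟩
  rw [hval] at h1
  rw [h1]
  exact hval 1

end H81.PL1
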