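import Cfsg.Agent.Lib.H18.CharInd
import Mathlib

/-!
# Characters induced from a TI abelian subgroup of index two in its normalizer (H81.PT)
-/

set_option autoImplicit false
set_option linter.unusedSectionVars false

namespace H81.PT

open Cfsg H18.CharBasic H18.CharOrtho H18.CharInd Subgroup
open scoped ComplexConjugate

universe u

variable {G : Type u} [Group G]

/-- `E` is an abelian TI subgroup whose normalizer is `E ∪ τE`. -/
structure TD (E : Subgroup G) (τ : G) : Prop where
  ab : ∀ x ∈ E, ∀ y ∈ E, x * y = y * x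
  ti : ∀ g, g ∉ normalizer (E : Set G) → ∀ x ∈ E, g⁻¹ * x * g ∈ E → x = 1
  hτ : τ ∈ normalizer (E : Set G)
  hτE : τ ∉ E
  card : Nat.card (normalizer (E : Set G)) = 2 * Nat.card E

/-- conjugation by `τ` on `E` -/
def cj (E : Subgroup G) (τ : G) (hτ : τ ∈ normalizer (E : Set G)) : E →* E where
  toFun x := ⟨τ⁻¹ * x * τ, by
    have h := (mem_normalizer_iff.1 (inv_mem hτ) (x : G)).1 x.2
    rwa [inv_inv] at h⟩
  map_one' := by ext; simp
  map_mul' x y := by ext; simp [mul_assoc]

theorem cj_coe (E : Subgroup G) (τ : G) (hτ : τ ∈ normalizer (E : Set G)) (x : E) :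
    ((cj E τ hτ x : E) : G) = τ⁻¹ * x * τ := rfl

variable [Fintype G] {E : Subgroup G} {τ : G}

theorem TD.mul_mem (h : TD E τ) {t : G} (ht : t ∈ normalizer (E : Set G)) (htE : t ∉ E) : τ⁻¹ * t ∈ E := by
  have h1 : E ≤ normalizer (E : Set G) := le_normalizer
  have h2 : (E.subgroupOf (normalizer (E : Set G))).index = 2 := by
    have h3 := card_mul_index (E.subgroupOf (normalizer (E : Set G)))
    rw [h.card, Nat.card_congr (subgroupOfEquivOfLe h1).toEquiv] at h3
    have h4 : 0 < Nat.card E := Nat.card_pos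
    have h5 : Nat.card E * (E.subgroupOf (normalizer (E : Set G))).index = Nat.card E * 2 := by
      rw [h3]; ring
    exact Nat.eq_of_mul_eq_mul_left h4 h5
  have h3 := Subgroup.mul_mem_iff_of_index_two h2 (a := ⟨τ⁻¹, inv_mem h.hτ⟩) (b := ⟨t, ht⟩)
  rw [mem_subgroupOf, mem_subgroupOf, mem_subgroupOf] at h3
  simp only [Subgroup.coe_mul] at h3
  rw [h3]
  simp only [inv_mem_iff]
  exact ⟨fun h5 => absurd h5 h.hτE, fun h5 => absurd h5 htE⟩

theorem ind_TI (h : TD E τ) (θ : E → ℂ) (x : E) (hx : x ≠ 1) :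
    indFun E θ x = θ x + θ (cj E τ h.hτ x) := by
  classical
  rw [indFun_apply]
  have hx' : (x : G) ≠ 1 := fun h1 => hx (Subtype.ext h1)
  have hval : ∀ t : G, extendByZero E θ (t⁻¹ * x * t) =
      extendByZero E (fun _ => θ x - θ (cj E τ h.hτ x)) t +
      extendByZero (normalizer (E : Set G)) (fun _ => θ (cj E τ h.hτ x)) t := by
    intro t
    by_cases ht : t ∈ normalizer (E : Set G)
    · rw [ext_mem (normalizer (E : Set G)) _ ht]
      by_cases htE : t ∈ E
      · rw [ext_mem E _ htE]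
        have h1 : t⁻¹ * x * t = x := by
          rw [mul_assoc, h.ab x x.2 t htE, ← mul_assoc, inv_mul_cancel, one_mul]
        rw [h1, ext_coe]
        ring
      · rw [ext_notMem E _ htE, zero_add]
        have h1 : t⁻¹ * x * t = ((cj E τ h.hτ x : E) : G) := by
          rw [cj_coe]
          have h2 := h.mul_mem ht htE
          have h3 : t = τ * (τ⁻¹ * t) := by group
          have h4 := h.ab _ (cj E τ h.hτ x).2 _ h2
          rw [cj_coe] at h4
          calc t⁻¹ * x * t = (τ⁻¹ * t)⁻¹ * ((τ⁻¹ * x * τ) * (τ⁻¹ * t)) := by group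
            _ = (τ⁻¹ * t)⁻¹ * ((τ⁻¹ * t) * (τ⁻¹ * x * τ)) := by rw [h4]
            _ = τ⁻¹ * x * τ := by group
        rw [h1, ext_coe]
    · have htE : t ∉ E := fun h1 => ht (le_normalizer h1)
      rw [ext_notMem E _ htE, ext_notMem _ _ ht, zero_add, ext_notMem]
      intro h1
      exact hx' (h.ti t ht x x.2 h1)
  rw [Finset.sum_congr rfl (fun t _ => hval t), Finset.sum_add_distrib, sum_ext', sum_ext',
    Finset.sum_const, Finset.sum_const, Finset.card_univ, Finset.card_univ, nsmul_eq_mul,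
    nsmul_eq_mul, ← Nat.card_eq_fintype_card, ← Nat.card_eq_fintype_card, h.card]
  have h1 : (Nat.card E : ℂ) ≠ 0 := by exact_mod_cast Nat.card_pos.ne'
  push_cast
  field_simp
  ring

/-- the induced function of `1 - l` -/
noncomputable def Th (E : Subgroup G) (l : E →* ℂˣ) : G → ℂ := indFun E (fun x => 1 - (l x : ℂ))

theorem th_class (E : Subgroup G) (l : E →* ℂˣ) : IsClassFunction G (Th E l) :=
  isClassFunction_indFun _ _

theorem th_one (E : Subgroup G) (l : E →* ℂˣ) : Th E l 1 = 0 := by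
  rw [Th, indFun_one, map_one, Units.val_one, sub_self, mul_zero]

theorem th_coe (h : TD E τ) (l : E →* ℂˣ) (x : E) :
    Th E l x = (1 - (l x : ℂ)) + (1 - (l (cj E τ h.hτ x) : ℂ)) := by
  by_cases hx : x = 1
  · subst hx
    rw [Subgroup.coe_one, th_one]
    simp
  · exact ind_TI h _ x hx

theorem th_zero (E : Subgroup G) (l : E →* ℂˣ) (g : G) (hg : ∀ t : G, t⁻¹ * g * t ∉ E) : Th E l g = 0 := by
  rw [Th, indFun_apply]
  rw [Finset.sum_eq_zero (fun t _ => ext_notMem _ _ (hg t)), mul_zero]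

theorem th_gen (E : Subgroup G) (l : E →* ℂˣ) : IsGeneralizedCharacter G (Th E l) := by
  refine isGen_ind E ?_
  exact isGen_sub isGen_one (isGen_of_isIrr (isIrrCharacter_of_hom l))

theorem inner_hom [Fintype E] (l m : E →* ℂˣ) :
    classInner (fun x : E => (l x : ℂ)) (fun x => (m x : ℂ)) = if l = m then 1 else 0 := by
  classical
  rw [inner_irr (isIrrCharacter_of_hom l) (isIrrCharacter_of_hom m)]
  by_cases h : l = m
  · rw [if_pos h, if_pos (by rw [h])]
  · rw [if_neg h, if_neg]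
    intro h1
    apply h
    ext x
    exact congrFun h1 x

theorem one_fun_eq : (fun _ : E => (1 : ℂ)) = (fun x : E => (((1 : E →* ℂˣ) x : ℂˣ) : ℂ)) := by
  funext x; simp

theorem sub_fun_eq (l : E →* ℂˣ) : (fun x : E => 1 - (l x : ℂ)) =
    (fun x : E => (((1 : E →* ℂˣ) x : ℂˣ) : ℂ)) - (fun x : E => (l x : ℂ)) := by
  funext x; simp

theorem inner_sub_hom [Fintype E] (l m : E →* ℂˣ) :
    classInner (fun x : E => 1 - (l x : ℂ)) (fun x => (m x : ℂ)) =
      (if 1 = m then 1 else 0) - (if l = m then 1 else 0) := by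
  rw [sub_fun_eq, H18.CharOrtho.inner_sub_left, inner_hom, inner_hom]

theorem inner_th [Fintype E] (l : E →* ℂˣ) {χ : G → ℂ} (hχ : IsClassFunction G χ) :
    classInner (Th E l) χ = classInner (fun x : E => 1 - (l x : ℂ)) (fun x : E => χ x) :=
  frobenius E _ hχ

/-- only the values off the identity matter -/
theorem inner_congr_off [Fintype E] (l : E →* ℂˣ) {f g : E → ℂ} (hfg : ∀ x : E, x ≠ 1 → f x = g x) :
    classInner (fun x : E => 1 - (l x : ℂ)) f = classInner (fun x : E => 1 - (l x : ℂ)) g := by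
  unfold classInner
  congr 1
  refine Finset.sum_congr rfl (fun x _ => ?_)
  by_cases hx : x = 1
  · subst hx; simp
  · rw [hfg x hx]

theorem inner_th_one [Fintype E] {l : E →* ℂˣ} (hl : l ≠ 1) {χ : G → ℂ} (hχ : IsClassFunction G χ)
    (h1 : ∀ x : E, x ≠ 1 → χ x = 1) : classInner (Th E l) χ = 1 := by
  rw [inner_th l hχ, inner_congr_off l (g := fun _ => 1) h1, one_fun_eq, inner_sub_hom, if_pos rfl,
    if_neg hl, sub_zero]

theorem inner_th_th [Fintype E] (h : TD E τ) {l m : E →* ℂˣ} (hl : l ≠ 1) (hm : m ≠ 1) :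
    classInner (Th E l) (Th E m) = 2 + (if l = m then 1 else 0) +
      (if l = m.comp (cj E τ h.hτ) then 1 else 0) := by
  classical
  rw [inner_th l (th_class E m)]
  have h1 : (fun x : E => Th E m x) = (fun x : E => (1 - (m x : ℂ))) +
      (fun x : E => (1 - ((m.comp (cj E τ h.hτ)) x : ℂ))) := by
    funext x
    rw [th_coe h]
    rfl
  have hm' : m.comp (cj E τ h.hτ) ≠ 1 := by
    intro h2
    apply hm
    ext x
    have h3 : ∃ y : E, cj E τ h.hτ y = x := by
      have h4 := (mem_normalizer_iff.1 h.hτ (x : G)).1 x.2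
      refine ⟨⟨τ * x * τ⁻¹, h4⟩, ?_⟩
      apply Subtype.ext
      rw [cj_coe]
      group
    obtain ⟨y, rfl⟩ := h3
    have h4 := DFunLike.congr_fun h2 y
    simp only [MonoidHom.comp_apply] at h4
    rw [h4]; simp
  rw [h1, H18.CharOrtho.inner_add_right, sub_fun_eq m, sub_fun_eq (m.comp (cj E τ h.hτ)),
    H18.CharOrtho.inner_sub_right, H18.CharOrtho.inner_sub_right, inner_sub_hom, inner_sub_hom, inner_sub_hom, if_pos rfl, if_neg hl,
    if_neg (Ne.symm hm), if_neg (Ne.symm hm')]
  ring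

/-- decomposition of `Th l` -/
theorem exists_b [Fintype E] (h : TD E τ) {ψ : G → ℂ} (hψ : IsIrrCharacter G ψ) {p : ℕ}
    (hp : 1 < p) (hψ1 : ψ 1 = p) (hψE : ∀ x : E, x ≠ 1 → ψ x = 1) {l : E →* ℂˣ}
    (hl : l ≠ l.comp (cj E τ h.hτ)) :
    ∃ b : IrrCharacter G, ∀ g, (b : G → ℂ) g = 1 + ψ g - Th E l g := by
  have hl1 : l ≠ 1 := by
    intro h1
    apply hl
    rw [h1]; rfl
  have hne : (fun _ : G => (1 : ℂ)) ≠ ψ := by
    intro h1
    have h2 := congrFun h1 1
    rw [hψ1] at h2
    have h3 : (1 : ℕ) = p := by exact_mod_cast h2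
    omega
  have hone : IsIrrCharacter G (fun _ => 1 : G → ℂ) := isIrrCharacter_one
  have hψc := isClassFunction_of_isIrr hψ
  have e1 := inner_th_one hl1 hψc hψE
  have e2 := inner_th_one (G := G) hl1 (isClassFunction_const 1) (fun x _ => rfl)
  have e3 := inner_th_th h hl1 hl1
  rw [if_pos rfl, if_neg hl, add_zero] at e3
  have e4 : classInner ψ (Th E l) = 1 := by
    rw [← H18.CharOrtho.inner_conj_symm, e1, map_one]
  have e5 : classInner (fun _ : G => (1 : ℂ)) (Th E l) = 1 := by
    rw [← H18.CharOrtho.inner_conj_symm, e2, map_one]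
  have e6 := inner_irr_self hψ
  have e7 := inner_irr_self hone
  have e8 := inner_irr_ne hone hψ hne
  have e9 := inner_irr_ne hψ hone hne.symm
  have hgen : IsGeneralizedCharacter G ((fun _ => (1 : ℂ)) + ψ - Th E l) :=
    isGen_sub (isGen_add isGen_one (isGen_of_isIrr hψ)) (th_gen E l)
  have hnorm : classInner ((fun _ => (1 : ℂ)) + ψ - Th E l) ((fun _ => (1 : ℂ)) + ψ - Th E l) = 1 := by
    rw [H18.CharOrtho.inner_sub_left, H18.CharOrtho.inner_add_left, H18.CharOrtho.inner_sub_right,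
      H18.CharOrtho.inner_sub_right, H18.CharOrtho.inner_sub_right,
      H18.CharOrtho.inner_add_right, H18.CharOrtho.inner_add_right,
      H18.CharOrtho.inner_add_right, e1, e2,
      e3, e4, e5, e6, e7, e8, e9]
    norm_num
  have hirr := isIrr_of_gen_norm_one hgen hnorm (by
    simp only [Pi.sub_apply, Pi.add_apply, th_one, hψ1, sub_zero]
    rw [Complex.add_re, Complex.one_re, Complex.natCast_re]
    positivity)
  exact ⟨⟨_, hirr⟩, fun g => rfl⟩

end H81.PT
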