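import Cfsg.Agent.Lib.H81.PT9
import Cfsg.Agent.Lib.H13.Norm
import Cfsg.Agent.Lib.H3.CardSup
import Cfsg.Agent.Lib.H21.SimpleBasic

/-!
# Main theorem on transitive groups of prime degree (H81.PT)
-/

set_option autoImplicit false
set_option linter.unusedSectionVars false
set_option linter.unusedVariables false
set_option linter.style.haveILetI false

namespace H81.PT

open Cfsg H18.CharBasic H18.CharOrtho H18.CharInd Subgroup MulAction H21.PLat H21.SelfC
open scoped ComplexConjugate

universe u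

variable {α : Type u} [Fintype α] [DecidableEq α] {p : ℕ} [hp : Fact p.Prime]

theorem card_dvd_fact (hα : Fintype.card α = p) (G : Subgroup (Equiv.Perm α)) :
    Nat.card G ∣ p.factorial := by
  have h1 := Subgroup.card_subgroup_dvd_card G
  rwa [Nat.card_perm, Nat.card_eq_fintype_card (α := α), hα] at h1

/-- the case of a normalizer of order `2p` -/
theorem two_final (hα : Fintype.card α = p) (G : Subgroup (Equiv.Perm α)) [IsPretransitive G α]
    [Fintype G] [IsSimpleGroup G] (hG : ¬ IsMulCommutative G) (P : Sylow p G) {x0 : G}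
    (hPx : (P : Subgroup G) = zpowers x0)
    {E : Subgroup G} {τ : G} {ψ : G → ℂ} {w : G} (h : FullD p x0 E τ ψ w) (hp3 : 3 < p)
    (hE2 : Nat.card E = 2) (hc : ∀ x ∈ E, τ⁻¹ * x * τ = x) :
    ∃ (F : Type) (_ : Field F) (_ : Fintype F), Fintype.card F = p ∧
      Nonempty (G ≃* Matrix.ProjectiveSpecialLinearGroup (Fin 2) F) := by
  classical
  letI := Fintype.ofFinite (IrrCharacter G)
  have hcN := h.hcN
  rw [← hPx, hE2, mul_comm] at hcN
  have hdvd : p ∣ Nat.card G := by
    rw [← h.hx0]; exact orderOf_dvd_natCard x0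
  rcases Cfsg.Agent.S4706.result (by omega) hα G P hcN with h1 | ⟨a, F, i1, i2, hpa, hF, ⟨e⟩⟩
  · exfalso
    apply H21.SylowTools.normalizer_sylow_ne_top hG hdvd P
    exact normalizer_eq_top_iff.2 h1
  · have hwE : w ∈ E := by rw [← h.hw]; exact mem_zpowers w
    have how : orderOf w = 2 := by rw [← Nat.card_zpowers, h.hw, hE2]
    have hw1 : w ≠ 1 := by
      rintro h2
      rw [h2, orderOf_one] at how
      omega
    have hw2 : w * w = 1 := by rw [← pow_two, ← how, pow_orderOf_eq_one]
    have hcw := index_centralizer h.td hwE hw1 (hc w hwE)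
    have hcc : Nat.card (centralizer ({w} : Set G)) = 4 := by
      rw [hcw, h.td.card, hE2]
    have h2 := sl_cent hF (e w) (fun h3 => hw1 (by
      rw [← map_one e] at h3
      exact e.injective h3)) (by rw [← map_mul, hw2, map_one])
    have h3 : Nat.card (centralizer ({e w} : Set (Matrix.SpecialLinearGroup (Fin 2) F))) ≤
        Nat.card (centralizer ({w} : Set G)) := by
      refine Nat.card_le_card_of_injective (fun y => (⟨e.symm y, ?_⟩ : centralizer ({w} : Set G))) ?_
      · rw [mem_centralizer_singleton_iff]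
        have h4 := mem_centralizer_singleton_iff.1 y.2
        apply e.injective
        rw [map_mul, map_mul, e.apply_symm_apply]
        exact h4
      · intro y z hyz
        have h4 := congrArg Subtype.val hyz
        exact Subtype.ext (e.symm.injective h4)
    have ha : 2 ^ a ≤ 4 := by
      rw [hF, ] at h2
      omega
    have ha2 : a = 2 := by
      have h4 : a < 3 := by
        by_contra h5
        have h6 : 2 ^ 3 ≤ 2 ^ a := Nat.pow_le_pow_right (by norm_num) (by omega)
        omega
      interval_cases a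
      · omega
      · omega
      · rfl
    have hp5 : p = 5 := by rw [hpa, ha2]; norm_num
    obtain ⟨a', Y, ε, e', n, hS⟩ := exists_SC (G := G) h.hx0 h.hcen
    have he : e' = 2 := by
      have h1 := hS.hcardN
      rw [h.hcN, hE2] at h1
      exact (Nat.eq_of_mul_eq_mul_left hp.out.pos h1).symm
    have hn := H21.SelfC.n_pos hS hG
    have hcard := hS.hcard
    have hsyl := hS.hsyl
    rw [he] at hcard
    have hn1 : n = 1 := by
      have h5 := card_dvd_fact hα G
      rw [hcard, hp5] at h5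
      have h6 : Nat.factorial 5 = 5 * 2 * 12 := by decide
      rw [h6] at h5
      have h7 : 1 + n * 5 ∣ 12 := Nat.dvd_of_mul_dvd_mul_left (by norm_num) h5
      have h8 := Nat.le_of_dvd (by norm_num) h7
      have h9 : n < 3 := by omega
      interval_cases n
      · rfl
      · exact absurd h7 (by decide)
    rw [hn1, one_mul] at hcard hsyl
    exact H21.PSLZass.iso_of_card hG (p := p) (m := 12) (by rw [hcard, hp5])
      (by rw [hp5]; decide) (by rw [hp5]; norm_num) (by rw [hsyl]; ring) (by omega)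

theorem prime_cases (hα : Fintype.card α = p) (G : Subgroup (Equiv.Perm α)) [IsPretransitive G α]
    (hp3 : 3 < p) {F : Type} [Field F] [Fintype F] (hF : Fintype.card F = p)
    (e : G ≃* Matrix.ProjectiveSpecialLinearGroup (Fin 2) F) : p = 5 ∨ p = 7 ∨ p = 11 := by
  by_contra hcon
  push Not at hcon
  have hq : p ∉ ({2, 3, 5, 7, 9, 11} : Finset ℕ) := by
    simp only [Finset.mem_insert, Finset.mem_singleton, not_or]
    refine ⟨by omega, by omega, hcon.1, hcon.2.1, ?_, hcon.2.2⟩
    rintro rfl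
    exact absurd hp.out (by decide)
  obtain ⟨h1, -⟩ := Cfsg.Agent.S0806.result hF hq
  have h0 : 0 < Fintype.card α := by rw [hα]; exact hp.out.pos
  obtain ⟨a⟩ := Fintype.card_pos_iff.1 h0
  have h2 : (stabilizer G a).index = p := by
    rw [index_stabilizer_of_transitive G a, Nat.card_eq_fintype_card, hα]
  have h3 : ((stabilizer G a).map e.toMonoidHom).index = p := by
    rw [← h2]
    exact Subgroup.index_map_equiv _ e
  have h4 : (stabilizer G a).map e.toMonoidHom ≠ ⊤ := by
    intro h5
    rw [h5, index_top] at h3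
    omega
  have h5 := h1 _ h4
  omega

theorem main (hα : Fintype.card α = p) (G : Subgroup (Equiv.Perm α)) [IsPretransitive G α]
    (huniq : ∃! χ : Cfsg.IrrCharacter G, Cfsg.charDegree (χ : G → ℂ) = p) (P : Sylow p G)
    (E : Subgroup G) (hPE : (P : Subgroup G) ⊔ E = Subgroup.normalizer ((P : Subgroup G) : Set G))
    (hPE' : (P : Subgroup G) ⊓ E = ⊥)
    (hNE : Nat.card (Subgroup.normalizer (E : Set G)) = 2 * Nat.card E)
    (hTI : ∀ g : G, g ∉ Subgroup.normalizer (E : Set G) →
      E ⊓ E.map (MulAut.conj g).toMonoidHom = ⊥) :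
    (p = 5 ∨ p = 7 ∨ p = 11) ∧ ∃ (F : Type) (_ : Field F) (_ : Fintype F), Fintype.card F = p ∧
      Nonempty (G ≃* Matrix.ProjectiveSpecialLinearGroup (Fin 2) F) := by
  classical
  letI : Fintype G := Fintype.ofFinite G
  letI := Fintype.ofFinite (IrrCharacter G)
  have hpp : p.Prime := Fact.out
  have hp1 := hpp.one_lt
  obtain ⟨c, hc, hco, hPz, -⟩ := H14.PrimeSylow.exists_gen hα G P
  obtain ⟨x0, hx0d⟩ : ∃ x0 : G, x0 = ⟨c, hc⟩ := ⟨_, rfl⟩
  rw [← hx0d] at hPz
  have hx0 : orderOf x0 = p := by rw [hx0d, Subgroup.orderOf_mk, hco]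
  have hcenP := H14.PrimeSylow.centralizer_eq hα G P
  have hcen : centralizer ({x0} : Set G) = zpowers x0 := by
    have h1 := centralizer_pw (x0 := x0) hx0 (k := (1 : ZMod p)) one_ne_zero
    rw [pw_one hx0] at h1
    rw [h1, ← hPz, hcenP]
  -- the character
  obtain ⟨⟨ψ, hψ⟩, hψd, hψu⟩ := huniq
  have hψ1 : ψ 1 = p := by
    have h1 := H20.Defect.charDegree_irr (⟨ψ, hψ⟩ : IrrCharacter G)
    simp only at h1 hψd
    rw [hψd] at h1
    exact h1.symm
  have huniq' : ∀ χ : G → ℂ, IsIrrCharacter G χ → χ 1 = p → χ = ψ := by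
    intro χ hχ h1
    have h2 := hψu ⟨χ, hχ⟩ (by
      have h3 := H20.Defect.charDegree_irr (⟨χ, hχ⟩ : IrrCharacter G)
      simp only at h3
      rw [h1] at h3
      exact_mod_cast h3)
    exact congrArg Subtype.val h2
  have hG : ¬ IsMulCommutative G := by
    intro h1
    have h2 := H18.CharQuot.degree_one_of_comm (G := G) h1.is_comm.comm hψ
    rw [hψ1] at h2
    have h3 : p = 1 := by exact_mod_cast h2
    omega
  have hp2 : p ≠ 2 := by
    intro h1
    have h2 := card_dvd_fact hα G
    rw [h1] at h2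
    have h3 : Nat.factorial 2 = 2 := rfl
    rw [h3, Nat.dvd_prime Nat.prime_two] at h2
    apply hG
    rcases h2 with h2 | h2
    · have := (Nat.card_eq_one_iff_unique.1 h2).1
      exact ⟨⟨fun a b => Subsingleton.elim _ _⟩⟩
    · haveI : IsCyclic G := isCyclic_of_prime_card h2
      exact ⟨⟨fun a b => (IsCyclic.commGroup (α := G)).mul_comm a b⟩⟩
  -- the complement
  have hEN' : E ≤ normalizer ((P : Subgroup G) : Set G) := by rw [← hPE]; exact le_sup_right
  have hEN : E ≤ normalizer (zpowers x0 : Set G) := by rw [← hPz]; exact hEN'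
  have hN' : ∀ g ∈ normalizer ((P : Subgroup G) : Set G), ∃ y ∈ E, ∃ x ∈ (P : Subgroup G), g = y * x := by
    intro g hg
    rw [← hPE, sup_comm, H13.Norm.mem_sup_of_le_normalizer hEN'] at hg
    obtain ⟨a, ha, b, hb, rfl⟩ := hg
    exact ⟨a, ha, b, hb, rfl⟩
  have hN : ∀ g ∈ normalizer (zpowers x0 : Set G), ∃ y ∈ E, ∃ x ∈ zpowers x0, g = y * x := by
    rw [← hPz]; exact hN'
  have hEP : ∀ x ∈ E, x ∈ zpowers x0 → x = 1 := by
    intro x hx hxP
    rw [← hPz] at hxP
    have h1 : x ∈ (P : Subgroup G) ⊓ E := ⟨hxP, hx⟩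
    rw [hPE', mem_bot] at h1
    exact h1
  have hPc : Nat.card P = p := H14.PrimeSylow.sylow_card hα G P
  have hcN : Nat.card (normalizer (zpowers x0 : Set G)) = p * Nat.card E := by
    have h1 := H3.CardSup.card_sup_mul_card_inf E (P : Subgroup G) hEN'
    rw [sup_comm, hPE, inf_comm, hPE', Subgroup.card_bot, mul_one, hPc, mul_comm] at h1
    rw [← hPz]
    exact h1
  -- `E` is cyclic
  let f : E →* (ZMod p)ˣ := (psi hx0).comp (inclusion hEN)
  have hf : Function.Injective f := by
    rw [← MonoidHom.ker_eq_bot_iff, eq_bot_iff]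
    intro x hx
    have h1 : inclusion hEN x ∈ (psi hx0).ker := hx
    rw [psi_ker, mem_subgroupOf, ← centralizer_pw hx0 (k := (1 : ZMod p)) one_ne_zero, pw_one hx0,
      hcen] at h1
    rw [mem_bot]
    exact Subtype.ext (hEP x x.2 h1)
  haveI : IsCyclic E := isCyclic_of_injective f hf
  have hdvd : Nat.card E ∣ p - 1 := by
    have h1 := Subgroup.card_dvd_of_injective f hf
    rwa [Nat.card_eq_fintype_card (α := (ZMod p)ˣ), ZMod.card_units] at h1
  obtain ⟨w', hw'⟩ := IsCyclic.exists_generator (α := E)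
  have hw : zpowers (w' : G) = E := by
    apply le_antisymm
    · rw [zpowers_le]; exact w'.2
    · intro y hy
      obtain ⟨k, hk⟩ := mem_zpowers_iff.1 (hw' ⟨y, hy⟩)
      rw [mem_zpowers_iff]
      refine ⟨k, ?_⟩
      rw [← Subgroup.coe_zpow, hk]
  have hab : ∀ x ∈ E, ∀ y ∈ E, x * y = y * x := by
    intro x hx y hy
    have h1 := (IsCyclic.commGroup (α := E)).mul_comm ⟨x, hx⟩ ⟨y, hy⟩
    exact congrArg Subtype.val h1
  have hE1 : 1 < Nat.card E := by
    by_contra h1
    have h2 : 0 < Nat.card E := Nat.card_pos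
    have h3 : Nat.card E = 1 := by omega
    have h4 : E = ⊥ := Subgroup.card_eq_one.1 h3
    rw [h3, mul_one] at hNE
    have h5 : normalizer (E : Set G) = ⊤ := by
      rw [h4]
      exact normalizer_eq_top_iff.2 inferInstance
    rw [h5, Subgroup.card_top] at hNE
    have h6 : p ∣ Nat.card G := by rw [← hx0]; exact orderOf_dvd_natCard x0
    rw [hNE, Nat.dvd_prime Nat.prime_two] at h6
    omega
  have hEne : ∃ x ∈ E, x ≠ 1 := by
    by_contra h1
    push Not at h1
    have h2 : E = ⊥ := by
      rw [eq_bot_iff]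
      intro x hx
      rw [mem_bot]; exact h1 x hx
    rw [h2, Subgroup.card_bot] at hE1
    omega
  have hti : ∀ g, g ∉ normalizer (E : Set G) → ∀ x ∈ E, g⁻¹ * x * g ∈ E → x = 1 := by
    intro g hg x hx hgx
    have h1 : x ∈ E ⊓ E.map (MulAut.conj g).toMonoidHom := by
      refine ⟨hx, ⟨g⁻¹ * x * g, hgx, ?_⟩⟩
      change g * (g⁻¹ * x * g) * g⁻¹ = x
      group
    rw [hTI g hg, mem_bot] at h1
    exact h1
  obtain ⟨τ, hτ, hτE⟩ : ∃ τ ∈ normalizer (E : Set G), τ ∉ E := by
    by_contra h1
    push Not at h1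
    have h2 : normalizer (E : Set G) = E := le_antisymm h1 le_normalizer
    rw [h2] at hNE
    omega
  have htd : TD E τ := ⟨hab, hti, hτ, hτE, hNE⟩
  -- perfect and simple
  have hlin := no_linear hx0 hcen hEN hEP hEne hN hψ hψ1 huniq'
  have hperf : commutator G = ⊤ := by
    have h1 := H18.CharQuot.card_hom_eq_index (G := G)
    have h2 : Nat.card (G →* ℂˣ) = 1 := by
      rw [Nat.card_eq_one_iff_unique]
      exact ⟨⟨fun a b => by rw [hlin a, hlin b]⟩, ⟨1⟩⟩
    rw [h2] at h1
    exact index_eq_one.1 h1.symm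
  haveI hsim : IsSimpleGroup G := simple_of_perfect hα G hperf P E hN' hab
  -- the permutation character
  have hπ : IsCharacter G (fun g : G => (Nat.card (fixedBy α g) : ℂ)) :=
    H4.PermChar.isCharacter_fixedBy (G := G) α
  have hπ1 : (fun g : G => (Nat.card (fixedBy α g) : ℂ)) 1 = p := by
    have h1 : fixedBy α (1 : G) = Set.univ := by ext x; simp
    simp only
    rw [h1, Nat.card_univ, Nat.card_eq_fintype_card, hα]
  have hπP : ∀ k : ZMod p, k ≠ 0 → (fun g : G => (Nat.card (fixedBy α g) : ℂ)) (pw x0 k) = 0 := by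
    intro k hk
    have h1 : orderOf (pw x0 k) = p := by
      have h3 := card_zp hx0
      rw [← zpowers_pw hx0 hk, Nat.card_zpowers] at h3
      exact h3
    have h2 : Nat.card (fixedBy α (pw x0 k)) = 0 := H75.Pd2.fx_order hα G (pw x0 k) h1
    simp only
    rw [h2, Nat.cast_zero]
  have hψP := fun k hk => vanish_P hx0 hcen hψ hψ1 k hk
  have hψr := real_of_unique hψ hψ1 huniq'
  obtain ⟨hψE, hπE⟩ := psi_one hx0 hcen hEN hEP hlin hp2 (isCharacter_of_isIrr hψ) hψ1 hψP hψr hπ
    hπ1 hπP (fun g => ⟨_, rfl⟩)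
  -- the complement is proper
  have hm : Nat.card E ≠ p - 1 := by
    intro h1
    have how : orderOf (w' : G) = p - 1 := by rw [← Nat.card_zpowers, hw, h1]
    refine not_full hα hp2 (w := ((w' : G) : Equiv.Perm α)) (by rw [Subgroup.orderOf_coe, how]) ?_ ?_
    · exact H21.SimpleBasic.hom_comm_trivial hG ((Equiv.Perm.sign (α := α)).comp G.subtype) (w' : G)
    · intro g hg hg1
      obtain ⟨k, rfl⟩ := mem_zpowers_iff.1 hg
      have h2 : (w' ^ k : E) ≠ 1 := by
        intro h3
        apply hg1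
        rw [← Subgroup.coe_zpow, ← Subgroup.coe_zpow, h3]; rfl
      have h3 := hπE (w' ^ k) h2
      have h4 : Nat.card (fixedBy α ((w' ^ k : E) : G)) = 1 := by exact_mod_cast h3
      exact h4
  have hD : FullD p x0 E τ ψ (w' : G) := ⟨htd, hx0, hcen, hEN, hN, hcN, hdvd, hE1, hw, hψ, hψ1, hψP,
    hψr, hψE, hm⟩
  -- p > 3
  have hp3 : 3 < p := by
    have h1 := Nat.le_of_dvd (by omega) hdvd
    by_contra h2
    have h3 : p = 3 := by omega
    rw [h3] at h1 hm
    omega
  have hfin : ∃ (F : Type) (_ : Field F) (_ : Fintype F), Fintype.card F = p ∧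
      Nonempty (G ≃* Matrix.ProjectiveSpecialLinearGroup (Fin 2) F) := by
    rcases Nat.even_or_odd (Nat.card E) with h1 | h1
    · by_cases hx : ∃ x ∈ E, τ⁻¹ * x * τ ≠ x
      · exact hD.even_final hG h1 hx
      · push Not at hx
        have h2 := htd.card_le_two hG ⟨w', w'.2, fun y hy => by rw [hw]; exact hy⟩ hx
        exact two_final hα G hG P hPz hD hp3 (by omega) hx
    · exact ⟨ZMod p, inferInstance, inferInstance, ZMod.card p, hD.odd_final hG h1⟩
  obtain ⟨F, i1, i2, hF, ⟨e⟩⟩ := hfin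
  exact ⟨prime_cases hα G hp3 hF e, F, i1, i2, hF, ⟨e⟩⟩

end H81.PT
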