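import Cfsg.Agent.Lib.H81.PT1
import Cfsg.Agent.Lib.H81.ClassCount

/-!
# The case of even order: counting products of two involutions (H81.PT)
-/

set_option autoImplicit false
set_option linter.unusedSectionVars false
set_option linter.unusedVariables false
set_option linter.style.haveILetI false

namespace H81.PT

open Cfsg H18.CharBasic H18.CharOrtho H18.CharInd Subgroup
open scoped ComplexConjugate

universe u

variable {G : Type u} [Group G] [Fintype G] {E : Subgroup G} {τ : G}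

/-- the number of ways to write `g` as a product of two conjugates of `u` -/
noncomputable def cnt (u g : G) : ℕ :=
  Nat.card {p : G × G // IsConj u p.1 ∧ IsConj u p.2 ∧ p.1 * p.2 = g}

theorem cnt_eq [Fintype (IrrCharacter G)] (u g : G) : (cnt u g : ℂ) =
    (Nat.card G : ℂ)⁻¹ * ∑ χ : IrrCharacter G,
      centralChar (χ : G → ℂ) u * centralChar (χ : G → ℂ) u * (χ : G → ℂ) 1 *
        conj ((χ : G → ℂ) g) := H81.ClassCount.zc_cls_mul_eq u u g

theorem cnt_class (u : G) : IsClassFunction G (fun g => (cnt u g : ℂ)) := by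
  classical
  letI := Fintype.ofFinite (IrrCharacter G)
  intro g h
  simp only [cnt_eq]
  congr 1
  refine Finset.sum_congr rfl (fun χ _ => ?_)
  rw [isClassFunction_of_isIrr χ.2 g h]

theorem sum_irr_cnt (u : G) (χ : IrrCharacter G) :
    ∑ g, (χ : G → ℂ) g * (cnt u g : ℂ) =
      ((centralizer ({u} : Set G)).index : ℂ) ^ 2 * (χ : G → ℂ) u ^ 2 / (χ : G → ℂ) 1 := by
  classical
  letI := Fintype.ofFinite (IrrCharacter G)
  have h1 : ∑ g, (χ : G → ℂ) g * (cnt u g : ℂ) = ∑ ψ : IrrCharacter G,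
      (centralChar (ψ : G → ℂ) u * centralChar (ψ : G → ℂ) u * (ψ : G → ℂ) 1) *
        classInner (χ : G → ℂ) (ψ : G → ℂ) := by
    simp only [cnt_eq, classInner]
    simp only [Finset.mul_sum]
    rw [Finset.sum_comm]
    refine Finset.sum_congr rfl (fun ψ _ => Finset.sum_congr rfl (fun g _ => ?_))
    ring
  rw [h1, Finset.sum_eq_single χ]
  · rw [inner_irr_self χ.2, mul_one]
    have hne : (χ : G → ℂ) 1 ≠ 0 := irr_one_ne_zero χ.2
    rw [centralChar]
    field_simp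
  · intro ψ _ hψ
    rw [inner_irr_ne χ.2 ψ.2 (fun h => hψ (Subtype.ext h.symm)), mul_zero]
  · intro h; exact absurd (Finset.mem_univ χ) h

theorem index_centralizer (h : TD E τ) {u : G} (huE : u ∈ E) (hu1 : u ≠ 1)
    (hcj : τ⁻¹ * u * τ = u) : (centralizer ({u} : Set G)) = normalizer (E : Set G) := by
  apply le_antisymm
  · intro g hg
    rw [mem_centralizer_singleton_iff] at hg
    by_contra hgN
    refine hu1 (h.ti g hgN u huE ?_)
    rw [mul_assoc, ← hg, ← mul_assoc, inv_mul_cancel, one_mul]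
    exact huE
  · intro g hg
    rw [mem_centralizer_singleton_iff]
    by_cases hgE : g ∈ E
    · exact h.ab g hgE u huE
    · have h1 := h.mul_mem hg hgE
      have h2 := h.ab _ h1 u huE
      have h3 : u * τ = τ * u := by
        calc u * τ = τ * (τ⁻¹ * u * τ) := by group
          _ = τ * u := by rw [hcj]
      calc g * u = τ * (τ⁻¹ * g * u) := by group
        _ = τ * (u * (τ⁻¹ * g)) := by rw [h2]
        _ = (τ * u) * (τ⁻¹ * g) := by group
        _ = (u * τ) * (τ⁻¹ * g) := by rw [h3]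
        _ = u * g := by group

theorem cnt_le (h : TD E τ) {u : G} (hu2 : u * u = 1)
    (huniq : ∀ x ∈ E, x * x = 1 → x = 1 ∨ x = u) {x : G} (hx : x ∈ E) (hx1 : x ≠ 1) :
    cnt u x ≤ Nat.card E := by
  classical
  have hinv : ∀ v : G, IsConj u v → v * v = 1 := by
    intro v hv
    obtain ⟨c, rfl⟩ := isConj_iff.1 hv
    calc c * u * c⁻¹ * (c * u * c⁻¹) = c * (u * u) * c⁻¹ := by group
      _ = 1 := by rw [hu2]; group
  have hne1 : ∀ v : G, IsConj u v → u ≠ 1 → v ≠ 1 := by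
    intro v hv hu hv1
    obtain ⟨c, rfl⟩ := isConj_iff.1 hv
    apply hu
    have := congrArg (fun z => c⁻¹ * z * c) hv1
    simpa [mul_assoc] using this
  have key : ∀ p : {p : G × G // IsConj u p.1 ∧ IsConj u p.2 ∧ p.1 * p.2 = x},
      τ⁻¹ * p.1.1 ∈ E := by
    rintro ⟨⟨v, w⟩, hv, hw, hvw⟩
    simp only at hv hw hvw
    have hv2 := hinv v hv
    have hw2 := hinv w hw
    have hvinv : v⁻¹ = v := inv_eq_of_mul_eq_one_left hv2
    have hvN : v ∈ normalizer (E : Set G) := by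
      by_contra hn
      apply hx1
      apply h.ti v hn x hx
      have h1 : v⁻¹ * x * v = x⁻¹ := by
        rw [hvinv, ← hvw]
        rw [← mul_assoc, hv2, one_mul, mul_inv_rev, hvinv]
        rw [inv_eq_of_mul_eq_one_left hw2]
      rw [h1]
      exact inv_mem hx
    have hvE : v ∉ E := by
      intro hvE
      have hwE : w ∈ E := by
        have h1 : w = v⁻¹ * x := by rw [← hvw]; group
        rw [h1]
        exact mul_mem (inv_mem hvE) hx
      by_cases hu1 : u = 1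
      · subst hu1
        obtain ⟨c, hc⟩ := isConj_iff.1 hv
        obtain ⟨d, hd⟩ := isConj_iff.1 hw
        apply hx1
        rw [← hvw, ← hc, ← hd]; group
      · rcases huniq v hvE hv2 with h3 | h3
        · exact hne1 v hv hu1 h3
        · rcases huniq w hwE hw2 with h4 | h4
          · exact hne1 w hw hu1 h4
          · apply hx1
            rw [← hvw, h3, h4, hu2]
    exact h.mul_mem hvN hvE
  refine Nat.card_le_card_of_injective (fun p => (⟨τ⁻¹ * p.1.1, key p⟩ : E)) ?_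
  rintro ⟨⟨v, w⟩, hv, hw, hvw⟩ ⟨⟨v', w'⟩, hv', hw', hvw'⟩ heq
  simp only [Subtype.mk.injEq] at heq
  have h1 : v = v' := mul_left_cancel heq
  subst h1
  simp only at hvw hvw'
  have h2 : w = w' := by
    apply mul_left_cancel (a := v)
    rw [hvw, hvw']
  subst h2
  rfl

/-- the bound on the order -/
theorem bound_even (h : TD E τ) {ψ : G → ℂ} (hψ : IsIrrCharacter G ψ) {p : ℕ}
    (hp : 1 < p) (hψ1 : ψ 1 = p) (hψE : ∀ x : E, x ≠ 1 → ψ x = 1) {l : E →* ℂˣ}
    (hl : l ≠ l.comp (cj E τ h.hτ)) {u : G} (huE : u ∈ E) (hu1 : u ≠ 1) (hu2 : u * u = 1)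
    (huniq : ∀ x ∈ E, x * x = 1 → x = 1 ∨ x = u) :
    Nat.card G * (p - 1) ^ 2 ≤ 4 * (Nat.card E) ^ 3 * (p * (p + 1)) := by
  classical
  letI := Fintype.ofFinite E
  obtain ⟨b, hb⟩ := exists_b h hψ hp hψ1 hψE hl
  have hcj : τ⁻¹ * u * τ = u := by
    have h1 : τ⁻¹ * u * τ ∈ E := (cj E τ h.hτ ⟨u, huE⟩).2
    have h2 : (τ⁻¹ * u * τ) * (τ⁻¹ * u * τ) = 1 := by
      calc (τ⁻¹ * u * τ) * (τ⁻¹ * u * τ) = τ⁻¹ * (u * u) * τ := by group
        _ = 1 := by rw [hu2]; group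
    rcases huniq _ h1 h2 with h3 | h3
    · exfalso
      apply hu1
      calc u = τ * (τ⁻¹ * u * τ) * τ⁻¹ := by group
        _ = 1 := by rw [h3]; group
    · exact h3
  have hcen := index_centralizer h huE hu1 hcj
  -- values of b
  have hb1 : (b : G → ℂ) 1 = p + 1 := by rw [hb, th_one, hψ1]; ring
  have hu1' : (⟨u, huE⟩ : E) ≠ 1 := fun h1 => hu1 (congrArg Subtype.val h1)
  have hcju : cj E τ h.hτ ⟨u, huE⟩ = ⟨u, huE⟩ := Subtype.ext hcj
  have hbu : (b : G → ℂ) u = 2 * (l ⟨u, huE⟩ : ℂ) := by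
    have h1 := th_coe h l ⟨u, huE⟩
    rw [hcju] at h1
    have h2 := hψE ⟨u, huE⟩ hu1'
    simp only at h1 h2
    rw [hb, h1, h2]; ring
  have hlu : (l ⟨u, huE⟩ : ℂ) ^ 2 = 1 := by
    have h1 : (⟨u, huE⟩ : E) * ⟨u, huE⟩ = 1 := Subtype.ext hu2
    have h2 : l ⟨u, huE⟩ * l ⟨u, huE⟩ = 1 := by rw [← map_mul, h1, map_one]
    rw [pow_two, ← Units.val_mul, h2, Units.val_one]
  have hψu : ψ u = 1 := hψE ⟨u, huE⟩ hu1'
  -- the identity
  have hone : IsIrrCharacter G (fun _ => 1 : G → ℂ) := isIrrCharacter_one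
  have s1 := sum_irr_cnt u (⟨_, hone⟩ : IrrCharacter G)
  have s2 := sum_irr_cnt u (⟨ψ, hψ⟩ : IrrCharacter G)
  have s3 := sum_irr_cnt u b
  simp only at s1 s2
  rw [hψu, hψ1] at s2
  rw [hbu, hb1, mul_pow, hlu] at s3
  have hsum : ∑ g, Th E l g * (cnt u g : ℂ) =
      ((centralizer ({u} : Set G)).index : ℂ) ^ 2 * (1 + 1 / p - 4 / (p + 1)) := by
    have h1 : ∀ g, Th E l g * (cnt u g : ℂ) = 1 * (cnt u g : ℂ) + ψ g * (cnt u g : ℂ) -
        (b : G → ℂ) g * (cnt u g : ℂ) := by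
      intro g
      rw [hb g]; ring
    rw [Finset.sum_congr rfl (fun g _ => h1 g), Finset.sum_sub_distrib, Finset.sum_add_distrib,
      s1, s2, s3]
    ring
  have hfrob := sum_indFun_mul E (fun x => 1 - (l x : ℂ)) (cnt_class u)
  have hfrob' : (Nat.card G : ℂ)⁻¹ * ∑ g, Th E l g * (cnt u g : ℂ) =
      (Nat.card E : ℂ)⁻¹ * ∑ x : E, (1 - (l x : ℂ)) * (cnt u x : ℂ) := hfrob
  rw [hsum] at hfrob'
  -- real parts
  have hlre : ∀ x : E, ((l x : ℂ)).re ≤ 1 := by
    intro x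
    have h1 := hom_norm_one l x
    calc ((l x : ℂ)).re ≤ ‖(l x : ℂ)‖ := Complex.re_le_norm _
      _ = 1 := h1
  have hl1 : l ≠ 1 := by
    intro h1
    apply hl
    rw [h1]; rfl
  have hlsum : ∑ x : E, (l x : ℂ) = 0 := by
    have h1 := inner_hom (E := E) l 1
    rw [if_neg hl1, classInner] at h1
    have h2 : (Nat.card E : ℂ)⁻¹ ≠ 0 := by
      have : (Nat.card E : ℂ) ≠ 0 := by exact_mod_cast Nat.card_pos.ne'
      exact inv_ne_zero this
    rcases mul_eq_zero.1 h1 with h3 | h3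
    · exact absurd h3 h2
    · simpa using h3
  have hub : (∑ x : E, (1 - (l x : ℂ)) * (cnt u x : ℂ)).re ≤ (Nat.card E : ℝ) * Nat.card E := by
    have h1 : (∑ x : E, (1 - (l x : ℂ)) * (cnt u x : ℂ)).re =
        ∑ x : E, (1 - (l x : ℂ).re) * (cnt u x : ℝ) := by
      rw [Complex.re_sum]
      refine Finset.sum_congr rfl (fun x _ => ?_)
      simp
    have h2 : ∑ x : E, (1 - (l x : ℂ).re) * (cnt u x : ℝ) ≤
        ∑ x : E, (1 - (l x : ℂ).re) * (Nat.card E : ℝ) := by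
      refine Finset.sum_le_sum (fun x _ => ?_)
      by_cases hx : x = 1
      · subst hx
        simp
      · have hx' : (x : G) ≠ 1 := fun h3 => hx (Subtype.ext h3)
        have h4 := cnt_le h hu2 huniq x.2 hx'
        have h5 : (cnt u x : ℝ) ≤ Nat.card E := by exact_mod_cast h4
        exact mul_le_mul_of_nonneg_left h5 (by linarith [hlre x])
    have h3 : ∑ x : E, (1 - (l x : ℂ).re) * (Nat.card E : ℝ) = (Nat.card E : ℝ) * Nat.card E := by
      rw [← Finset.sum_mul, Finset.sum_sub_distrib]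
      have h4 : ∑ x : E, (l x : ℂ).re = 0 := by
        have h5 := congrArg Complex.re hlsum
        rw [Complex.re_sum] at h5
        simpa using h5
      rw [h4, sub_zero, Finset.sum_const, Finset.card_univ, nsmul_eq_mul, mul_one,
        ← Nat.card_eq_fintype_card]
    rw [h1]
    linarith
  -- final computation
  have hidx : ((centralizer ({u} : Set G)).index : ℂ) = (Nat.card G : ℂ) / (2 * Nat.card E) := by
    have h1 := card_mul_index (centralizer ({u} : Set G))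
    rw [hcen, h.card] at h1
    rw [hcen]
    have h2 : (Nat.card E : ℂ) ≠ 0 := by exact_mod_cast Nat.card_pos.ne'
    have h3 : (2 : ℂ) * Nat.card E * ((normalizer (E : Set G)).index : ℂ) = Nat.card G := by
      exact_mod_cast h1
    rw [← h3]
    field_simp
  rw [hidx] at hfrob'
  have hE : (0 : ℝ) < Nat.card E := by exact_mod_cast Nat.card_pos
  have hGp : (0 : ℝ) < Nat.card G := by exact_mod_cast Nat.card_pos
  have hpp : (0 : ℝ) < p := by exact_mod_cast (by omega : 0 < p)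
  have hre : (Nat.card G : ℝ)⁻¹ * (((Nat.card G : ℝ) / (2 * Nat.card E)) ^ 2 *
      (1 + 1 / p - 4 / (p + 1))) = (Nat.card E : ℝ)⁻¹ *
        (∑ x : E, (1 - (l x : ℂ)) * (cnt u x : ℂ)).re := by
    have h1 := congrArg Complex.re hfrob'
    have h2 : ((Nat.card G : ℂ)⁻¹ * (((Nat.card G : ℂ) / (2 * Nat.card E)) ^ 2 *
      (1 + 1 / p - 4 / (p + 1)))).re = (Nat.card G : ℝ)⁻¹ * (((Nat.card G : ℝ) / (2 * Nat.card E)) ^ 2 *
      (1 + 1 / p - 4 / (p + 1))) := by
      have h3 : ((Nat.card G : ℂ)⁻¹ * (((Nat.card G : ℂ) / (2 * Nat.card E)) ^ 2 *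
        (1 + 1 / p - 4 / (p + 1)))) = (((Nat.card G : ℝ)⁻¹ * (((Nat.card G : ℝ) / (2 * Nat.card E)) ^ 2 *
        (1 + 1 / p - 4 / (p + 1))) : ℝ) : ℂ) := by push_cast; ring
      rw [h3, Complex.ofReal_re]
    rw [h2] at h1
    rw [h1]
    have h4 : ((Nat.card E : ℂ)⁻¹ * ∑ x : E, (1 - (l x : ℂ)) * (cnt u x : ℂ)) =
        (((Nat.card E : ℝ)⁻¹ : ℝ) : ℂ) * ∑ x : E, (1 - (l x : ℂ)) * (cnt u x : ℂ) := by push_cast; ring
    rw [h4, Complex.re_ofReal_mul]
  have hfin : (Nat.card G : ℝ)⁻¹ * (((Nat.card G : ℝ) / (2 * Nat.card E)) ^ 2 *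
      (1 + 1 / p - 4 / (p + 1))) ≤ (Nat.card E : ℝ) := by
    rw [hre]
    calc (Nat.card E : ℝ)⁻¹ * (∑ x : E, (1 - (l x : ℂ)) * (cnt u x : ℂ)).re ≤
        (Nat.card E : ℝ)⁻¹ * ((Nat.card E : ℝ) * Nat.card E) :=
          mul_le_mul_of_nonneg_left hub (inv_nonneg.2 hE.le)
      _ = Nat.card E := by field_simp
  have heq : (Nat.card G : ℝ)⁻¹ * (((Nat.card G : ℝ) / (2 * Nat.card E)) ^ 2 *
      (1 + 1 / p - 4 / (p + 1))) = (Nat.card G * ((p : ℝ) - 1) ^ 2) /
        (4 * (Nat.card E) ^ 2 * (p * (p + 1))) := by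
    field_simp
    ring
  rw [heq, div_le_iff₀ (by positivity)] at hfin
  have hfin2 : (Nat.card G : ℝ) * ((p : ℝ) - 1) ^ 2 ≤ 4 * (Nat.card E) ^ 3 * (p * (p + 1)) := by
    calc (Nat.card G : ℝ) * ((p : ℝ) - 1) ^ 2 ≤ (Nat.card E : ℝ) *
        (4 * (Nat.card E) ^ 2 * (p * (p + 1))) := hfin
      _ = _ := by ring
  have h9 : ((p - 1 : ℕ) : ℝ) = (p : ℝ) - 1 := by
    rw [Nat.cast_sub (by omega)]; simp
  rw [← h9] at hfin2
  exact_mod_cast hfin2

end H81.PT
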