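import Cfsg.Agent.Lib.H81.Wt5
import Cfsg.Agent.Lib.H21.PBlock

set_option autoImplicit false
set_option linter.unusedSectionVars false

/-!
The number of real irreducible characters with positive sum over `P \ 1`.
-/

namespace H81.Wt

open Cfsg H18.CharBasic H18.CharOrtho H18.CharInd H21.PLat Module MulAction

universe u

variable {p : ℕ} [hp : Fact p.Prime] {G : Type u} [Group G] [Fintype G]

theorem hasWt_one (P : Subgroup G) [Fintype P] (hP : Nat.card P = p) (h : G) :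
    HasWt p P h (fun _ => (1 : ℂ)) 1 := by
  let ρ : Representation ℤ_[p] G (Fin 1 → ℤ_[p]) := 1
  have hρ : ∀ g v, ρ g v = v := fun g v => rfl
  refine ⟨1, ρ, fun _ => 1, 1, ?_, ?_, ?_, ?_, map_one _⟩
  · funext g
    change emb p (LinearMap.trace ℤ_[p] (Fin 1 → ℤ_[p]) (1 : Module.End _ _)) = 1
    rw [Module.End.one_eq_id, LinearMap.trace_id, finrank_fin_fun, Nat.cast_one, map_one]
  · intro x _
    exact hρ x _
  · rintro ⟨m, hm⟩
    have h1 := congrFun hm 0
    rw [nrm_apply] at h1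
    simp only [hρ] at h1
    rw [Finset.sum_const, Finset.card_univ, ← Nat.card_eq_fintype_card, hP, Pi.smul_apply,
      nsmul_eq_mul] at h1
    exact prime_p.not_dvd_one (p := (p : ℤ_[p])) ⟨_, h1.symm⟩
  · rw [hρ, one_smul, sub_self]
    exact zero_mem _

variable {x0 : G}

theorem no_other (hx0 : orderOf x0 = p) (hidx : ¬ p ∣ (Subgroup.zpowers x0).index) {h : G}
    (hh : h ∈ Subgroup.normalizer (Subgroup.zpowers x0 : Set G)) (hhp : h ^ (p - 1) = 1)
    (hN : ∀ g ∈ Subgroup.normalizer (Subgroup.zpowers x0 : Set G), ∃ (k : ℕ),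
      ∃ x ∈ Subgroup.zpowers x0, g = h ^ k * x) (hodd : Odd (orderOf h))
    (B : Finset (IrrCharacter G))
    (hB : ∀ χ ∈ B, kap (Subgroup.zpowers x0) ⊥ (χ : G → ℂ) = p - 1 ∧ χ ≠ triv G ∧
      ∀ g, (starRingEnd ℂ) ((χ : G → ℂ) g) = (χ : G → ℂ) g) (hcard : orderOf h ≤ 2 * B.card + 1)
    {χ : IrrCharacter G} {k : ℤ} (hk : 0 < k)
    (hK : kap (Subgroup.zpowers x0) ⊥ (χ : G → ℂ) = k) : χ = triv G ∨ χ ∈ B := by
  classical
  by_contra hcon
  push Not at hcon
  obtain ⟨hχt, hχB⟩ := hcon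
  have : Fintype (Subgroup.zpowers x0) := Fintype.ofFinite _
  have hPc : Nat.card (Subgroup.zpowers x0) = p := by rw [Nat.card_zpowers, hx0]
  have hp1 : (0 : ℤ) < (p : ℤ) - 1 := by have := hp.out.one_lt; omega
  have hs : ¬ p ∣ orderOf h := by
    intro hd
    have h1 : orderOf h ∣ p - 1 := orderOf_dvd_of_pow_eq_one hhp
    have h2 := Nat.le_of_dvd (by have := hp.out.one_lt; omega) (hd.trans h1)
    have := hp.out.one_lt
    omega
  -- weights of the members of `B`
  have hw : ∀ b : IrrCharacter G, b ∈ B → ∃ κ : ZMod p,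
      HasWt p (Subgroup.zpowers x0) h (b : G → ℂ) κ ∧
      HasWt p (Subgroup.zpowers x0) h (b : G → ℂ) κ⁻¹ := by
    intro b hb
    obtain ⟨h1, -, h3⟩ := hB b hb
    have hkb : kap (Subgroup.zpowers x0) ⊥ (b : G → ℂ) = (((p : ℤ) - 1 : ℤ) : ℂ) := by
      rw [h1]; push_cast; ring
    obtain ⟨f, κ, hf1, hf2, hf3, hf4, hf5⟩ := exists_lat hx0 hidx hh hhp hN b.2 hp1 hkb
    have hfb := eq_of_full hf2 x0 hp1 b.2 hf3 hf5 b.2 hf4 h1
    rw [hfb] at hf1
    refine ⟨κ, hf1, ?_⟩
    have h5 := hf1.dual hPc hh hs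
    simp only [h3] at h5
    exact h5
  choose! κ hκ1 hκ2 using hw
  -- the other character
  obtain ⟨f, κ', hf1, hf2, hf3, hf4, hf5⟩ := exists_lat hx0 hidx hh hhp hN χ.2 hk hK
  have horth : ∀ ψ : IrrCharacter G, kap (Subgroup.zpowers x0) ⊥ (ψ : G → ℂ) = p - 1 → χ ≠ ψ →
      classInner f (ψ : G → ℂ) = 0 := by
    intro ψ hψ hne
    by_contra h0
    have h1 := eq_of_full hf2 x0 hk χ.2 hf3 hf5 ψ.2 h0 hψ
    rw [h1] at hf4
    exact hf4 (inner_irr_ne ψ.2 χ.2 (fun h2 => hne (Subtype.ext h2.symm)))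
  have hkt : kap (Subgroup.zpowers x0) ⊥ ((triv G : IrrCharacter G) : G → ℂ) = p - 1 := by
    have : Fintype (⊥ : Subgroup G) := Fintype.ofFinite _
    rw [kap_eq _ _ bot_le]
    change ∑ x : Subgroup.zpowers x0, (1 : ℂ) - ∑ x : (⊥ : Subgroup G), (1 : ℂ) = p - 1
    rw [Finset.sum_const, Finset.sum_const, Finset.card_univ, Finset.card_univ,
      ← Nat.card_eq_fintype_card, ← Nat.card_eq_fintype_card, hPc, Subgroup.card_bot]
    simp
  have hw1 := hasWt_one (p := p) (Subgroup.zpowers x0) hPc h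
  have hsym : ∀ {a b : G → ℂ}, classInner a b = 0 → classInner b a = 0 := by
    intro a b hab
    rw [← H18.CharOrtho.inner_conj_symm, hab, map_zero]
  -- relations
  have hB1 : ∀ b ∈ B, κ b ≠ 1 := fun b hb =>
    HasWt.ne hPc hidx hh hN (hκ1 b hb) hw1
      (inner_irr_ne (triv G).2 b.2 (fun h2 => (hB b hb).2.1 (Subtype.ext h2.symm)))
  have hB1' : ∀ b ∈ B, (κ b)⁻¹ ≠ 1 := fun b hb =>
    HasWt.ne hPc hidx hh hN (hκ2 b hb) hw1
      (inner_irr_ne (triv G).2 b.2 (fun h2 => (hB b hb).2.1 (Subtype.ext h2.symm)))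
  have hk1 : κ' ≠ 1 := HasWt.ne hPc hidx hh hN hf1 hw1 (hsym (horth (triv G) hkt hχt))
  have hkB : ∀ b ∈ B, κ' ≠ κ b := fun b hb => HasWt.ne hPc hidx hh hN hf1 (hκ1 b hb)
    (hsym (horth b (hB b hb).1 (fun h0 => hχB (h0 ▸ hb))))
  have hkB' : ∀ b ∈ B, κ' ≠ (κ b)⁻¹ := fun b hb => HasWt.ne hPc hidx hh hN hf1 (hκ2 b hb)
    (hsym (horth b (hB b hb).1 (fun h0 => hχB (h0 ▸ hb))))
  have hBB : ∀ b ∈ B, ∀ b' ∈ B, b ≠ b' → classInner ((b' : G → ℂ)) (b : G → ℂ) = 0 :=
    fun b _ b' _ hne => inner_irr_ne b'.2 b.2 (fun h2 => hne (Subtype.ext h2.symm))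
  have hself : ∀ b ∈ B, κ b ≠ (κ b)⁻¹ := by
    intro b hb h0
    have h1 := (hκ1 b hb).pow hh
    have hne0 : κ b ≠ 0 := by
      intro h2
      rw [h2, zero_pow (orderOf_pos h).ne'] at h1
      exact zero_ne_one h1
    have h2 : κ b ^ 2 = 1 := by
      rw [pow_two]
      nth_rw 2 [h0]
      exact mul_inv_cancel₀ hne0
    obtain ⟨t, ht⟩ := hodd
    rw [ht, pow_add, pow_mul, h2, one_pow, one_mul, pow_one] at h1
    exact hB1 b hb h1
  -- counting
  have hs0 : 0 < orderOf h := orderOf_pos h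
  let W : Finset (ZMod p) := Polynomial.nthRootsFinset (orderOf h) (1 : ZMod p)
  have hWc : W.card ≤ orderOf h := by
    rw [show W = (Polynomial.nthRoots (orderOf h) (1 : ZMod p)).toFinset from by
      rw [← Polynomial.nthRootsFinset_def]]
    exact (Multiset.toFinset_card_le _).trans (Polynomial.card_nthRoots _ _)
  let U : Finset (ZMod p) := {1, κ'} ∪ B.biUnion (fun b => {κ b, (κ b)⁻¹})
  have hUW : U ⊆ W := by
    intro z hz
    rw [Polynomial.mem_nthRootsFinset hs0]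
    rw [Finset.mem_union, Finset.mem_biUnion] at hz
    rcases hz with hz | ⟨b, hb, hz⟩
    · rcases Finset.mem_insert.1 hz with rfl | hz
      · exact one_pow _
      · rw [Finset.mem_singleton.1 hz]
        exact hf1.pow hh
    · rcases Finset.mem_insert.1 hz with rfl | hz
      · exact (hκ1 b hb).pow hh
      · rw [Finset.mem_singleton.1 hz]
        exact (hκ2 b hb).pow hh
  have hUc : U.card = 2 + 2 * B.card := by
    rw [Finset.card_union_of_disjoint, Finset.card_pair hk1.symm, Finset.card_biUnion]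
    · rw [Finset.sum_congr rfl (fun b hb => Finset.card_pair (hself b hb)), Finset.sum_const,
        smul_eq_mul, mul_comm B.card]
    · intro b hb b' hb' hne
      rw [Function.onFun, Finset.disjoint_left]
      intro z hz hz'
      rw [Finset.mem_insert, Finset.mem_singleton] at hz hz'
      rcases hz with rfl | rfl <;> rcases hz' with h2 | h2
      · exact HasWt.ne hPc hidx hh hN (hκ1 b hb) (hκ1 b' hb') (hBB b hb b' hb' hne) h2
      · exact HasWt.ne hPc hidx hh hN (hκ1 b hb) (hκ2 b' hb') (hBB b hb b' hb' hne) h2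
      · exact HasWt.ne hPc hidx hh hN (hκ2 b hb) (hκ1 b' hb') (hBB b hb b' hb' hne) h2
      · exact HasWt.ne hPc hidx hh hN (hκ2 b hb) (hκ2 b' hb') (hBB b hb b' hb' hne) h2
    · rw [Finset.disjoint_left]
      intro z hz hz'
      rw [Finset.mem_biUnion] at hz'
      obtain ⟨b, hb, hz'⟩ := hz'
      rw [Finset.mem_insert, Finset.mem_singleton] at hz hz'
      rcases hz with rfl | rfl <;> rcases hz' with h2 | h2
      · exact hB1 b hb h2.symm
      · exact hB1' b hb h2.symm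
      · exact hkB b hb h2
      · exact hkB' b hb h2
  have := Finset.card_le_card hUW
  omega

end H81.Wt
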