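import Cfsg.Agent.Lib.H81.PT1
import Cfsg.Agent.Lib.H81.Wt6
import Cfsg.Agent.Lib.H21.SC1

/-!
# The case of odd order: preliminaries (H81.PT)
-/

set_option autoImplicit false
set_option linter.unusedSectionVars false
set_option linter.unusedVariables false
set_option linter.style.haveILetI false

namespace H81.PT

open Cfsg H18.CharBasic H18.CharOrtho H18.CharInd Subgroup H21.PLat H21.SelfC
open scoped ComplexConjugate

universe u

variable {G : Type u} [Group G] [Fintype G] {E : Subgroup G} {τ : G}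

/-! ### sums over a subgroup of prime order -/

section kap
variable {p : ℕ} [hp : Fact p.Prime] {x0 : G}

theorem kap_pw (hx0 : orderOf x0 = p) (f : G → ℂ) :
    kap (zpowers x0) ⊥ f = ∑ k ∈ Finset.univ.erase (0 : ZMod p), f (pw x0 k) := by
  classical
  rw [kap, ← Finset.sum_filter]
  symm
  refine Finset.sum_bij (fun k _ => pw x0 k) ?_ ?_ ?_ ?_
  · intro k hk
    rw [Finset.mem_filter]
    refine ⟨Finset.mem_univ _, pw_mem k, ?_⟩
    rw [mem_bot, pw_eq_one hx0]
    exact Finset.ne_of_mem_erase hk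
  · intro k _ l _ hkl
    exact pw_inj hx0 hkl
  · intro g hg
    rw [Finset.mem_filter] at hg
    obtain ⟨k, rfl⟩ := mem_zpowers_pw hx0 hg.2.1
    refine ⟨k, ?_, rfl⟩
    rw [Finset.mem_erase]
    refine ⟨?_, Finset.mem_univ _⟩
    rintro rfl
    exact hg.2.2 (by rw [mem_bot, pw_zero])
  · intro k _; rfl

theorem kap_const (hx0 : orderOf x0 = p) (f : G → ℂ) (c : ℂ)
    (h : ∀ k : ZMod p, k ≠ 0 → f (pw x0 k) = c) : kap (zpowers x0) ⊥ f = (p - 1) * c := by
  rw [kap_pw hx0, Finset.sum_congr rfl (fun k hk => h k (Finset.ne_of_mem_erase hk)),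
    Finset.sum_const, Finset.card_erase_of_mem (Finset.mem_univ _), Finset.card_univ, ZMod.card,
    nsmul_eq_mul, Nat.cast_sub hp.out.one_lt.le, Nat.cast_one]

theorem deg_kap (hx0 : orderOf x0 = p) {χ : G → ℂ} (hχ : IsCharacter G χ) :
    ∃ m : ℕ, χ 1 + kap (zpowers x0) ⊥ χ = p * m := by
  classical
  letI : Fintype (zpowers x0) := Fintype.ofFinite _
  letI : Fintype (⊥ : Subgroup G) := Fintype.ofFinite _
  have hres : IsCharacter (zpowers x0) (fun x : zpowers x0 => χ x) :=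
    isCharacter_restrict (zpowers x0) hχ
  obtain ⟨m, hm⟩ := inner_char_natCast hres (isCharacter_one (G := zpowers x0))
  refine ⟨m, ?_⟩
  rw [kap_eq (zpowers x0) ⊥ bot_le]
  have h1 : ∑ x : (⊥ : Subgroup G), χ x = χ 1 := by
    rw [Fintype.sum_eq_single (1 : (⊥ : Subgroup G))]
    · rfl
    · intro x hx
      exact absurd (Subsingleton.elim x 1) hx
  rw [h1, add_sub_cancel]
  rw [classInner, card_zp hx0] at hm
  have hp0 : (p : ℂ) ≠ 0 := by exact_mod_cast hp.out.ne_zero
  rw [← hm]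
  field_simp
  simp

end kap

/-! ### characters of an abelian group -/

theorem card_hom (h : TD E τ) : Nat.card (E →* ℂˣ) = Nat.card E := by
  letI : CommGroup E := { (inferInstance : Group E) with
    mul_comm := fun a b => Subtype.ext (h.ab a a.2 b b.2) }
  exact CommGroup.card_monoidHom_of_hasEnoughRootsOfUnity E ℂ

/-- a function orthogonal to all `1 - l` vanishes off the identity -/
theorem vanish_of_inner [Fintype E] (h : TD E τ) {f : E → ℂ}
    (hf : ∀ l : E →* ℂˣ, l ≠ 1 → classInner (fun x : E => 1 - (l x : ℂ)) f = 0) (x : E)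
    (hx : x ≠ 1) : f x = 0 := by
  classical
  letI := Fintype.ofFinite (IrrCharacter E)
  have hcomm : ∀ a b : E, a * b = b * a := fun a b => Subtype.ext (h.ab a a.2 b b.2)
  have hcl : IsClassFunction E f := by
    intro a b
    have : b * a * b⁻¹ = a := by rw [hcomm b a]; group
    rw [this]
  have hc : ∀ χ : IrrCharacter E, classInner f (χ : E → ℂ) = classInner f (fun _ => 1) := by
    intro χ
    obtain ⟨l, hl⟩ := exists_hom_of_isIrr_of_comm hcomm χ.2
    rw [hl]
    by_cases hl1 : l = 1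
    · subst hl1; simp
    · have h1 := hf l hl1
      rw [sub_fun_eq, H18.CharOrtho.inner_sub_left, sub_eq_zero, ← one_fun_eq] at h1
      rw [← H18.CharOrtho.inner_conj_symm, ← h1, H18.CharOrtho.inner_conj_symm]
  have h1 := congrFun (mem_classFun_expand hcl) x
  rw [h1, Finset.sum_apply]
  have h2 : ∀ χ : IrrCharacter E, (classInner f (χ : E → ℂ) • (χ : E → ℂ)) x =
      classInner f (fun _ => 1) * ((χ : E → ℂ) 1 * (χ : E → ℂ) x) := by
    intro χ
    rw [Pi.smul_apply, smul_eq_mul, hc χ]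
    obtain ⟨l, hl⟩ := exists_hom_of_isIrr_of_comm hcomm χ.2
    have h3 : (χ : E → ℂ) 1 = 1 := by rw [hl]; simp
    rw [h3, one_mul]
  rw [Finset.sum_congr rfl (fun χ _ => h2 χ), ← Finset.mul_sum, sum_degree_mul hx, mul_zero]

theorem hom_inv_ne {l : E →* ℂˣ} (hl : l ≠ 1) : l⁻¹ ≠ 1 := by
  intro h
  apply hl
  ext x
  have h1 := DFunLike.congr_fun h x
  rw [MonoidHom.inv_apply, MonoidHom.one_apply] at h1
  rw [MonoidHom.one_apply, ← inv_inv (l x), h1, inv_one]

theorem hom_inv_inv (l : E →* ℂˣ) : l⁻¹⁻¹ = l := by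
  ext x
  rw [MonoidHom.inv_apply, MonoidHom.inv_apply, inv_inv]

/-! ### the family of the `b l` -/

/-- the inverting case -/
structure ID (E : Subgroup G) (τ : G) (ψ : G → ℂ) (p : ℕ) : Prop extends TD E τ where
  inv : ∀ x ∈ E, τ⁻¹ * x * τ = x⁻¹
  odd : Odd (Nat.card E)
  irr : IsIrrCharacter G ψ
  hp : 1 < p
  deg : ψ 1 = p
  one : ∀ x : E, x ≠ 1 → ψ x = 1

variable {ψ : G → ℂ} {p : ℕ}

theorem ID.comp (h : ID E τ ψ p) (l : E →* ℂˣ) : l.comp (cj E τ h.hτ) = l⁻¹ := by
  ext x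
  have h1 : cj E τ h.hτ x = x⁻¹ := Subtype.ext (h.inv x x.2)
  rw [MonoidHom.comp_apply, h1, map_inv, MonoidHom.inv_apply]

theorem ID.ne_inv (h : ID E τ ψ p) {l : E →* ℂˣ} (hl : l ≠ 1) : l ≠ l⁻¹ := by
  intro h1
  apply hl
  ext x
  have h2 : l x * l x = 1 := by
    have h3 := DFunLike.congr_fun h1 x
    rw [MonoidHom.inv_apply] at h3
    nth_rw 2 [h3]
    rw [mul_inv_cancel]
  have h3 : (l x) ^ Nat.card E = 1 := by rw [← map_pow, pow_card_eq_one', map_one]
  obtain ⟨k, hk⟩ := h.odd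
  rw [hk, pow_succ, pow_mul, pow_two, h2, one_pow, one_mul] at h3
  rw [h3]; rfl

theorem ID.inner_eq [Fintype E] (h : ID E τ ψ p) {l m : E →* ℂˣ} (hl : l ≠ 1) (hm : m ≠ 1) :
    classInner (Th E l) (Th E m) = 2 + (if l = m then 1 else 0) + (if l = m⁻¹ then 1 else 0) := by
  rw [inner_th_th h.toTD hl hm, h.comp m]

theorem ID.th_inv (h : ID E τ ψ p) {l : E →* ℂˣ} (hl : l ≠ 1) : Th E l⁻¹ = Th E l := by
  classical
  letI := Fintype.ofFinite E
  have hl' : l⁻¹ ≠ 1 := hom_inv_ne hl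
  have hne := h.ne_inv hl
  have e1 := h.inner_eq hl hl
  have e2 := h.inner_eq hl' hl'
  have e3 := h.inner_eq hl hl'
  have e4 := h.inner_eq hl' hl
  rw [if_pos rfl, if_neg hne] at e1
  rw [if_pos rfl, hom_inv_inv, if_neg hne.symm] at e2
  rw [if_neg hne, hom_inv_inv, if_pos rfl] at e3
  rw [if_neg hne.symm, if_pos rfl] at e4
  have h1 : classInner (Th E l⁻¹ - Th E l) (Th E l⁻¹ - Th E l) = 0 := by
    rw [H18.CharOrtho.inner_sub_left, H18.CharOrtho.inner_sub_right,
      H18.CharOrtho.inner_sub_right, e1, e2, e3, e4]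
    ring
  exact sub_eq_zero.1 (inner_self_eq_zero.1 h1)

/-- the family of irreducible characters -/
structure BF (E : Subgroup G) (τ : G) (ψ : G → ℂ) (p : ℕ) (b : (E →* ℂˣ) → IrrCharacter G) : Prop
    extends ID E τ ψ p where
  hb : ∀ l, l ≠ 1 → ∀ g, (b l : G → ℂ) g = 1 + ψ g - Th E l g

theorem ID.exists_b (h : ID E τ ψ p) : ∃ b : (E →* ℂˣ) → IrrCharacter G, BF E τ ψ p b := by
  classical
  letI := Fintype.ofFinite E
  have h1 : ∀ l : E →* ℂˣ, ∃ b : IrrCharacter G, l ≠ 1 → ∀ g, (b : G → ℂ) g = 1 + ψ g - Th E l g := by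
    intro l
    by_cases hl : l = 1
    · exact ⟨triv G, fun h2 => absurd hl h2⟩
    · have h2 : l ≠ l.comp (cj E τ h.hτ) := by
        rw [h.comp]; exact h.ne_inv hl
      obtain ⟨b, hb⟩ := PT.exists_b h.toTD h.irr h.hp h.deg h.one h2
      exact ⟨b, fun _ => hb⟩
  choose b hb using h1
  exact ⟨b, ⟨h, hb⟩⟩

variable {b : (E →* ℂˣ) → IrrCharacter G}

theorem BF.deg_b (h : BF E τ ψ p b) {l : E →* ℂˣ} (hl : l ≠ 1) : (b l : G → ℂ) 1 = p + 1 := by
  rw [h.hb l hl, th_one, h.deg]; ring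

theorem BF.eq_iff (h : BF E τ ψ p b) {l m : E →* ℂˣ} (hl : l ≠ 1) (hm : m ≠ 1) :
    b l = b m ↔ l = m ∨ l = m⁻¹ := by
  classical
  letI := Fintype.ofFinite E
  constructor
  · intro h1
    have h2 : Th E l = Th E m := by
      funext g
      have e1 := h.hb l hl g
      have e2 := h.hb m hm g
      rw [h1] at e1
      rw [e1] at e2
      linear_combination -e2
    have h3 := h.inner_eq hl hm
    have h4 := h.inner_eq hm hm
    rw [h2, h4, if_pos rfl, if_neg (h.ne_inv hm)] at h3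
    by_contra hcon
    push Not at hcon
    rw [if_neg hcon.1, if_neg hcon.2] at h3
    norm_num at h3
  · rintro (rfl | rfl)
    · rfl
    · apply Subtype.ext
      funext g
      rw [h.hb _ hl, h.hb _ hm, h.th_inv hm]

open Classical in
/-- the set of the `b l` -/
noncomputable def BB [Fintype (E →* ℂˣ)] (b : (E →* ℂˣ) → IrrCharacter G) : Finset (IrrCharacter G) :=
  (Finset.univ.erase 1).image b

theorem mem_BB [Fintype (E →* ℂˣ)] {χ : IrrCharacter G} : χ ∈ BB b ↔ ∃ l, l ≠ 1 ∧ b l = χ := by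
  classical
  simp [BB]

theorem BF.card_BB [Fintype (E →* ℂˣ)] (h : BF E τ ψ p b) : 2 * (BB b).card + 1 = Nat.card E := by
  classical
  have h1 := Finset.card_eq_sum_card_image b (Finset.univ.erase (1 : E →* ℂˣ))
  have h2 : ∀ c ∈ (Finset.univ.erase (1 : E →* ℂˣ)).image b,
      ((Finset.univ.erase (1 : E →* ℂˣ)).filter (fun x => b x = c)).card = 2 := by
    intro c hc
    rw [Finset.mem_image] at hc
    obtain ⟨l, hl, rfl⟩ := hc
    have hl1 := Finset.ne_of_mem_erase hl
    have h3 : (Finset.univ.erase (1 : E →* ℂˣ)).filter (fun x => b x = b l) = {l, l⁻¹} := by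
      ext m
      rw [Finset.mem_filter, Finset.mem_erase, Finset.mem_insert, Finset.mem_singleton]
      constructor
      · rintro ⟨⟨hm, _⟩, h4⟩
        exact (h.eq_iff hm hl1).1 h4
      · intro h4
        have hm : m ≠ 1 := by
          rcases h4 with rfl | rfl
          · exact hl1
          · exact hom_inv_ne hl1
        exact ⟨⟨hm, Finset.mem_univ _⟩, (h.eq_iff hm hl1).2 h4⟩
    rw [h3, Finset.card_pair (h.ne_inv hl1)]
  rw [Finset.sum_congr rfl h2, Finset.sum_const, smul_eq_mul,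
    Finset.card_erase_of_mem (Finset.mem_univ _), Finset.card_univ, ← Nat.card_eq_fintype_card,
    card_hom h.toTD] at h1
  have h3 : (BB b).card = ((Finset.univ.erase (1 : E →* ℂˣ)).image b).card := by
    rw [BB]
  have h4 : 0 < Nat.card E := Nat.card_pos
  rw [h3]
  omega

theorem conj_th (E : Subgroup G) (l : E →* ℂˣ) (g : G) : conj (Th E l g) = Th E l⁻¹ g := by
  rw [Th, Th, indFun_apply, indFun_apply, map_mul, map_sum]
  congr 1
  · simp
  · refine Finset.sum_congr rfl (fun t _ => ?_)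
    by_cases ht : t⁻¹ * g * t ∈ E
    · rw [ext_mem _ _ ht, ext_mem _ _ ht, map_sub, map_one, MonoidHom.inv_apply, ← map_inv,
        hom_inv_eq_conj]
    · rw [ext_notMem _ _ ht, ext_notMem _ _ ht, map_zero]

theorem BF.real (h : BF E τ ψ p b) (hr : ∀ g, conj (ψ g) = ψ g) {l : E →* ℂˣ} (hl : l ≠ 1) (g : G) :
    conj ((b l : G → ℂ) g) = (b l : G → ℂ) g := by
  rw [h.hb l hl, map_sub, map_add, map_one, hr, conj_th, h.th_inv hl]

end H81.PT
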