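import Cfsg.Agent.Lib.H81.PT3
import Cfsg.Agent.Lib.H20.Defect

/-!
# The case of odd order: a character of degree `(p - 1) / 2` (H81.PT)
-/

set_option autoImplicit false
set_option linter.unusedSectionVars false
set_option linter.unusedVariables false
set_option linter.style.haveILetI false

namespace H81.PT

open Cfsg H18.CharBasic H18.CharOrtho H18.CharInd Subgroup H21.PLat H21.SelfC
open scoped ComplexConjugate

universe u

variable {G : Type u} [Group G] [Fintype G] {E : Subgroup G} {τ : G}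
variable {ψ : G → ℂ} {p : ℕ} [hp : Fact p.Prime] {b : (E →* ℂˣ) → IrrCharacter G} {x0 : G}

/-- the hypotheses of the odd case -/
structure OD (E : Subgroup G) (τ : G) (ψ : G → ℂ) (p : ℕ) [Fact p.Prime] (b : (E →* ℂˣ) → IrrCharacter G)
    (x0 w : G) : Prop extends BF E τ ψ p b where
  hx0 : orderOf x0 = p
  hcen : centralizer ({x0} : Set G) = zpowers x0
  ψP : ∀ k : ZMod p, k ≠ 0 → ψ (pw x0 k) = 0
  ψr : ∀ g, conj (ψ g) = ψ g
  hw : zpowers w = E
  hwN : w ∈ normalizer (zpowers x0 : Set G)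
  hN : ∀ g ∈ normalizer (zpowers x0 : Set G), ∃ y ∈ E, ∃ x ∈ zpowers x0, g = y * x
  hcN : Nat.card (normalizer (zpowers x0 : Set G)) = p * Nat.card E
  hdvd : Nat.card E ∣ p - 1
  hE1 : 1 < Nat.card E

variable {w : G}

theorem OD.b_P (h : OD E τ ψ p b x0 w) {l : E →* ℂˣ} (hl : l ≠ 1) (k : ZMod p) (hk : k ≠ 0) :
    (b l : G → ℂ) (pw x0 k) = 1 := by
  rw [h.hb l hl, h.ψP k hk, th_zero, add_zero, sub_zero]
  intro t ht
  have h1 : orderOf (t⁻¹ * pw x0 k * t) = p := by
    have h2 : t⁻¹ * pw x0 k * t = MulAut.conj t⁻¹ (pw x0 k) := by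
      rw [MulAut.conj_apply, inv_inv]
    rw [h2, MulEquiv.orderOf_eq]
    have h3 := card_zp h.hx0
    rw [← zpowers_pw h.hx0 hk, Nat.card_zpowers] at h3
    exact h3
  have h2 : orderOf (⟨_, ht⟩ : E) ∣ Nat.card E := orderOf_dvd_natCard _
  rw [Subgroup.orderOf_mk, h1] at h2
  have h3 := h2.trans h.hdvd
  have h4 := Nat.le_of_dvd (by have := hp.out.one_lt; omega) h3
  have := hp.out.one_lt
  omega

theorem OD.kap_b (h : OD E τ ψ p b x0 w) {l : E →* ℂˣ} (hl : l ≠ 1) :
    kap (zpowers x0) ⊥ (b l : G → ℂ) = p - 1 := by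
  rw [kap_const h.hx0 _ 1 (h.b_P hl), mul_one]

theorem OD.b_ne (h : OD E τ ψ p b x0 w) {l : E →* ℂˣ} (hl : l ≠ 1) : b l ≠ triv G := by
  intro h1
  have h2 := h.deg_b hl
  rw [h1] at h2
  have h3 : (1 : ℂ) = p + 1 := h2
  have h4 : (p : ℂ) = 0 := by linear_combination -h3
  exact hp.out.ne_zero (by exact_mod_cast h4)

theorem OD.orderw (h : OD E τ ψ p b x0 w) : orderOf w = Nat.card E := by
  rw [← Nat.card_zpowers, h.hw]

theorem OD.hidx (h : OD E τ ψ p b x0 w) : ¬ p ∣ (zpowers x0).index := by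
  classical
  letI := Fintype.ofFinite (IrrCharacter G)
  obtain ⟨a, Y, ε, e, n, hS⟩ := exists_SC (G := G) h.hx0 h.hcen
  exact hS.hidx

theorem OD.pos [Fintype (E →* ℂˣ)] (h : OD E τ ψ p b x0 w) {χ : IrrCharacter G} {k : ℤ} (hk : 0 < k)
    (hK : kap (zpowers x0) ⊥ (χ : G → ℂ) = k) : χ = triv G ∨ χ ∈ BB b := by
  refine Wt.no_other h.hx0 h.hidx h.hwN ?_ ?_ ?_ (BB b) ?_ ?_ hk hK
  · obtain ⟨c, hc⟩ := h.hdvd
    rw [hc, pow_mul, ← h.orderw, pow_orderOf_eq_one, one_pow]
  · intro g hg
    obtain ⟨y, hy, x, hx, hgx⟩ := h.hN g hg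
    rw [← h.hw] at hy
    obtain ⟨k, hk⟩ := (mem_powers_iff_mem_zpowers (x := w)).2 hy
    exact ⟨k, x, hx, by rw [hgx]; exact congrArg (· * x) hk.symm⟩
  · rw [h.orderw]; exact h.odd
  · intro χ hχ
    obtain ⟨l, hl, rfl⟩ := mem_BB.1 hχ
    exact ⟨h.kap_b hl, h.b_ne hl, fun g => h.real h.ψr hl g⟩
  · rw [h.orderw, h.card_BB]

/-- there is an irreducible character of degree `|E|`, different from the others -/
theorem OD.exists_theta [Fintype (E →* ℂˣ)] (h : OD E τ ψ p b x0 w) :
    ∃ θ : IrrCharacter G, charDegree (θ : G → ℂ) = Nat.card E := by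
  classical
  letI := Fintype.ofFinite (IrrCharacter G)
  obtain ⟨a, Y, ε, e, n, hS⟩ := exists_SC (G := G) h.hx0 h.hcen
  have he : e = Nat.card E := by
    have h1 := hS.hcardN
    rw [h.hcN] at h1
    exact (Nat.eq_of_mul_eq_mul_left hp.out.pos h1).symm
  subst he
  set e := Nat.card E with he
  have hp1 := hp.out.one_lt
  have hpe : e ≤ p - 1 := Nat.le_of_dvd (by omega) h.hdvd
  have hne : e ≠ p - 1 := by
    intro h1
    have h2 := h.odd
    rw [← he, h1] at h2
    rcases hp.out.eq_two_or_odd' with h3 | h3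
    · have := h.hE1
      rw [← he] at this
      omega
    · rw [Nat.odd_iff] at h2 h3
      omega
  have hE1 : 1 < e := h.hE1
  -- values of kap
  have hk1 : ∀ χ, a χ ≠ 0 → kap (zpowers x0) ⊥ (χ : G → ℂ) = (p - 1) * a χ := fun χ hχ =>
    kap_const hS.hx0 _ _ (hS.hval χ hχ)
  have hk0 : ∀ χ, a χ = 0 → χ ∉ Y → kap (zpowers x0) ⊥ (χ : G → ℂ) = 0 := by
    intro χ hχ hY
    rw [kap_const hS.hx0 _ 0 (hS.hz χ hχ hY), mul_zero]
  have hkY : ∀ χ ∈ Y, kap (zpowers x0) ⊥ (χ : G → ℂ) = -(ε * e) := fun χ hχ => by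
    rw [kap_pw hS.hx0]; exact hS.hYsum χ hχ
  have hYne : Y.Nonempty := by
    rw [← Finset.card_pos]
    by_contra hcon
    have h1 : Y.card = 0 := by omega
    have h2 := hS.hcardY
    rw [h1, mul_zero] at h2
    omega
  -- the sign
  have hε : ε = 1 := by
    rcases hS.hε with h1 | h1
    · exact h1
    · exfalso
      obtain ⟨θ, hθ⟩ := hYne
      have h2 : kap (zpowers x0) ⊥ (θ : G → ℂ) = ((e : ℤ) : ℂ) := by
        rw [hkY θ hθ, h1]; push_cast; ring
      rcases h.pos (by exact_mod_cast (by omega : 0 < e)) h2 with h3 | h3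
      · have h4 := hS.hYa θ hθ
        rw [h3, hS.htriv] at h4
        exact one_ne_zero h4
      · obtain ⟨l, hl, h4⟩ := mem_BB.1 h3
        rw [← h4, h.kap_b hl] at h2
        have h5 : ((p : ℤ) - 1 : ℤ) = (e : ℤ) := by exact_mod_cast h2
        omega
  -- characters with a = 1
  have hpc : ((p : ℂ) - 1) ≠ 0 := by
    intro h1
    have h2 : (p : ℂ) = 1 := by linear_combination h1
    have h3 : p = 1 := by exact_mod_cast h2
    omega
  have haB : ∀ χ, a χ = 1 ↔ χ ∈ insert (triv G) (BB b) := by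
    intro χ
    rw [Finset.mem_insert]
    constructor
    · intro h1
      have h2 : kap (zpowers x0) ⊥ (χ : G → ℂ) = (((p : ℤ) - 1 : ℤ) : ℂ) := by
        rw [hk1 χ (by rw [h1]; exact one_ne_zero), h1]; push_cast; ring
      exact h.pos (by omega) h2
    · rintro (rfl | h1)
      · exact hS.htriv
      · obtain ⟨l, hl, rfl⟩ := mem_BB.1 h1
        have h2 := h.kap_b hl
        rcases hS.ha (b l) with h3 | h3 | h3
        · exfalso
          by_cases hY : b l ∈ Y
          · rw [hkY _ hY, hε] at h2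
            have h4 : (-(1 * (e : ℤ)) : ℤ) = (p : ℤ) - 1 := by exact_mod_cast h2
            omega
          · rw [hk0 _ h3 hY] at h2
            exact hpc h2.symm
        · exact h3
        · exfalso
          rw [hk1 _ (by rw [h3]; norm_num), h3] at h2
          have h4 : ((p : ℂ) - 1) * 2 = 0 := by
            push_cast at h2
            linear_combination -h2
          rcases mul_eq_zero.1 h4 with h5 | h5
          · exact hpc h5
          · norm_num at h5
  have htB : triv G ∉ BB b := by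
    intro h1
    obtain ⟨l, hl, h2⟩ := mem_BB.1 h1
    exact h.b_ne hl h2
  have hBc := h.card_BB
  -- number of characters with a = -1
  set A1 := Finset.univ.filter (fun χ => a χ = 1) with hA1
  set A2 := Finset.univ.filter (fun χ => a χ = -1) with hA2
  have hA1c : A1.card = 1 + (BB b).card := by
    have h1 : A1 = insert (triv G) (BB b) := by
      ext χ
      rw [hA1, Finset.mem_filter]
      simp only [Finset.mem_univ, true_and]
      exact haB χ
    rw [h1, Finset.card_insert_of_notMem htB]; ring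
  have hsplit : ∀ f : IrrCharacter G → ℤ, ∑ χ, a χ * f χ = ∑ χ ∈ A1, f χ - ∑ χ ∈ A2, f χ := by
    intro f
    rw [hA1, hA2, Finset.sum_filter, Finset.sum_filter, ← Finset.sum_sub_distrib]
    refine Finset.sum_congr rfl (fun χ _ => ?_)
    rcases hS.ha χ with h1 | h1 | h1 <;> rw [h1] <;> norm_num
  have hA2c : (A2.card : ℤ) = (BB b).card := by
    have h1 := hsplit a
    rw [hS.hnorm] at h1
    have h2 : ∑ χ ∈ A1, a χ = A1.card := by
      rw [Finset.sum_congr rfl (g := fun _ => (1 : ℤ)) (fun χ hχ => (Finset.mem_filter.1 hχ).2),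
        Finset.sum_const, nsmul_eq_mul, mul_one]
    have h3 : ∑ χ ∈ A2, a χ = -A2.card := by
      rw [Finset.sum_congr rfl (g := fun _ => (-1 : ℤ)) (fun χ hχ => (Finset.mem_filter.1 hχ).2),
        Finset.sum_const, nsmul_eq_mul, mul_neg, mul_one]
    rw [h2, h3, hA1c] at h1
    push_cast at h1
    have h4 : ((2 * (BB b).card + 1 : ℕ) : ℤ) = (e : ℤ) := by rw [hBc]
    push_cast at h4
    omega
  -- degrees
  obtain ⟨θ, hθ⟩ := hYne
  refine ⟨θ, ?_⟩
  have hd : ∀ χ : IrrCharacter G, (χ : G → ℂ) 1 = (charDegree (χ : G → ℂ) : ℂ) := fun χ =>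
    (H20.Defect.charDegree_irr χ).symm
  have hrel := hS.hrel θ hθ 1 (by
    rw [orderOf_one]; exact hp.out.one_lt.ne' ∘ Nat.dvd_one.1)
  have hrel' : (charDegree (θ : G → ℂ) : ℤ) = ∑ χ, a χ * (charDegree (χ : G → ℂ) : ℤ) := by
    rw [hε, hd] at hrel
    have h1 : ((charDegree (θ : G → ℂ) : ℤ) : ℂ) =
        ((∑ χ, a χ * (charDegree (χ : G → ℂ) : ℤ) : ℤ) : ℂ) := by
      push_cast
      rw [Int.cast_one, one_mul] at hrel
      rw [hrel]
      refine Finset.sum_congr rfl (fun χ _ => ?_)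
      rw [hd]
    exact_mod_cast h1
  rw [hsplit] at hrel'
  have hs1 : ∑ χ ∈ A1, (charDegree (χ : G → ℂ) : ℤ) = 1 + (BB b).card * (p + 1) := by
    have h1 : A1 = insert (triv G) (BB b) := by
      ext χ
      rw [hA1, Finset.mem_filter]
      simp only [Finset.mem_univ, true_and]
      exact haB χ
    rw [h1, Finset.sum_insert htB]
    have h2 : (charDegree ((triv G : IrrCharacter G) : G → ℂ) : ℤ) = 1 := by
      have h3 := hd (triv G)
      have h4 : (1 : ℂ) = (charDegree ((triv G : IrrCharacter G) : G → ℂ) : ℂ) := h3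
      exact_mod_cast h4.symm
    have h5 : ∀ χ ∈ BB b, (charDegree (χ : G → ℂ) : ℤ) = p + 1 := by
      intro χ hχ
      obtain ⟨l, hl, rfl⟩ := mem_BB.1 hχ
      have h3 := h.deg_b hl
      rw [hd] at h3
      exact_mod_cast h3
    rw [h2, Finset.sum_congr rfl h5, Finset.sum_const, nsmul_eq_mul]
  have hs2 : (A2.card : ℤ) * (p - 1) ≤ ∑ χ ∈ A2, (charDegree (χ : G → ℂ) : ℤ) := by
    rw [← nsmul_eq_mul, ← Finset.sum_const]
    refine Finset.sum_le_sum (fun χ hχ => ?_)
    have h1 : a χ = -1 := (Finset.mem_filter.1 hχ).2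
    obtain ⟨m, hm⟩ := deg_kap hS.hx0 (isCharacter_of_isIrr χ.2)
    rw [hk1 χ (by rw [h1]; norm_num), h1, hd] at hm
    have h2 : (charDegree (χ : G → ℂ) : ℤ) + (p - 1) * (-1) = p * m := by
      have h3 : (((charDegree (χ : G → ℂ) : ℤ) + (p - 1) * (-1) : ℤ) : ℂ) = ((p * m : ℤ) : ℂ) := by
        push_cast
        push_cast at hm
        exact hm
      exact_mod_cast h3
    have h3 : (0 : ℤ) ≤ p * m := by positivity
    linarith
  have hge : (e : ℤ) ≤ charDegree (θ : G → ℂ) := by
    obtain ⟨m, hm⟩ := deg_kap hS.hx0 (isCharacter_of_isIrr θ.2)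
    rw [hkY θ hθ, hε, hd] at hm
    have h2 : (charDegree (θ : G → ℂ) : ℤ) - e = p * m := by
      have h3 : (((charDegree (θ : G → ℂ) : ℤ) - e : ℤ) : ℂ) = ((p * m : ℤ) : ℂ) := by
        push_cast
        push_cast at hm
        rw [← hm]; ring
      exact_mod_cast h3
    have h3 : (0 : ℤ) ≤ p * m := by positivity
    linarith
  have hBz : 2 * ((BB b).card : ℤ) + 1 = e := by exact_mod_cast hBc
  have hle : (charDegree (θ : G → ℂ) : ℤ) ≤ e := by
    rw [hs1] at hrel'
    rw [hA2c] at hs2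
    nlinarith
  have := le_antisymm hle hge
  exact_mod_cast this

theorem OD.half [Fintype (E →* ℂˣ)] (h : OD E τ ψ p b x0 w) :
    ∃ θ : IrrCharacter G, 2 * charDegree (θ : G → ℂ) + 1 = p := by
  classical
  letI := Fintype.ofFinite (IrrCharacter G)
  letI := Fintype.ofFinite E
  obtain ⟨θ, hθ⟩ := h.exists_theta
  refine ⟨θ, ?_⟩
  have hp1 := hp.out.one_lt
  have hpe : Nat.card E ≤ p - 1 := Nat.le_of_dvd (by omega) h.hdvd
  have hd : ∀ χ : IrrCharacter G, (χ : G → ℂ) 1 = (charDegree (χ : G → ℂ) : ℂ) := fun χ =>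
    (H20.Defect.charDegree_irr χ).symm
  have hone : IsIrrCharacter G (fun _ => 1 : G → ℂ) := isIrrCharacter_one
  -- θ is different from 1, ψ and the b l
  have hθ1 : (fun _ => 1 : G → ℂ) ≠ (θ : G → ℂ) := by
    intro h1
    have h2 := congrFun h1 1
    rw [hd, hθ] at h2
    have h3 : (1 : ℕ) = Nat.card E := by exact_mod_cast h2
    have := h.hE1
    omega
  have hθψ : ψ ≠ (θ : G → ℂ) := by
    intro h1
    have h2 := congrFun h1 1
    rw [hd, hθ, h.deg] at h2
    have h3 : p = Nat.card E := by exact_mod_cast h2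
    omega
  have hθb : ∀ l, l ≠ 1 → ((b l : IrrCharacter G) : G → ℂ) ≠ (θ : G → ℂ) := by
    intro l hl h1
    have h2 := congrFun h1 1
    rw [hd θ, hθ, h.deg_b hl] at h2
    have h3 : p + 1 = Nat.card E := by exact_mod_cast h2
    omega
  have hvan : ∀ x : E, x ≠ 1 → (θ : G → ℂ) x = 0 := by
    refine vanish_of_inner h.toTD (f := fun x : E => (θ : G → ℂ) x) ?_
    intro l hl
    rw [← inner_th l (isClassFunction_of_isIrr θ.2)]
    have h1 : Th E l = (fun _ => 1) + ψ - (b l : G → ℂ) := by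
      funext g
      have := h.hb l hl g
      simp only [Pi.sub_apply, Pi.add_apply]
      rw [this]; ring
    rw [h1, H18.CharOrtho.inner_sub_left, H18.CharOrtho.inner_add_left, inner_irr_ne hone θ.2 hθ1,
      inner_irr_ne h.irr θ.2 hθψ, inner_irr_ne (b l).2 θ.2 (hθb l hl)]
    ring
  -- the product
  have hφ : IsCharacter G (fun g => (θ : G → ℂ) g * conj ((θ : G → ℂ) g)) :=
    isCharacter_mul (isCharacter_of_isIrr θ.2) (isCharacter_conj (isCharacter_of_isIrr θ.2))
  set φ : G → ℂ := fun g => (θ : G → ℂ) g * conj ((θ : G → ℂ) g) with hφd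
  have hφc := isClassFunction_of_isCharacter hφ
  have hφ1 : classInner φ (fun _ => 1) = 1 := by
    have h1 := inner_irr_self θ.2
    rw [classInner] at h1 ⊢
    simp only [hφd, map_one, mul_one]
    exact h1
  have hφb : ∀ l, l ≠ 1 → ∃ m : ℕ, classInner φ (b l : G → ℂ) = 1 + m := by
    intro l hl
    obtain ⟨m, hm⟩ := inner_char_natCast hφ (isCharacter_of_isIrr h.irr)
    refine ⟨m, ?_⟩
    have h0 : classInner (Th E l) φ = 0 := by
      rw [inner_th l hφc, inner_congr_off l (g := fun _ => 0)]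
      · simp [classInner]
      · intro x hx
        simp only [hφd]
        rw [hvan x hx, zero_mul]
    have h1 : Th E l = (fun _ => 1) + ψ - (b l : G → ℂ) := by
      funext g
      have := h.hb l hl g
      simp only [Pi.sub_apply, Pi.add_apply]
      rw [this]; ring
    have h2 : classInner φ (Th E l) = 0 := by
      rw [← H18.CharOrtho.inner_conj_symm, h0, map_zero]
    rw [h1, H18.CharOrtho.inner_sub_right, H18.CharOrtho.inner_add_right, hφ1, hm] at h2
    linear_combination -h2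
  -- degrees
  have hmul : ∀ χ : IrrCharacter G, ∃ m : ℕ, classInner φ (χ : G → ℂ) = m := fun χ =>
    inner_char_natCast hφ (isCharacter_of_isIrr χ.2)
  choose m hm using hmul
  have hexp := congrFun (mem_classFun_expand hφc) 1
  have hφdeg : φ 1 = ((Nat.card E : ℕ) : ℂ) ^ 2 := by
    simp only [hφd]
    rw [hd, hθ]
    rw [Complex.conj_natCast, pow_two]
  rw [hφdeg, Finset.sum_apply] at hexp
  have hexp' : Nat.card E ^ 2 = ∑ χ : IrrCharacter G, m χ * charDegree (χ : G → ℂ) := by
    have h1 : ((Nat.card E ^ 2 : ℕ) : ℂ) = ((∑ χ : IrrCharacter G, m χ * charDegree (χ : G → ℂ) : ℕ) : ℂ) := by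
      push_cast
      rw [hexp]
      refine Finset.sum_congr rfl (fun χ _ => ?_)
      rw [Pi.smul_apply, smul_eq_mul, hm, hd]
    exact_mod_cast h1
  have htB : triv G ∉ BB b := by
    intro h1
    obtain ⟨l, hl, h2⟩ := mem_BB.1 h1
    exact h.b_ne hl h2
  have hge : 1 + (BB b).card * (p + 1) ≤ ∑ χ : IrrCharacter G, m χ * charDegree (χ : G → ℂ) := by
    calc 1 + (BB b).card * (p + 1) ≤ ∑ χ ∈ insert (triv G) (BB b), m χ * charDegree (χ : G → ℂ) := by
          rw [Finset.sum_insert htB]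
          apply Nat.add_le_add
          · have h1 : m (triv G) = 1 := by
              have h2 := hm (triv G)
              rw [hφ1] at h2
              exact_mod_cast h2.symm
            have h2 : charDegree ((triv G : IrrCharacter G) : G → ℂ) = 1 := by
              have h3 := hd (triv G)
              have h4 : (1 : ℂ) = (charDegree ((triv G : IrrCharacter G) : G → ℂ) : ℂ) := h3
              exact_mod_cast h4.symm
            rw [h1, h2]
          · rw [← smul_eq_mul, ← Finset.sum_const]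
            refine Finset.sum_le_sum (fun χ hχ => ?_)
            obtain ⟨l, hl, rfl⟩ := mem_BB.1 hχ
            have h1 : charDegree ((b l : IrrCharacter G) : G → ℂ) = p + 1 := by
              have h3 := h.deg_b hl
              rw [hd] at h3
              exact_mod_cast h3
            obtain ⟨m', hm'⟩ := hφb l hl
            have h2 : m (b l) = 1 + m' := by
              rw [hm] at hm'
              exact_mod_cast hm'
            rw [h1, h2]
            nlinarith
      _ ≤ ∑ χ : IrrCharacter G, m χ * charDegree (χ : G → ℂ) :=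
          Finset.sum_le_univ_sum_of_nonneg (fun _ => Nat.zero_le _)
  have hBc := h.card_BB
  have hE1 := h.hE1
  rw [← hexp', ← hBc] at hge
  have hB0 : 0 < (BB b).card := by omega
  have h5 : p + 1 ≤ 4 * ((BB b).card + 1) := by
    have h6 : (BB b).card * (p + 1) ≤ (BB b).card * (4 * ((BB b).card + 1)) := by nlinarith
    exact Nat.le_of_mul_le_mul_left h6 hB0
  rw [hθ]
  obtain ⟨c, hc⟩ := h.hdvd
  have h7 : c ≠ 0 := by
    rintro rfl
    omega
  have h8 : c ≠ 1 := by
    rintro rfl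
    rw [mul_one] at hc
    have h2 := h.odd
    rw [← hc] at h2
    rcases hp.out.eq_two_or_odd' with h3 | h3
    · omega
    · rw [Nat.odd_iff] at h2 h3
      omega
  have h9 : 2 * Nat.card E ≤ p - 1 := by
    rw [hc, mul_comm]
    exact Nat.mul_le_mul_left _ (by omega)
  omega

end H81.PT
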