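import Cfsg.Agent.Lib.H81.PT3
import Cfsg.Agent.Lib.H84.AvgN
import Cfsg.Agent.Lib.H18.DetChar
import Cfsg.Agent.Lib.H20.Defect

/-!
# The unique irreducible character of degree `p` (H81.PT)
-/

set_option autoImplicit false
set_option linter.unusedSectionVars false
set_option linter.unusedVariables false
set_option linter.style.haveILetI false

namespace H81.PT

open Cfsg H18.CharBasic H18.CharOrtho H18.CharInd Subgroup H21.PLat H21.SelfC
open scoped ComplexConjugate

universe u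

variable {G : Type u} [Group G] [Fintype G] {p : ℕ} [hp : Fact p.Prime] {x0 : G} {E : Subgroup G}

theorem isConj_mul (hx0 : orderOf x0 = p) (hcen : centralizer ({x0} : Set G) = zpowers x0) {x : G}
    (hxN : x ∈ normalizer (zpowers x0 : Set G)) (hxP : x ∉ zpowers x0) {z : G} (hz : z ∈ zpowers x0) :
    ∃ y ∈ zpowers x0, y * x * y⁻¹ = z * x := by
  classical
  letI := Fintype.ofFinite (IrrCharacter G)
  let f : zpowers x0 → zpowers x0 := fun y => ⟨y * (x * (y : G)⁻¹ * x⁻¹),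
    mul_mem y.2 ((mem_normalizer_iff.1 hxN _).1 (inv_mem y.2))⟩
  have hinj : Function.Injective f := by
    intro y y' h
    have h1 : (y : G) * (x * (y : G)⁻¹ * x⁻¹) = y' * (x * (y' : G)⁻¹ * x⁻¹) := congrArg Subtype.val h
    by_contra hne
    have hc : ((y' : G)⁻¹ * y) ∈ zpowers x0 := mul_mem (inv_mem y'.2) y.2
    have hc1 : ((y' : G)⁻¹ * y) ≠ 1 := by
      intro h2
      apply hne
      apply Subtype.ext
      rw [inv_mul_eq_one] at h2
      exact h2.symm
    obtain ⟨k, hk⟩ := mem_zpowers_pw hx0 hc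
    have hk0 : k ≠ 0 := by
      rintro rfl
      rw [pw_zero] at hk
      exact hc1 hk.symm
    apply hxP
    rw [← centralizer_pw_eq hx0 hcen hk0, mem_centralizer_singleton_iff, hk]
    have h2 : (y : G) * x * (y : G)⁻¹ = y' * x * (y' : G)⁻¹ := by
      have h3 := congrArg (· * x) h1
      simp only [mul_assoc, inv_mul_cancel, mul_one] at h3
      rw [mul_assoc, mul_assoc]
      exact h3
    calc x * ((y' : G)⁻¹ * y) = (y' : G)⁻¹ * ((y' * x * (y' : G)⁻¹)) * y := by group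
      _ = (y' : G)⁻¹ * ((y * x * (y : G)⁻¹)) * y := by rw [h2]
      _ = (y' : G)⁻¹ * y * x := by group
  obtain ⟨y, hy⟩ := (Finite.surjective_of_injective hinj) ⟨z, hz⟩
  refine ⟨y, y.2, ?_⟩
  have h1 : (y : G) * (x * (y : G)⁻¹ * x⁻¹) = z := congrArg Subtype.val hy
  rw [← h1]; group

theorem exists_nu (hx0 : orderOf x0 = p) (hcen : centralizer ({x0} : Set G) = zpowers x0)
    (hEN : E ≤ normalizer (zpowers x0 : Set G)) (hEP : ∀ x ∈ E, x ∈ zpowers x0 → x = 1)
    {ψ : G → ℂ} (hψ : IsCharacter G ψ) (hψ1 : ψ 1 = p)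
    (hψP : ∀ k : ZMod p, k ≠ 0 → ψ (pw x0 k) = 0) :
    ∃ ν : E →* ℂˣ, ∀ x : E, x ≠ 1 → ψ x = ν x := by
  classical
  let N := normalizer (zpowers x0 : Set G)
  have hle : zpowers x0 ≤ N := le_normalizer
  haveI hK : ((zpowers x0).subgroupOf N).Normal := normal_in_normalizer
  letI : Fintype ((zpowers x0).subgroupOf N) := Fintype.ofFinite _
  have hres : IsCharacter N (fun g : N => ψ g) := isCharacter_restrict N hψ
  have havg := H84.AvgN.isCharacter_avg ((zpowers x0).subgroupOf N) hres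
  have hcardK : Nat.card ((zpowers x0).subgroupOf N) = p := by
    rw [Nat.card_congr (subgroupOfEquivOfLe hle).toEquiv, card_zp hx0]
  have hp0 : (p : ℂ) ≠ 0 := by exact_mod_cast hp.out.ne_zero
  obtain ⟨F, hF⟩ := H18.CharQuot.exists_hom_of_degree_one havg (by
    rw [hcardK, Fintype.sum_eq_single (1 : (zpowers x0).subgroupOf N)]
    · simp only [OneMemClass.coe_one, mul_one]
      rw [hψ1, inv_mul_cancel₀ hp0]
    · intro n hn
      simp only [mul_one]
      obtain ⟨k, hk⟩ := mem_zpowers_pw hx0 (mem_subgroupOf.1 n.2)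
      rw [← hk]
      apply hψP
      rintro rfl
      apply hn
      apply Subtype.ext
      apply Subtype.ext
      rw [← hk, pw_zero]; rfl)
  refine ⟨F.comp (inclusion hEN), ?_⟩
  intro x hx
  have h1 := congrFun hF (inclusion hEN x)
  have h2 : ∀ n : (zpowers x0).subgroupOf N, ψ ((((n : N) * inclusion hEN x : N)) : G) = ψ x := by
    intro n
    have hxP : (x : G) ∉ zpowers x0 := fun h3 => hx (Subtype.ext (hEP x x.2 h3))
    obtain ⟨y, hy, h3⟩ := isConj_mul hx0 hcen (hEN x.2) hxP (mem_subgroupOf.1 n.2)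
    have h4 : (((n : N) * inclusion hEN x : N) : G) = ((n : N) : G) * (x : G) := rfl
    rw [h4, ← h3]
    exact isClassFunction_of_isCharacter hψ x y
  rw [Finset.sum_congr rfl (fun n _ => h2 n), Finset.sum_const, Finset.card_univ,
    ← Nat.card_eq_fintype_card, hcardK, nsmul_eq_mul, ← mul_assoc, inv_mul_cancel₀ hp0, one_mul] at h1
  rw [h1]
  rfl

/-- an irreducible character of degree `p` vanishes on the elements of order `p` -/
theorem vanish_P (hx0 : orderOf x0 = p) (hcen : centralizer ({x0} : Set G) = zpowers x0)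
    {ψ : G → ℂ} (hψ : IsIrrCharacter G ψ) (hψ1 : ψ 1 = p) (k : ZMod p) (hk : k ≠ 0) :
    ψ (pw x0 k) = 0 := by
  classical
  letI := Fintype.ofFinite (IrrCharacter G)
  obtain ⟨a, Y, ε, e, n, hS⟩ := exists_SC (G := G) hx0 hcen
  let χ : IrrCharacter G := ⟨ψ, hψ⟩
  have hp1 := hp.out.one_lt
  obtain ⟨m, hm⟩ := deg_kap hx0 (isCharacter_of_isIrr χ.2)
  have hχ1 : (χ : G → ℂ) 1 = p := hψ1
  rw [hχ1] at hm
  have hYe : ∀ χ ∈ Y, e ≤ p - 1 ∧ 0 < e := by
    intro χ hχ
    have h1 := hS.hcardY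
    have h2 : 0 < Y.card := Finset.card_pos.2 ⟨χ, hχ⟩
    constructor
    · rw [← h1]; exact Nat.le_mul_of_pos_right _ h2
    · by_contra h3
      have h4 : e = 0 := by omega
      rw [h4, zero_mul] at h1
      omega
  have ha : a χ = 0 := by
    by_contra h0
    rw [kap_const hx0 _ _ (hS.hval χ h0)] at hm
    have h1 : (p : ℤ) + (p - 1) * a χ = p * m := by exact_mod_cast hm
    have h2 : (p : ℤ) ∣ a χ := ⟨1 + a χ - m, by linear_combination -h1⟩
    rcases hS.ha χ with h3 | h3 | h3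
    · exact h0 h3
    · rw [h3] at h2
      have := Int.le_of_dvd one_pos h2
      omega
    · rw [h3] at h2
      have := Int.le_of_dvd one_pos ((dvd_neg).1 h2)
      omega
  have hY : χ ∉ Y := by
    intro hY
    obtain ⟨h5, h6⟩ := hYe χ hY
    rw [kap_pw hx0, hS.hYsum χ hY] at hm
    have h1 : (p : ℤ) + -(ε * e) = p * m := by exact_mod_cast hm
    have h2 : (p : ℤ) ∣ ε * e := ⟨1 - m, by linear_combination -h1⟩
    have h3 : (p : ℤ) ∣ e := by
      rcases hS.hε with h4 | h4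
      · rw [h4, one_mul] at h2; exact h2
      · rw [h4] at h2
        have h7 : -1 * (e : ℤ) = -(e : ℤ) := by ring
        rw [h7, dvd_neg] at h2
        exact h2
    have h4 := Int.le_of_dvd (by omega) h3
    omega
  exact hS.hz χ ha hY k hk

/-- uniqueness gives a real character -/
theorem real_of_unique {ψ : G → ℂ} (hψ : IsIrrCharacter G ψ) (hψ1 : ψ 1 = p)
    (huniq : ∀ χ : G → ℂ, IsIrrCharacter G χ → χ 1 = p → χ = ψ) (g : G) : conj (ψ g) = ψ g := by
  have h1 : IsIrrCharacter G (fun g => conj (ψ g)) := H18.CharQuot.isIrrCharacter_conj hψ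
  exact congrFun (huniq _ h1 (by rw [hψ1]; simp)) g

theorem frattini (hx0 : orderOf x0 = p) (hcen : centralizer ({x0} : Set G) = zpowers x0)
    (M : Subgroup G) [M.Normal] (hM : zpowers x0 ≤ M) :
    normalizer (zpowers x0 : Set G) ⊔ M = ⊤ := by
  have hpg : IsPGroup p (zpowers x0) := by
    rw [IsPGroup.iff_card]
    exact ⟨1, by rw [card_zp hx0, pow_one]⟩
  obtain ⟨Q, hQ⟩ := hpg.exists_le_sylow
  have hQz := Cfsg.Agent.S0995.sylow_of_self_centralizing p x0 hx0 hcen Q (hQ (mem_zpowers x0))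
  have h1 := Sylow.normalizer_sup_eq_top' (N := M) Q (by rw [hQz]; exact hM)
  have h2 : normalizer ((Q : Subgroup G) : Set G) ⊔ M = ⊤ := h1
  rw [hQz] at h2
  exact h2

/-- there are no linear characters -/
theorem no_linear (hx0 : orderOf x0 = p) (hcen : centralizer ({x0} : Set G) = zpowers x0)
    (hEN : E ≤ normalizer (zpowers x0 : Set G)) (hEP : ∀ x ∈ E, x ∈ zpowers x0 → x = 1)
    (hE : ∃ x ∈ E, x ≠ 1) (hN : ∀ g ∈ normalizer (zpowers x0 : Set G), ∃ y ∈ E, ∃ x ∈ zpowers x0, g = y * x)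
    {ψ : G → ℂ} (hψ : IsIrrCharacter G ψ) (hψ1 : ψ 1 = p)
    (huniq : ∀ χ : G → ℂ, IsIrrCharacter G χ → χ 1 = p → χ = ψ) (f : G →* ℂˣ) : f = 1 := by
  classical
  obtain ⟨ν, hν⟩ := exists_nu hx0 hcen hEN hEP (isCharacter_of_isIrr hψ) hψ1 (vanish_P hx0 hcen hψ hψ1)
  have h1 : (fun g => (f g : ℂ) * ψ g) = ψ := by
    apply huniq _ (H18.CharQuot.isIrrCharacter_hom_mul f hψ)
    rw [hψ1]; simp
  have hfE : ∀ x ∈ E, f x = 1 := by
    intro x hx
    by_cases hx1 : x = 1
    · rw [hx1, map_one]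
    · have h2 : (f x : ℂ) * ψ x = ψ x := congrFun h1 x
      have h3 : ψ x = ν ⟨x, hx⟩ := hν ⟨x, hx⟩ (fun h4 => hx1 (congrArg Subtype.val h4))
      rw [h3] at h2
      have h4 : (ν ⟨x, hx⟩ : ℂ) ≠ 0 := Units.ne_zero _
      have h5 : (f x : ℂ) = 1 := by
        apply mul_right_cancel₀ h4
        rw [h2, one_mul]
      exact Units.ext h5
  have hfP : ∀ z ∈ zpowers x0, f z = 1 := by
    intro z hz
    obtain ⟨x, hx, hx1⟩ := hE
    obtain ⟨y, hy, h2⟩ := isConj_mul hx0 hcen (hEN hx) (fun h => hx1 (hEP x hx h)) hz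
    have h3 := congrArg f h2
    rw [map_mul, map_mul, map_mul, map_inv, hfE x hx, mul_one, mul_one, mul_inv_cancel] at h3
    exact h3.symm
  have hfr := frattini hx0 hcen f.ker hfP
  have hNk : normalizer (zpowers x0 : Set G) ≤ f.ker := by
    intro g hg
    obtain ⟨y, hy, x, hx, rfl⟩ := hN g hg
    rw [MonoidHom.mem_ker, map_mul, hfE y hy, hfP x hx, mul_one]
  rw [sup_eq_right.2 hNk] at hfr
  ext g
  have h2 : g ∈ f.ker := by rw [hfr]; trivial
  rw [MonoidHom.mem_ker] at h2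
  rw [h2]; rfl

/-- the character of degree `p` is `1` on the complement -/
theorem psi_one (hx0 : orderOf x0 = p) (hcen : centralizer ({x0} : Set G) = zpowers x0)
    (hEN : E ≤ normalizer (zpowers x0 : Set G)) (hEP : ∀ x ∈ E, x ∈ zpowers x0 → x = 1)
    (hlin : ∀ f : G →* ℂˣ, f = 1) (hp2 : p ≠ 2)
    {ψ : G → ℂ} (hψ : IsCharacter G ψ) (hψ1 : ψ 1 = p)
    (hψP : ∀ k : ZMod p, k ≠ 0 → ψ (pw x0 k) = 0) (hψr : ∀ g, conj (ψ g) = ψ g)
    {π : G → ℂ} (hπ : IsCharacter G π) (hπ1 : π 1 = p)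
    (hπP : ∀ k : ZMod p, k ≠ 0 → π (pw x0 k) = 0) (hπn : ∀ g, ∃ n : ℕ, π g = n) :
    (∀ x : E, x ≠ 1 → ψ x = 1) ∧ (∀ x : E, x ≠ 1 → π x = 1) := by
  classical
  obtain ⟨ν, hν⟩ := exists_nu hx0 hcen hEN hEP hψ hψ1 hψP
  obtain ⟨μ, hμ⟩ := exists_nu hx0 hcen hEN hEP hπ hπ1 hπP
  have hπE : ∀ x : E, x ≠ 1 → π x = 1 := by
    intro x hx
    obtain ⟨n, hn⟩ := hπn x
    have h1 := hμ x hx
    have h2 := hom_norm_one μ x
    rw [← h1, hn, Complex.norm_natCast] at h2
    rw [hn]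
    exact_mod_cast h2
  refine ⟨?_, hπE⟩
  have hν2 : ∀ x : E, (ν x : ℂ) ^ 2 = 1 := by
    intro x
    by_cases hx : x = 1
    · subst hx; simp
    · have h1 : conj (ν x : ℂ) = ν x := by rw [← hν x hx]; exact hψr x
      have h2 := Complex.mul_conj' (ν x : ℂ)
      rw [h1, hom_norm_one] at h2
      rw [pow_two, h2]; simp
  have hfun : (fun x : E => ψ x) = (fun x : E => (ν x : ℂ) * π x) := by
    funext x
    by_cases hx : x = 1
    · subst hx
      simp only [OneMemClass.coe_one, map_one, Units.val_one, one_mul]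
      rw [hψ1, hπ1]
    · rw [hν x hx, hπE x hx, mul_one]
  have hdet1 : ∀ {χ : G → ℂ}, IsCharacter G χ → ∀ g, detChar χ g = 1 := by
    intro χ hχ g
    obtain ⟨f, hf⟩ := H18.DetChar.exists_detHom hχ
    rw [hf, hlin f]; simp
  have hνp : ∀ x : E, (ν x : ℂ) ^ p = 1 := by
    intro x
    have h1 := H18.DetChar.detChar_comp E.subtype hψ x
    have h2 := H18.DetChar.detChar_comp E.subtype hπ x
    rw [hdet1 hψ] at h1
    rw [hdet1 hπ] at h2
    have h3 := H18.DetChar.detChar_hom_mul (G := E) ν (χ := fun y : E => π y)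
      (isCharacter_restrict E hπ) (d := p) (by simpa using hπ1) x
    have h4 : (fun y : E => ψ (E.subtype y)) = (fun g : E => (ν g : ℂ) * π g) := hfun
    rw [h4, h3] at h1
    have h5 : detChar (fun y : E => π y) x = 1 := h2
    rw [h5, mul_one] at h1
    exact h1
  intro x hx
  rw [hν x hx]
  obtain ⟨k, hk⟩ := hp.out.odd_of_ne_two hp2
  have h1 := hνp x
  rw [hk, pow_succ, pow_mul, hν2, one_pow, one_mul] at h1
  exact h1

end H81.PT
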