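import Cfsg.Agent.Lib.H81.PT1
import Cfsg.Agent.Lib.H21.SylowTools
import Cfsg.Agent.S0105

/-!
# Local structure: TI subgroups of index two in their normalizers in simple groups (H81.PT)
-/

set_option autoImplicit false
set_option linter.unusedSectionVars false
set_option linter.unusedVariables false
set_option linter.style.haveILetI false

namespace H81.PT

open Subgroup

universe u

variable {G : Type u} [Group G] [Fintype G] {E : Subgroup G} {τ : G}

theorem central_eq_one [IsSimpleGroup G] (hG : ¬ IsMulCommutative G) {q : ℕ} [Fact q.Prime]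
    (P : Sylow q G) (hP : ∀ x ∈ P, ∀ y ∈ P, x * y = y * x) {x : G} (hx : x ∈ P)
    (hxN : ∀ g ∈ normalizer ((P : Subgroup G) : Set G), g * x = x * g) : x = 1 := by
  have hPc : IsMulCommutative P := ⟨⟨fun a b => Subtype.ext (hP a a.2 b b.2)⟩⟩
  obtain ⟨N, hN, ⟨e⟩⟩ := Cfsg.Agent.S0105.result P hPc
  rcases IsSimpleGroup.eq_bot_or_eq_top_of_normal N hN with h | h
  · exfalso
    apply hG
    refine ⟨⟨fun a b => ?_⟩⟩
    have h1 : e (a * b : G) = e (b * a : G) := by
      rw [QuotientGroup.mk_mul, QuotientGroup.mk_mul, map_mul, map_mul]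
      apply Subtype.ext
      exact hP _ (e a).2.1 _ (e b).2.1
    have h2 := e.injective h1
    rw [QuotientGroup.eq, h, mem_bot, inv_mul_eq_one] at h2
    exact h2
  · have h1 : Subsingleton (G ⧸ N) := by
      rw [h]; exact QuotientGroup.subsingleton_quotient_top
    have h2 : x ∈ ((P : Subgroup G) ⊓ Subgroup.centralizer (Subgroup.normalizer (P : Set G) : Set G) : Subgroup G) := by
      refine mem_inf.2 ⟨hx, ?_⟩
      rw [mem_centralizer_iff]
      intro g hg
      exact hxN g hg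
    have h3 : e.symm ⟨x, h2⟩ = e.symm 1 := Subsingleton.elim _ _
    exact congrArg Subtype.val (e.symm.injective h3)

theorem TD.index_two (h : TD E τ) : (E.subgroupOf (normalizer (E : Set G))).index = 2 := by
  have h1 : E ≤ normalizer (E : Set G) := le_normalizer
  have h3 := card_mul_index (E.subgroupOf (normalizer (E : Set G)))
  rw [h.card, Nat.card_congr (subgroupOfEquivOfLe h1).toEquiv] at h3
  have h4 : 0 < Nat.card E := Nat.card_pos
  have h5 : Nat.card E * (E.subgroupOf (normalizer (E : Set G))).index = Nat.card E * 2 := by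
    rw [h3]; ring
  exact Nat.eq_of_mul_eq_mul_left h4 h5

theorem TD.sq_mem (h : TD E τ) {z : G} (hz : z ∈ normalizer (E : Set G)) : z * z ∈ E := by
  have h1 := Subgroup.mul_self_mem_of_index_two h.index_two ⟨z, hz⟩
  exact mem_subgroupOf.1 h1

theorem TD.mem_of_odd (h : TD E τ) {z : G} (hz : z ∈ normalizer (E : Set G)) (hodd : Odd (orderOf z)) :
    z ∈ E := by
  obtain ⟨k, hk⟩ := hodd
  have h1 : z = (z * z) ^ (k + 1) := by
    have h2 : z ^ (2 * k + 1) = 1 := by rw [← hk, pow_orderOf_eq_one]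
    calc z = z ^ (2 * k + 1) * z := by rw [h2, one_mul]
      _ = (z * z) ^ (k + 1) := by rw [← pow_two, ← pow_mul, ← pow_succ]; congr 1
  rw [h1]
  exact pow_mem (h.sq_mem hz) _

/-- an element with a nontrivial element of `E` in its centralizer normalizes `E` -/
theorem TD.cent (h : TD E τ) {x y : G} (hx : x ∈ E) (hx1 : x ≠ 1) (hy : y * x = x * y) :
    y ∈ normalizer (E : Set G) := by
  by_contra hn
  apply hx1
  apply h.ti y hn x hx
  rw [mul_assoc, ← hy, ← mul_assoc, inv_mul_cancel, one_mul]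
  exact hx

theorem TD.sylow_le (h : TD E τ) {q : ℕ} [hq : Fact q.Prime] (hq2 : q ≠ 2) (Q : Sylow q G) {x : G}
    (hxQ : x ∈ Q) (hxE : x ∈ E) (hx1 : x ≠ 1) : (Q : Subgroup G) ≤ E := by
  have hodd : ∀ z ∈ Q, Odd (orderOf z) := by
    intro z hz
    obtain ⟨k, hk⟩ := (IsPGroup.iff_orderOf.1 Q.2) ⟨z, hz⟩
    rw [Subgroup.orderOf_mk] at hk
    rw [hk]
    exact (hq.out.odd_of_ne_two hq2).pow
  have : Nontrivial Q := ⟨⟨⟨x, hxQ⟩, 1, fun h1 => hx1 (congrArg Subtype.val h1)⟩⟩
  have hcn := Q.2.center_nontrivial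
  obtain ⟨⟨z, hz⟩, hz1⟩ := exists_ne (1 : Subgroup.center Q)
  have hz1' : (z : G) ≠ 1 := fun h1 => hz1 (Subtype.ext (Subtype.ext h1))
  have hzc : ∀ w ∈ Q, w * (z : G) = (z : G) * w := by
    intro w hw
    have := (Subgroup.mem_center_iff.1 hz) ⟨w, hw⟩
    exact congrArg Subtype.val this
  have hzE : (z : G) ∈ E := h.mem_of_odd (h.cent hxE hx1 (hzc x hxQ).symm) (hodd z z.2)
  intro y hy
  exact h.mem_of_odd (h.cent hzE hz1' (hzc y hy)) (hodd y hy)

theorem TD.normalizer_le (h : TD E τ) {Q : Subgroup G} (hQ : Q ≤ E) {x : G} (hx : x ∈ Q) (hx1 : x ≠ 1) :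
    normalizer (Q : Set G) ≤ normalizer (E : Set G) := by
  intro g hg
  by_contra hn
  apply hx1
  apply h.ti g hn x (hQ hx)
  have h1 := (mem_normalizer_iff.1 (inv_mem hg) x).1 hx
  rw [inv_inv] at h1
  exact hQ h1

theorem TD.comm_all (h : TD E τ) {x : G} (hx : x ∈ E) (hτx : τ⁻¹ * x * τ = x) :
    ∀ g ∈ normalizer (E : Set G), g * x = x * g := by
  intro g hg
  by_cases hgE : g ∈ E
  · exact h.ab g hgE x hx
  · have h1 := h.mul_mem hg hgE
    have h2 := h.ab _ h1 x hx
    have h3 : x * τ = τ * x := by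
      calc x * τ = τ * (τ⁻¹ * x * τ) := by group
        _ = τ * x := by rw [hτx]
    calc g * x = τ * (τ⁻¹ * g * x) := by group
      _ = τ * (x * (τ⁻¹ * g)) := by rw [h2]
      _ = (τ * x) * (τ⁻¹ * g) := by group
      _ = (x * τ) * (τ⁻¹ * g) := by rw [h3]
      _ = x * g := by group

theorem TD.no_fixed (h : TD E τ) [IsSimpleGroup G] (hG : ¬ IsMulCommutative G) {q : ℕ}
    [hq : Fact q.Prime] (hq2 : q ≠ 2) {x : G} (hx : x ∈ E) (hxo : orderOf x = q) :
    τ⁻¹ * x * τ ≠ x := by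
  intro hτx
  have hx1 : x ≠ 1 := by
    rintro rfl
    rw [orderOf_one] at hxo
    exact hq.out.one_lt.ne hxo
  have hpg : IsPGroup q (zpowers x) := by
    rw [IsPGroup.iff_card]
    exact ⟨1, by rw [Nat.card_zpowers, hxo, pow_one]⟩
  obtain ⟨Q, hQ⟩ := hpg.exists_le_sylow
  have hxQ : x ∈ Q := hQ (mem_zpowers x)
  have hQE := h.sylow_le hq2 Q hxQ hx hx1
  apply hx1
  refine central_eq_one hG Q (fun a ha b hb => h.ab a (hQE ha) b (hQE hb)) hxQ ?_
  intro g hg
  exact h.comm_all hx hτx g (h.normalizer_le hQE hxQ hx1 hg)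

theorem TD.inverts (h : TD E τ) [IsSimpleGroup G] (hG : ¬ IsMulCommutative G)
    (hodd : Odd (Nat.card E)) : ∀ x ∈ E, τ⁻¹ * x * τ = x⁻¹ := by
  have hfix : ∀ x ∈ E, τ⁻¹ * x * τ = x → x = 1 := by
    intro x hx hτx
    by_contra hx1
    have h1 : orderOf x ≠ 1 := fun h2 => hx1 (orderOf_eq_one_iff.1 h2)
    obtain ⟨q, hq, hqx⟩ := Nat.exists_prime_and_dvd h1
    haveI : Fact q.Prime := ⟨hq⟩
    obtain ⟨c, hc⟩ := hqx
    have hc0 : 0 < c := by
      rcases Nat.eq_zero_or_pos c with h2 | h2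
      · exfalso
        rw [h2, mul_zero] at hc
        exact (orderOf_pos x).ne' hc
      · exact h2
    have h2 : orderOf (x ^ c) = q := by
      rw [orderOf_pow_of_dvd hc0.ne' (by rw [hc]; exact dvd_mul_left _ _), hc, Nat.mul_div_cancel _ hc0]
    have hq2 : q ≠ 2 := by
      rintro rfl
      have h3 : orderOf (⟨x, hx⟩ : E) ∣ Nat.card E := orderOf_dvd_natCard _
      rw [Subgroup.orderOf_mk] at h3
      have h4 : 2 ∣ Nat.card E := (Dvd.intro c hc.symm).trans h3
      rw [Nat.odd_iff] at hodd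
      omega
    refine h.no_fixed hG hq2 (pow_mem hx c) h2 ?_
    have h5 : τ⁻¹ * x ^ c * τ = (τ⁻¹ * x * τ) ^ c := by
      have := conj_pow (i := c) (a := τ⁻¹) (b := x)
      rw [inv_inv] at this
      exact this.symm
    rw [h5, hτx]
  intro x hx
  have hs : τ⁻¹ * x * τ ∈ E := (cj E τ h.hτ ⟨x, hx⟩).2
  have h2 : τ⁻¹ * (τ⁻¹ * x * τ) * τ = x := by
    have h3 := h.ab _ (h.sq_mem h.hτ) x hx
    calc τ⁻¹ * (τ⁻¹ * x * τ) * τ = (τ * τ)⁻¹ * (x * (τ * τ)) := by group
      _ = (τ * τ)⁻¹ * ((τ * τ) * x) := by rw [h3]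
      _ = x := by group
  have h3 := hfix (x * (τ⁻¹ * x * τ)) (MulMemClass.mul_mem hx hs) (by
    calc τ⁻¹ * (x * (τ⁻¹ * x * τ)) * τ = (τ⁻¹ * x * τ) * (τ⁻¹ * (τ⁻¹ * x * τ) * τ) := by group
      _ = (τ⁻¹ * x * τ) * x := by rw [h2]
      _ = x * (τ⁻¹ * x * τ) := h.ab _ hs x hx)
  exact (inv_eq_of_mul_eq_one_right h3).symm

/-- if `τ` centralizes `E` then `|E| ≤ 2` -/
theorem TD.card_le_two (h : TD E τ) [IsSimpleGroup G] (hG : ¬ IsMulCommutative G)
    (hcyc : ∃ w ∈ E, ∀ y ∈ E, y ∈ zpowers w) (hc : ∀ x ∈ E, τ⁻¹ * x * τ = x) : Nat.card E ≤ 2 := by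
  -- no odd prime divides the order
  have h2p : ∀ q : ℕ, q.Prime → q ∣ Nat.card E → q = 2 := by
    intro q hq hqE
    by_contra hq2
    haveI : Fact q.Prime := ⟨hq⟩
    obtain ⟨x, hx⟩ := exists_prime_orderOf_dvd_card' q hqE
    exact h.no_fixed hG hq2 x.2 (by rw [Subgroup.orderOf_coe, hx]) (hc x x.2)
  have hpow : ∃ k, Nat.card E = 2 ^ k :=
    ⟨_, Nat.eq_prime_pow_of_unique_prime_dvd Nat.card_pos.ne' (fun {q} hq hd => h2p q hq hd)⟩
  by_contra hgt
  push Not at hgt
  obtain ⟨w, hw, hgen⟩ := hcyc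
  have hEw : E = zpowers w := le_antisymm hgen ((zpowers_le).2 hw)
  have how : orderOf w = Nat.card E := by rw [← Nat.card_zpowers, ← hEw]
  have hw2 : w * w ≠ 1 := by
    intro h1
    have h3 : orderOf w ∣ 2 := orderOf_dvd_of_pow_eq_one (by rw [pow_two, h1])
    have := Nat.le_of_dvd (by norm_num) h3
    omega
  -- N is self-normalizing
  set N := normalizer (E : Set G) with hN
  have hNN : normalizer (N : Set G) ≤ N := by
    intro g hg
    by_contra hn
    apply hw2
    apply h.ti g hn _ (MulMemClass.mul_mem hw hw)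
    have h1 : g⁻¹ * w * g ∈ N := by
      have h3 := (mem_normalizer_iff.1 (inv_mem hg) w).1 (le_normalizer hw)
      rwa [inv_inv] at h3
    have h2 := h.sq_mem h1
    have h3 : g⁻¹ * (w * w) * g = (g⁻¹ * w * g) * (g⁻¹ * w * g) := by group
    rw [h3]; exact h2
  -- N is a 2-group
  obtain ⟨k, hk⟩ := hpow
  have hNc : Nat.card N = 2 ^ (k + 1) := by rw [hN, h.card, hk, pow_succ]; ring
  have hNp : IsPGroup 2 N := IsPGroup.of_card hNc
  obtain ⟨S, hS⟩ := hNp.exists_le_sylow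
  have hNS : N = S := by
    by_contra hne
    have h1 : N.subgroupOf (S : Subgroup G) < ⊤ := by
      rw [lt_top_iff_ne_top]
      intro h2
      rw [subgroupOf_eq_top] at h2
      exact hne (le_antisymm hS h2)
    haveI : Group.IsNilpotent S := S.2.isNilpotent
    have h2 := Group.normalizerCondition_of_isNilpotent (G := S) _ h1
    obtain ⟨s, hs1, hs2⟩ := Set.exists_of_ssubset (SetLike.coe_ssubset_coe.2 h2)
    apply hs2
    rw [SetLike.mem_coe, mem_subgroupOf]
    apply hNN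
    rw [mem_normalizer_iff]
    intro y
    constructor
    · intro hy
      have h3 := (mem_normalizer_iff.1 hs1 ⟨y, hS hy⟩).1 (mem_subgroupOf.2 hy)
      exact mem_subgroupOf.1 h3
    · intro hy
      have hyS : y ∈ (S : Subgroup G) := by
        have h3 : y = (s : G)⁻¹ * (s * y * (s : G)⁻¹) * s := by group
        rw [h3]
        exact MulMemClass.mul_mem (MulMemClass.mul_mem (inv_mem s.2) (hS hy)) s.2
      have h3 := (mem_normalizer_iff.1 hs1 ⟨y, hyS⟩).2 (mem_subgroupOf.2 hy)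
      exact mem_subgroupOf.1 h3
  -- the Sylow subgroup is central in its normalizer
  have hab : ∀ x ∈ N, ∀ y ∈ N, x * y = y * x := by
    intro x hx y hy
    by_cases hyE : y ∈ E
    · exact h.comm_all hyE (hc y hyE) x hx
    · by_cases hxE : x ∈ E
      · exact (h.comm_all hxE (hc x hxE) y hy).symm
      · have h1 := h.mul_mem hx hxE
        have h2 := h.mul_mem hy hyE
        have e1 := h.comm_all h1 (hc _ h1) y hy
        have e2 := h.comm_all h2 (hc _ h2) τ h.hτ
        -- y = τ b, x = τ a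
        calc x * y = τ * ((τ⁻¹ * x) * y) := by group
          _ = τ * (y * (τ⁻¹ * x)) := by rw [e1]
          _ = τ * (τ * (τ⁻¹ * y) * (τ⁻¹ * x)) := by group
          _ = τ * ((τ⁻¹ * y) * τ * (τ⁻¹ * x)) := by rw [e2]
          _ = y * x := by group
  have hu : (w * w) ∈ (S : Subgroup G) := by rw [← hNS]; exact le_normalizer (MulMemClass.mul_mem hw hw)
  apply hw2
  refine central_eq_one hG S (fun a ha b hb => ?_) hu ?_
  · apply hab
    · rw [hNS]; exact ha
    · rw [hNS]; exact hb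
  · intro g hg
    rw [← hNS] at hg
    apply hab g (hNN hg) _ (le_normalizer (MulMemClass.mul_mem hw hw))

/-- a linear character not fixed by `τ` -/
theorem TD.exists_hom (h : TD E τ) {x : G} (hx : x ∈ E) (hτx : τ⁻¹ * x * τ ≠ x) :
    ∃ l : E →* ℂˣ, l ≠ l.comp (cj E τ h.hτ) := by
  letI : CommGroup E := { (inferInstance : Group E) with
    mul_comm := fun a b => Subtype.ext (h.ab a a.2 b b.2) }
  have h1 : (⟨x, hx⟩ : E)⁻¹ * cj E τ h.hτ ⟨x, hx⟩ ≠ 1 := by
    intro h2
    rw [inv_mul_eq_one] at h2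
    exact hτx (congrArg Subtype.val h2).symm
  obtain ⟨φ, hφ⟩ := CommGroup.exists_apply_ne_one_of_hasEnoughRootsOfUnity E ℂ h1
  refine ⟨φ, ?_⟩
  intro h2
  apply hφ
  have h3 := DFunLike.congr_fun h2 ⟨x, hx⟩
  rw [MonoidHom.comp_apply] at h3
  rw [map_mul, map_inv, ← h3, inv_mul_cancel]

end H81.PT
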