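import Mathlib
import Cfsg.Agent.Lib.H14.PrimeSylow
import Cfsg.Agent.Lib.H75.Pd2

/-!
# Transitive groups of prime degree: some facts (H81.PT)
-/

set_option autoImplicit false
set_option linter.unusedSectionVars false
set_option linter.unusedVariables false
set_option linter.style.haveILetI false

namespace H81.PT

open Subgroup MulAction

universe u

/-- an element of order `p - 1` all of whose nontrivial powers fix exactly one point is an odd
permutation -/
theorem not_full {α : Type u} [Fintype α] [DecidableEq α] {p : ℕ} [hp : Fact p.Prime]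
    (hα : Fintype.card α = p) (hp2 : p ≠ 2) {w : Equiv.Perm α} (hw : orderOf w = p - 1)
    (hsgn : Equiv.Perm.sign w = 1)
    (hfix : ∀ g ∈ zpowers w, g ≠ 1 → Nat.card (fixedBy α g) = 1) : False := by
  classical
  have hp1 := hp.out.one_lt
  have hp3 : 3 ≤ p := by omega
  have hw1 : w ≠ 1 := by
    rintro rfl
    rw [orderOf_one] at hw
    omega
  obtain ⟨a, ha⟩ : ∃ a, w a = a := by
    have h1 := hfix w (mem_zpowers w) hw1
    have h2 : Nonempty (fixedBy α w) := by
      by_contra h3
      rw [not_nonempty_iff] at h3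
      rw [Nat.card_of_isEmpty] at h1
      exact absurd h1 (by norm_num)
    obtain ⟨a, ha⟩ := h2
    exact ⟨a, ha⟩
  have hga : ∀ g ∈ zpowers w, g a = a := by
    intro g hg
    obtain ⟨k, rfl⟩ := mem_zpowers_iff.1 hg
    exact Equiv.Perm.zpow_apply_eq_self_of_apply_eq_self ha k
  have huniq : ∀ g ∈ zpowers w, g ≠ 1 → ∀ x, g x = x → x = a := by
    intro g hg hg1 x hx
    have h1 := hfix g hg hg1
    rw [Nat.card_eq_one_iff_unique] at h1
    have h2 := h1.1.elim (⟨x, hx⟩ : fixedBy α g) ⟨a, hga g hg⟩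
    exact congrArg Subtype.val h2
  obtain ⟨x, hx⟩ : ∃ x, x ≠ a := by
    have h1 : 1 < Fintype.card α := by omega
    exact Fintype.exists_ne_of_one_lt_card h1 a
  let f : zpowers w → {y : α // y ≠ a} := fun g => ⟨(g : Equiv.Perm α) x, fun h => hx (by
    apply (g : Equiv.Perm α).injective
    rw [h, hga g g.2])⟩
  have hinj : Function.Injective f := by
    intro g g' h
    have h1 : (g : Equiv.Perm α) x = (g' : Equiv.Perm α) x := congrArg Subtype.val h
    by_contra hne
    apply hx
    apply huniq ((g' : Equiv.Perm α)⁻¹ * g) (mul_mem (inv_mem g'.2) g.2)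
    · intro h2
      rw [inv_mul_eq_one] at h2
      exact hne (Subtype.ext h2.symm)
    · rw [Equiv.Perm.mul_apply, h1]
      exact Equiv.symm_apply_apply (g' : Equiv.Perm α) x
  have hcard : Nat.card (zpowers w) = Nat.card {y : α // y ≠ a} := by
    rw [Nat.card_zpowers, hw, Nat.card_eq_fintype_card, Fintype.card_subtype_compl,
      Fintype.card_subtype_eq, hα]
  have hbij : Function.Bijective f := (Nat.bijective_iff_injective_and_card f).2 ⟨hinj, hcard⟩
  have hcyc : w.IsCycle := by
    refine ⟨x, fun h => hx (huniq w (mem_zpowers w) hw1 x h), ?_⟩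
    intro y hy
    have hya : y ≠ a := fun h => hy (by rw [h, ha])
    obtain ⟨g, hg⟩ := hbij.2 ⟨y, hya⟩
    obtain ⟨k, hk⟩ := mem_zpowers_iff.1 g.2
    refine ⟨k, ?_⟩
    rw [hk]
    exact congrArg Subtype.val hg
  have h1 := hcyc.sign
  rw [← hcyc.orderOf, hw, hsgn] at h1
  have h2 : Even (p - 1) := hp.out.even_sub_one hp2
  rw [h2.neg_one_pow] at h1
  exact absurd h1 (by decide)

/-- simplicity -/
theorem simple_of_perfect {α : Type u} [Fintype α] [DecidableEq α] {p : ℕ} [hp : Fact p.Prime]
    (hα : Fintype.card α = p) (G : Subgroup (Equiv.Perm α)) [IsPretransitive G α]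
    (hperf : commutator G = ⊤) (P : Sylow p G) (E : Subgroup G)
    (hN : ∀ g ∈ normalizer ((P : Subgroup G) : Set G), ∃ y ∈ E, ∃ x ∈ (P : Subgroup G), g = y * x)
    (hE : ∀ x ∈ E, ∀ y ∈ E, x * y = y * x) : IsSimpleGroup G := by
  classical
  have hpp := hp.out
  have hPc := H14.PrimeSylow.sylow_card hα G P
  haveI : Nontrivial G := by
    by_contra h
    rw [not_nontrivial_iff_subsingleton] at h
    have h1 : Nat.card P ∣ Nat.card G := Subgroup.card_subgroup_dvd_card _
    rw [hPc, Nat.card_unique, Nat.dvd_one] at h1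
    exact hpp.ne_one h1
  refine ⟨fun M hM => ?_⟩
  by_cases hM1 : M = ⊥
  · exact Or.inl hM1
  right
  haveI : IsPretransitive M α := H14.PrimeSylow.transitive_of_normal hα G M hM hM1
  have hpM : p ∣ Nat.card M := by
    have h1 : 0 < Fintype.card α := by rw [hα]; exact hpp.pos
    obtain ⟨a⟩ := Fintype.card_pos_iff.1 h1
    have h2 := index_stabilizer_of_transitive M a
    rw [Nat.card_eq_fintype_card, hα] at h2
    rw [← h2]
    exact Subgroup.index_dvd_card _
  -- P is contained in M
  obtain ⟨x, hx⟩ := exists_prime_orderOf_dvd_card' p hpM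
  have hxG : orderOf (x : G) = p := by rw [Subgroup.orderOf_coe, hx]
  have hpg : IsPGroup p (zpowers (x : G)) := by
    rw [IsPGroup.iff_card]
    exact ⟨1, by rw [Nat.card_zpowers, hxG, pow_one]⟩
  obtain ⟨Q, hQ⟩ := hpg.exists_le_sylow
  have hQx : (Q : Subgroup G) = zpowers (x : G) := by
    symm
    apply Subgroup.eq_of_le_of_card_ge hQ
    rw [Nat.card_zpowers, hxG]
    exact (H14.PrimeSylow.sylow_card hα G Q).le
  have hQM : (Q : Subgroup G) ≤ M := by
    rw [hQx, zpowers_le]; exact x.2
  obtain ⟨g, hg⟩ := MulAction.exists_smul_eq G Q P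
  have hPM : (P : Subgroup G) ≤ M := by
    intro y hy
    rw [← hg] at hy
    have h1 : y ∈ ((g • Q : Sylow p G) : Subgroup G) := hy
    rw [Sylow.coe_subgroup_smul] at h1
    obtain ⟨z, hz, rfl⟩ := h1
    exact hM.conj_mem z (hQM hz) g
  have hfr := Sylow.normalizer_sup_eq_top' (N := M) P hPM
  -- the quotient is abelian
  have hcomm : commutator G ≤ M := by
    rw [commutator_eq_closure]
    rw [closure_le]
    rintro _ ⟨a, b, rfl⟩
    have key : ∀ g : G, ∃ y ∈ E, (QuotientGroup.mk g : G ⧸ M) = QuotientGroup.mk y := by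
      intro g
      have h1 : g ∈ normalizer ((P : Subgroup G) : Set G) ⊔ M := by
        have : normalizer ((P : Subgroup G) : Set G) ⊔ M = ⊤ := hfr
        rw [this]; trivial
      rw [Subgroup.mem_sup_of_normal_right] at h1
      obtain ⟨n, hn, m, hm, rfl⟩ := h1
      obtain ⟨y, hy, z, hz, rfl⟩ := hN n hn
      refine ⟨y, hy, ?_⟩
      rw [QuotientGroup.eq]
      have h2 : (y * z * m)⁻¹ * y = (z * m)⁻¹ := by group
      rw [h2]
      exact inv_mem (mul_mem (hPM hz) hm)
    obtain ⟨y, hy, h1⟩ := key a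
    obtain ⟨z, hz, h2⟩ := key b
    rw [SetLike.mem_coe, ← QuotientGroup.eq_one_iff]
    rw [commutatorElement_def, QuotientGroup.mk_mul, QuotientGroup.mk_mul, QuotientGroup.mk_mul,
      QuotientGroup.mk_inv, QuotientGroup.mk_inv, h1, h2, ← QuotientGroup.mk_inv,
      ← QuotientGroup.mk_inv, ← QuotientGroup.mk_mul, ← QuotientGroup.mk_mul,
      ← QuotientGroup.mk_mul, hE y hy z hz]
    have h3 : z * y * y⁻¹ * z⁻¹ = 1 := by group
    rw [h3]; rfl
  rw [eq_top_iff, ← hperf]
  exact hcomm

end H81.PT
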