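import Cfsg.Agent.Lib.H81.PT2
import Cfsg.Agent.Lib.H81.PT4
import Cfsg.Agent.Lib.H81.PT5
import Cfsg.Agent.Lib.H81.PT6
import Cfsg.Agent.Lib.H81.PT7
import Cfsg.Agent.Lib.H21.PSLZass
import Cfsg.Agent.Lib.H21.SC2
import Cfsg.Agent.Lib.H4.PermChar
import Cfsg.Agent.S4504
import Cfsg.Agent.S4706
import Cfsg.Agent.S0806

/-!
# Transitive groups of prime degree with a unique irreducible character of degree `p` (H81.PT)
-/

set_option autoImplicit false
set_option linter.unusedSectionVars false
set_option linter.unusedVariables false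
set_option linter.style.haveILetI false

namespace H81.PT

open Cfsg H18.CharBasic H18.CharOrtho H18.CharInd Subgroup MulAction H21.PLat H21.SelfC
open scoped ComplexConjugate

universe u

/-! ### centralizers of involutions in `SL(2, 2^a)` -/

section SL
variable {F : Type} [Field F] [Fintype F]

theorem two_eq_zero {a : ℕ} (hF : Fintype.card F = 2 ^ a) : (2 : F) = 0 := by
  have h1 : ((Fintype.card F : ℕ) : F) = 0 := Nat.cast_card_eq_zero F
  rw [hF, Nat.cast_pow] at h1
  exact_mod_cast eq_zero_of_pow_eq_zero h1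

theorem sl_cent {a : ℕ} (hF : Fintype.card F = 2 ^ a)
    (U : Matrix.SpecialLinearGroup (Fin 2) F) (hU1 : U ≠ 1) (hU2 : U * U = 1) :
    Fintype.card F ≤ Nat.card (centralizer ({U} : Set (Matrix.SpecialLinearGroup (Fin 2) F))) := by
  classical
  have h2 := two_eq_zero hF
  have hm : (U : Matrix (Fin 2) (Fin 2) F) * (U : Matrix (Fin 2) (Fin 2) F) = 1 := by
    have := congrArg (fun V : Matrix.SpecialLinearGroup (Fin 2) F => (V : Matrix (Fin 2) (Fin 2) F)) hU2
    simpa using this
  have hd : (U : Matrix (Fin 2) (Fin 2) F) 0 0 * (U : Matrix (Fin 2) (Fin 2) F) 1 1 -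
      (U : Matrix (Fin 2) (Fin 2) F) 0 1 * (U : Matrix (Fin 2) (Fin 2) F) 1 0 = 1 := by
    have := U.2
    rwa [Matrix.det_fin_two] at this
  set A := (U : Matrix (Fin 2) (Fin 2) F) with hA
  have e00 : A 0 0 * A 0 0 + A 0 1 * A 1 0 = 1 := by
    have := congrFun (congrFun hm 0) 0
    simpa [Matrix.mul_apply, Fin.sum_univ_two] using this
  have e01 : A 0 0 * A 0 1 + A 0 1 * A 1 1 = 0 := by
    have := congrFun (congrFun hm 0) 1
    simpa [Matrix.mul_apply, Fin.sum_univ_two] using this
  have e10 : A 1 0 * A 0 0 + A 1 1 * A 1 0 = 0 := by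
    have := congrFun (congrFun hm 1) 0
    simpa [Matrix.mul_apply, Fin.sum_univ_two] using this
  have e11 : A 1 0 * A 0 1 + A 1 1 * A 1 1 = 1 := by
    have := congrFun (congrFun hm 1) 1
    simpa [Matrix.mul_apply, Fin.sum_univ_two] using this
  have htr : A 1 1 = A 0 0 := by
    have hs2 : (A 0 0 + A 1 1) * (A 0 0 + A 1 1) = 0 := by
      linear_combination e00 + e11 + 2 * hd + 2 * h2
    have hs : A 0 0 + A 1 1 = 0 := mul_self_eq_zero.1 hs2
    linear_combination hs - (A 0 0) * h2
  have hdet : ∀ t : F, (1 + t • (A - 1) : Matrix (Fin 2) (Fin 2) F).det = 1 := by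
    intro t
    rw [Matrix.det_fin_two]
    simp only [Matrix.add_apply, Matrix.smul_apply, Matrix.sub_apply, Matrix.one_apply,
      smul_eq_mul]
    simp only [if_true, Fin.isValue, zero_ne_one, one_ne_zero, if_false, sub_zero, zero_add]
    rw [htr]
    linear_combination (t * (A 0 0 - 1) - t ^ 2 * (A 0 0 - 1)) * h2 +
        t ^ 2 * e00 - t ^ 2 * (A 0 1 * A 1 0) * h2
  let V : F → Matrix.SpecialLinearGroup (Fin 2) F := fun t => ⟨1 + t • (A - 1), hdet t⟩
  have hcen : ∀ t : F, V t ∈ centralizer ({U} : Set (Matrix.SpecialLinearGroup (Fin 2) F)) := by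
    intro t
    refine mem_centralizer_singleton_iff.2 ?_
    apply Subtype.ext
    change (1 + t • (A - 1)) * A = A * (1 + t • (A - 1))
    rw [add_mul, mul_add, one_mul, mul_one, smul_mul_assoc, mul_smul_comm, sub_mul, mul_sub,
        one_mul, mul_one]
  let f : F → centralizer ({U} : Set (Matrix.SpecialLinearGroup (Fin 2) F)) := fun t =>
    ⟨V t, hcen t⟩
  have hinj : Function.Injective f := by
    intro t t' h
    have h1 : (1 : Matrix (Fin 2) (Fin 2) F) + t • (A - 1) = 1 + t' • (A - 1) := by
      have h3 := congrArg (fun V : centralizer ({U} : Set (Matrix.SpecialLinearGroup (Fin 2) F)) =>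
        ((V : Matrix.SpecialLinearGroup (Fin 2) F) : Matrix (Fin 2) (Fin 2) F)) h
      exact h3
    by_contra hne
    apply hU1
    apply Subtype.ext
    change A = 1
    have h3 : (t - t') • (A - 1) = 0 := by
      rw [sub_smul, add_left_cancel h1, sub_self]
    rw [smul_eq_zero] at h3
    rcases h3 with h3 | h3
    · exact absurd (sub_eq_zero.1 h3) hne
    · exact sub_eq_zero.1 h3
  rw [← Nat.card_eq_fintype_card]
  exact Nat.card_le_card_of_injective f hinj

end SL

end H81.PT
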