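import Cfsg.Agent.Lib.H81.PT8

/-!
# Final steps (H81.PT)
-/

set_option autoImplicit false
set_option linter.unusedSectionVars false
set_option linter.unusedVariables false
set_option linter.style.haveILetI false

namespace H81.PT

open Cfsg H18.CharBasic H18.CharOrtho H18.CharInd Subgroup MulAction H21.PLat H21.SelfC
open scoped ComplexConjugate

universe u

/-- all the data -/
structure FullD {G : Type u} [Group G] [Fintype G] (p : ℕ) [Fact p.Prime] (x0 : G)
    (E : Subgroup G) (τ : G) (ψ : G → ℂ) (w : G) : Prop where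
  td : TD E τ
  hx0 : orderOf x0 = p
  hcen : centralizer ({x0} : Set G) = zpowers x0
  hEN : E ≤ normalizer (zpowers x0 : Set G)
  hN : ∀ g ∈ normalizer (zpowers x0 : Set G), ∃ y ∈ E, ∃ x ∈ zpowers x0, g = y * x
  hcN : Nat.card (normalizer (zpowers x0 : Set G)) = p * Nat.card E
  hdvd : Nat.card E ∣ p - 1
  hE1 : 1 < Nat.card E
  hw : zpowers w = E
  irr : IsIrrCharacter G ψ
  deg : ψ 1 = p
  ψP : ∀ k : ZMod p, k ≠ 0 → ψ (pw x0 k) = 0
  ψr : ∀ g, conj (ψ g) = ψ g
  ψE : ∀ x : E, x ≠ 1 → ψ x = 1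
  hm : Nat.card E ≠ p - 1

variable {G : Type u} [Group G] [Fintype G] {p : ℕ} [hp : Fact p.Prime] {x0 : G}
  {E : Subgroup G} {τ : G} {ψ : G → ℂ} {w : G}

theorem FullD.odd_final [IsSimpleGroup G] (hG : ¬ IsMulCommutative G) (h : FullD p x0 E τ ψ w)
    (hodd : Odd (Nat.card E)) :
    Nonempty (G ≃* Matrix.ProjectiveSpecialLinearGroup (Fin 2) (ZMod p)) := by
  classical
  haveI : Finite (E →* ℂˣ) := Nat.finite_of_card_ne_zero (by
    rw [card_hom h.td]; exact Nat.card_pos.ne')
  letI := Fintype.ofFinite (E →* ℂˣ)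
  have hID : ID E τ ψ p := ⟨h.td, h.td.inverts hG hodd, hodd, h.irr, hp.out.one_lt, h.deg, h.ψE⟩
  obtain ⟨b, hb⟩ := hID.exists_b
  have hOD : OD E τ ψ p b x0 w := ⟨hb, h.hx0, h.hcen, h.ψP, h.ψr, h.hw,
    h.hEN (by rw [← h.hw]; exact mem_zpowers w), h.hN, h.hcN, h.hdvd, h.hE1⟩
  obtain ⟨θ, hθ⟩ := hOD.half
  have hdvd : p ∣ Nat.card G := by
    rw [← h.hx0]; exact orderOf_dvd_natCard x0
  -- faithful
  have hθE : 1 < charDegree (θ : G → ℂ) := by
    have h1 : Nat.card E ≤ p - 1 := Nat.le_of_dvd (by have := hp.out.one_lt; omega) h.hdvd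
    have h2 : p ≠ 3 := by
      rintro rfl
      have h3 := h.hdvd
      have h4 := h.hE1
      have h5 := Nat.le_of_dvd (by norm_num) h3
      have h6 : Nat.card E = 2 := by omega
      exact h.hm h6
    have h3 := hp.out.one_lt
    omega
  have hfaith : ∀ g : G, (θ : G → ℂ) g = (θ : G → ℂ) 1 → g = 1 := by
    intro g hg
    let K := H18.CharQuot.kerSub (θ : G → ℂ) (isCharacter_of_isIrr θ.2)
    have hK : K.Normal := by
      refine ⟨fun n hn g => ?_⟩
      have h1 : (θ : G → ℂ) n = (θ : G → ℂ) 1 := (H18.CharQuot.mem_kerSub _).1 hn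
      refine (H18.CharQuot.mem_kerSub _).2 ?_
      rw [isClassFunction_of_isIrr θ.2 n g, h1]
    rcases IsSimpleGroup.eq_bot_or_eq_top_of_normal K hK with h1 | h1
    · have h2 : g ∈ K := (H18.CharQuot.mem_kerSub _).2 hg
      rw [h1, mem_bot] at h2
      exact h2
    · exfalso
      have h2 : ∀ x, (θ : G → ℂ) x = (θ : G → ℂ) 1 := by
        intro x
        have h3 : x ∈ K := by rw [h1]; trivial
        exact (H18.CharQuot.mem_kerSub _).1 h3
      have hne : (θ : G → ℂ) ≠ (fun _ => 1) := by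
        intro h3
        have h4 := congrFun h3 1
        rw [← H20.Defect.charDegree_irr θ] at h4
        have h5 : charDegree (θ : G → ℂ) = 1 := by exact_mod_cast h4
        omega
      have h3 := inner_irr_ne θ.2 isIrrCharacter_one hne
      rw [classInner] at h3
      simp only [map_one, mul_one] at h3
      rw [Finset.sum_congr rfl (fun x _ => h2 x), Finset.sum_const, Finset.card_univ, nsmul_eq_mul,
        ← Nat.card_eq_fintype_card, ← mul_assoc,
        inv_mul_cancel₀ (by exact_mod_cast Nat.card_pos.ne' : (Nat.card G : ℂ) ≠ 0), one_mul] at h3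
      exact irr_one_ne_zero θ.2 h3
  have hsq : ¬ p ^ 2 ∣ Nat.card G := by
    intro h1
    have h2 := card_mul_index (zpowers x0)
    rw [Nat.card_zpowers, h.hx0] at h2
    rw [← h2, pow_two] at h1
    exact hOD.hidx (Nat.dvd_of_mul_dvd_mul_left hp.out.pos h1)
  have hnn : ∀ H : Subgroup G, H.Normal → Nat.card H ≠ p := by
    intro H hH hc
    rcases IsSimpleGroup.eq_bot_or_eq_top_of_normal H hH with h1 | h1
    · rw [h1, Subgroup.card_bot] at hc
      exact hp.out.one_lt.ne hc
    · rw [h1, Subgroup.card_top] at hc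
      apply hG
      haveI : IsCyclic G := isCyclic_of_prime_card hc
      exact ⟨⟨fun a b => (IsCyclic.commGroup (α := G)).mul_comm a b⟩⟩
  obtain ⟨e⟩ := Cfsg.Agent.S4504.result p hp.out hdvd hsq hnn (θ : G → ℂ)
    (isCharacter_of_isIrr θ.2) hfaith hθ
  have hcenter : center G = ⊥ := by
    rcases IsSimpleGroup.eq_bot_or_eq_top_of_normal (center G) inferInstance with h1 | h1
    · exact h1
    · exfalso
      apply hG
      refine ⟨⟨fun a b => ?_⟩⟩
      have h2 : b ∈ center G := by rw [h1]; trivial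
      exact (mem_center_iff.1 h2 a)
  exact ⟨(QuotientGroup.quotientBot.symm.trans (QuotientGroup.quotientMulEquivOfEq hcenter.symm)).trans e⟩

theorem FullD.even_final [IsSimpleGroup G] (hG : ¬ IsMulCommutative G) (h : FullD p x0 E τ ψ w)
    (heven : Even (Nat.card E)) (hx : ∃ x ∈ E, τ⁻¹ * x * τ ≠ x) :
    ∃ (F : Type) (_ : Field F) (_ : Fintype F), Fintype.card F = p ∧
      Nonempty (G ≃* Matrix.ProjectiveSpecialLinearGroup (Fin 2) F) := by
  classical
  letI := Fintype.ofFinite (IrrCharacter G)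
  obtain ⟨x, hx, hτx⟩ := hx
  obtain ⟨l, hl⟩ := h.td.exists_hom hx hτx
  obtain ⟨c, hc⟩ := heven
  have how : orderOf w = Nat.card E := by rw [← Nat.card_zpowers, h.hw]
  have hwE : w ∈ E := by rw [← h.hw]; exact mem_zpowers w
  have hE1 := h.hE1
  have hw2 : (w ^ c) * (w ^ c) = 1 := by
    rw [← pow_add, ← hc, ← how, pow_orderOf_eq_one]
  have hbound := bound_even h.td h.irr hp.out.one_lt h.deg h.ψE hl (u := w ^ c) (pow_mem hwE c)
    (by
      intro h1
      have h2 := orderOf_dvd_of_pow_eq_one h1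
      rw [how] at h2
      have h3 := Nat.le_of_dvd (by omega) h2
      omega)
    hw2
    (by
      intro y hy hyy
      rw [← h.hw] at hy
      obtain ⟨k, hk⟩ := (mem_powers_iff_mem_zpowers (x := w)).2 hy
      have hk' : w ^ k = y := hk
      rw [← hk', ← pow_add] at hyy
      have h2 := orderOf_dvd_of_pow_eq_one hyy
      rw [how, hc] at h2
      obtain ⟨j, hj⟩ := h2
      have h3 : k = c * j := by
        have h4 : 2 * k = 2 * (c * j) := by rw [two_mul, hj]; ring
        omega
      rw [← hk', h3, pow_mul]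
      have h5 : (w ^ c) ^ 2 = 1 := by rw [pow_two]; exact hw2
      rcases Nat.even_or_odd' j with ⟨i, hi | hi⟩
      · left
        rw [hi, pow_mul, h5, one_pow]
      · right
        rw [hi, pow_succ, pow_mul, h5, one_pow, one_mul])
  obtain ⟨a, Y, ε, e, n, hS⟩ := exists_SC (G := G) h.hx0 h.hcen
  have he : e = Nat.card E := by
    have h1 := hS.hcardN
    rw [h.hcN] at h1
    exact (Nat.eq_of_mul_eq_mul_left hp.out.pos h1).symm
  have hn := H21.SelfC.n_pos hS hG
  obtain ⟨m, hm⟩ := h.hdvd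
  have hcard := hS.hcard
  have hsyl := hS.hsyl
  rw [he] at hcard
  set e' := Nat.card E with he'
  have hp1 := hp.out.one_lt
  have hm0 : m ≠ 0 := by
    rintro rfl
    omega
  have hm1 : m ≠ 1 := by
    rintro rfl
    rw [mul_one] at hm
    exact h.hm hm.symm
  rw [hcard, hm] at hbound
  have hpos : 0 < e' ^ 3 * p := by positivity
  have hb2 : (1 + n * p) * m ^ 2 ≤ 4 * (p + 1) := by
    apply Nat.le_of_mul_le_mul_left _ hpos
    calc e' ^ 3 * p * ((1 + n * p) * m ^ 2) = p * e' * (1 + n * p) * (e' * m) ^ 2 := by ring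
      _ ≤ 4 * e' ^ 3 * (p * (p + 1)) := hbound
      _ = e' ^ 3 * p * (4 * (p + 1)) := by ring
  have hnp : p + 1 ≤ 1 + n * p := by nlinarith
  have hm2 : m = 2 := by
    by_contra hne
    have h3 : 3 ≤ m := by omega
    have h4 : 9 ≤ m ^ 2 := by nlinarith
    nlinarith
  have hn1 : n = 1 := by
    rw [hm2] at hb2
    by_contra hne
    have h3 : 2 ≤ n := by omega
    nlinarith
  rw [hn1, one_mul] at hcard hsyl
  rw [hm2] at hm
  have hp' : p = 2 * e' + 1 := by omega
  have hmm : 2 * (e' * (1 + p)) = p ^ 2 - 1 := by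
    have h1 : p ^ 2 = 2 * (e' * (1 + p)) + 1 := by
      rw [hp']; ring
    omega
  have hpm : ¬ p ∣ e' * (1 + p) := by
    intro h0
    rcases (Nat.Prime.dvd_mul hp.out).1 h0 with h1 | h1
    · have := Nat.le_of_dvd (by omega) h1
      omega
    · have h2 : p ∣ 1 := (Nat.dvd_add_left (dvd_refl p)).1 h1
      have := Nat.le_of_dvd (by omega) h2
      omega
  exact H21.PSLZass.iso_of_card hG (p := p) (m := e' * (1 + p))
    (by rw [hcard, mul_assoc]) hpm hmm (by rw [hsyl]; ring) (by omega)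

end H81.PT
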