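import Cfsg.Agent.Lib.H81.BrIdem
import Cfsg.Agent.Lib.H20.LN
import Cfsg.Agent.Lib.H20.Fong

/-!
# Brauer pairs, elementary version: one group
-/

set_option autoImplicit false
set_option linter.unusedSectionVars false
set_option linter.unusedVariables false
set_option linter.style.haveILetI false
open Cfsg H20.Loc H20.GA H20.Blk H20.DefGrp H20.Orth H20.Defect H20.Nil H20.Ind H20.LN
  H19.BrMap H19.BrMap2 H77.Cov1 H81.BrIdem

namespace H81.Pair

universe u
variable {G : Type u} [Group G]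

/-- the centralizer of a subgroup -/
abbrev Cn (Q : Subgroup G) : Subgroup G := Subgroup.centralizer (Q : Set G)

theorem Cn_le_N (Q : Subgroup G) : Cn Q ≤ Subgroup.normalizer (Q : Set G) :=
  Subgroup.centralizer_le_normalizer _

theorem le_Cn_comm {R Q : Subgroup G} (h : R ≤ Cn Q) : Q ≤ Cn R := by
  intro q hq
  rw [Subgroup.mem_centralizer_iff]
  intro r hr
  exact (Subgroup.mem_centralizer_iff.1 (h hr) q hq).symm

theorem Cn_anti {Q P : Subgroup G} (h : Q ≤ P) : Cn P ≤ Cn Q :=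
  Subgroup.centralizer_le (SetLike.coe_subset_coe.2 h)

theorem mem_Cn_of_le {Q : Subgroup G} {y : G} (h : Q ≤ Subgroup.centralizer ({y} : Set G)) :
    y ∈ Cn Q := by
  rw [Subgroup.mem_centralizer_iff]
  intro q hq
  exact Subgroup.mem_centralizer_singleton_iff.1 (h hq)

theorem le_of_mem_Cn {Q : Subgroup G} {y : G} (h : y ∈ Cn Q) :
    Q ≤ Subgroup.centralizer ({y} : Set G) := by
  intro q hq
  rw [Subgroup.mem_centralizer_singleton_iff]
  exact Subgroup.mem_centralizer_iff.1 h q hq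

variable [Finite G] {M : Ideal AlgInt} {p : ℕ}

theorem brm_eq_resZ (Q : Subgroup G) (z : ZG G) : brm Q (Cn Q) (Cn_le_N Q) z = resZ (Cn Q) z := by
  apply zG_ext
  intro h
  rw [zc_brm_mem (Cn_le_N Q) z h.2, zc_resZ]

/-- `θ ∈ Irr(H)` lies under `χ ∈ Irr(G)` modulo `M` -/
def Dn (M : Ideal AlgInt) [M.IsPrime] {H : Subgroup G} (θ : IrrCharacter H) (χ : IrrCharacter G) :
    Prop := ∀ z ∈ zr M G, MemLocalIdeal M (omega θ (resZ H z) - omega χ z)

theorem exists_up (hM : IsPModular p M) [M.IsPrime] {Q : Subgroup G} (hQ : IsPGroup p Q)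
    (θ : IrrCharacter (Cn Q)) : ∃ χ : IrrCharacter G, Dn M θ χ := by
  obtain ⟨χ, hχ⟩ := exists_irr_congr hM hQ (le_refl (Cn Q)) (Cn_le_N Q) θ
  refine ⟨χ, fun z hz => ?_⟩
  have := hχ z hz
  rwa [brm_eq_resZ] at this

theorem Dn.sameBlock [M.IsPrime] {H : Subgroup G} {θ : IrrCharacter H} {χ χ' : IrrCharacter G}
    (h : Dn M θ χ) (h' : Dn M θ χ') : SameBlock M (χ : G → ℂ) (χ' : G → ℂ) := by
  rw [sameBlock_iff]
  intro z hz
  exact locI_trans (locI_sub_comm.1 (h z hz)) (h' z hz)

theorem Dn.congr_right [M.IsPrime] {H : Subgroup G} {θ : IrrCharacter H} {χ χ' : IrrCharacter G}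
    (h : Dn M θ χ) (h' : SameBlock M (χ : G → ℂ) (χ' : G → ℂ)) : Dn M θ χ' := fun z hz =>
  locI_trans (h z hz) (sameBlock_iff.1 h' z hz)

theorem Dn.congr_left [M.IsPrime] {H : Subgroup G} {θ θ' : IrrCharacter H} {χ : IrrCharacter G}
    (h : Dn M θ χ) (h' : SameBlock M (θ : H → ℂ) (θ' : H → ℂ)) : Dn M θ' χ := fun z hz =>
  locI_trans (locI_sub_comm.1 (sameBlock_iff.1 h' _ (resZ_mem H hz))) (h z hz)

/-- products and centralizing `p`-subgroups -/
theorem exists_mul_centralized (hM : IsPModular p M) [M.IsPrime] {h : G} {a w : ZG G}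
    (ha : a ∈ zr M G) (hw : w ∈ zr M G)
    (hh : ¬ MemLocalIdeal M (zc (a * w) h)) {Q : Subgroup G} (hQ : IsPGroup p Q)
    (hQh : Q ≤ Subgroup.centralizer ({h} : Set G)) :
    ∃ y : G, Q ≤ Subgroup.centralizer ({y} : Set G) ∧ ¬ MemLocalIdeal M (zc w y) := by
  classical
  letI : Fintype (ConjClasses G) := Fintype.ofFinite _
  have h1 : (a * w : ZG G) = ∑ C : ConjClasses G, zc a C.out • (cls C.out * w) := by
    conv_lhs => rw [eq_sum_cls a]
    rw [Finset.sum_mul]
    refine Finset.sum_congr rfl fun C _ => ?_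
    rw [smul_mul_assoc]
  rw [h1, zc_sum] at hh
  obtain ⟨C, hC⟩ : ∃ C : ConjClasses G,
      ¬ MemLocalIdeal M (zc (zc a C.out • (cls C.out * w)) h) := by
    by_contra! hc
    exact hh (locI_sum fun C _ => hc C)
  rw [zc_smul] at hC
  have h2 : ¬ MemLocalIdeal M (zc (cls C.out * w) h) := fun hc => hC (by
    refine locI_mul_left ?_ hc
    exact ha C.out)
  obtain ⟨x, hx1, hx2, hx3⟩ := exists_centralized hM hw h2 hQ hQh
  refine ⟨x⁻¹ * h, ?_, hx3⟩
  intro q hq
  have h3 := Subgroup.mem_centralizer_singleton_iff.1 (hx2 hq)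
  have h4 := Subgroup.mem_centralizer_singleton_iff.1 (hQh hq)
  rw [Subgroup.mem_centralizer_singleton_iff]
  have h5 : q * x⁻¹ = x⁻¹ * q := by
    rw [eq_inv_mul_iff_mul_eq, ← mul_assoc, ← h3, mul_assoc, mul_inv_cancel, mul_one]
  rw [← mul_assoc, h5, mul_assoc, h4, ← mul_assoc]

/-- elements which are idempotent modulo `M` -/
def Idm (M : Ideal AlgInt) [M.IsPrime] (w : ZG G) : Prop :=
  w ∈ zr M G ∧ ∀ g, MemLocalIdeal M (zc (w * w - w) g)

theorem Idm.omega [M.IsPrime] {w : ZG G} (hw : Idm M w) (χ : IrrCharacter G) :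
    MemLocalIdeal M (H20.GA.omega χ w) ∨ MemLocalIdeal M (H20.GA.omega χ w - 1) := by
  have h1 := omega_memI χ hw.2
  rw [map_sub, map_mul] at h1
  have h2 : H20.GA.omega χ w * H20.GA.omega χ w - H20.GA.omega χ w =
      H20.GA.omega χ w * (H20.GA.omega χ w - 1) := by ring
  rw [h2] at h1
  exact locI_or_locI (omega_mem χ hw.1) (locR_sub (omega_mem χ hw.1) locR_one) h1

theorem idm_resZ (hM : IsPModular p M) [M.IsPrime] {Q : Subgroup G} (hQ : IsPGroup p Q)
    {S : Set (IrrCharacter G)} (hS : IsUnion M S) : Idm M (resZ (Cn Q) (eB S)) := by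
  refine ⟨resZ_mem _ (eB_mem_of_isUnion hS), fun g => ?_⟩
  have h1 := brm_mul_congr hM hQ (le_refl (Cn Q)) (Cn_le_N Q) (eB_mem_of_isUnion hS)
    (eB_mem_of_isUnion hS) g
  rw [eB_mul_eB_self, brm_eq_resZ] at h1
  rw [zc_sub] at h1 ⊢
  exact locI_sub_comm.1 h1

/-- the product of an idempotent modulo `M` and a block idempotent -/
theorem eB_mul_idm (hM : IsPModular p M) [M.IsPrime] {w : ZG G} (hw : Idm M w) (χ : IrrCharacter G) :
    (MemLocalIdeal M (omega χ w) →
      ∀ g, MemLocalIdeal M (zc (eB (blockOf M (χ : G → ℂ)) * w) g)) ∧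
    (MemLocalIdeal M (omega χ w - 1) →
      ∀ g, MemLocalIdeal M (zc (eB (blockOf M (χ : G → ℂ)) * w - eB (blockOf M (χ : G → ℂ))) g)) := by
  have hB := isPBlock_blockOf (M := M) χ
  set e := eB (blockOf M (χ : G → ℂ)) with he
  have hez : e ∈ zr M G := eB_mem hB
  have hee : e * e = e := eB_mul_eB_self _
  constructor
  · intro h0 g
    by_contra hg
    have hid : ∀ g, MemLocalIdeal M (zc ((e * w) * (e * w) - e * w) g) := by
      intro x
      have h1 : (e * w) * (e * w) - e * w = e * (w * w - w) := by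
        calc (e * w) * (e * w) - e * w = (e * e) * (w * w) - e * w := by ring
          _ = _ := by rw [hee]; ring
      rw [h1]
      letI := Fintype.ofFinite G
      rw [zc_mul]
      exact locI_sum fun y _ => locI_mul_left (hez y) (hw.2 _)
    obtain ⟨η, hη⟩ := H20.BrIdem.exists_unit_of_idem (mul_mem hez hw.1) hid hg
    apply hη
    rw [map_mul]
    by_cases h2 : η ∈ blockOf M (χ : G → ℂ)
    · rw [omega_eB_mem h2, one_mul]
      exact (locI_congr (sameBlock_iff.1 h2 w hw.1)).1 h0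
    · rw [omega_eB_notMem h2, zero_mul]; exact locI_zero
  · intro h0 g
    by_contra hg
    have hid : ∀ g, MemLocalIdeal M (zc ((e * w - e) * (e * w - e) - (-1 : ℂ) • (e * w - e)) g) := by
      intro x
      have h1 : (e * w - e) * (e * w - e) - (-1 : ℂ) • (e * w - e) = e * (w * w - w) := by
        rw [neg_one_smul, sub_neg_eq_add]
        calc (e * w - e) * (e * w - e) + (e * w - e) =
            (e * e) * (w * w) - 2 * ((e * e) * w) + e * e + e * w - e := by ring
          _ = _ := by rw [hee]; ring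
      rw [h1]
      letI := Fintype.ofFinite G
      rw [zc_mul]
      exact locI_sum fun y _ => locI_mul_left (hez y) (hw.2 _)
    have hz : e - e * w ∈ zr M G := sub_mem hez (mul_mem hez hw.1)
    have hid' : ∀ g, MemLocalIdeal M (zc ((e - e * w) * (e - e * w) - (e - e * w)) g) := by
      intro x
      have h1 := hid x
      have h2 : (e * w - e) * (e * w - e) - (-1 : ℂ) • (e * w - e) =
          (e - e * w) * (e - e * w) - (e - e * w) := by
        rw [neg_one_smul]; ring
      rwa [h2] at h1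
    have hg' : ¬ MemLocalIdeal M (zc (e - e * w) g) := by
      intro hc
      apply hg
      have h3 : e * w - e = (-1 : ℂ) • (e - e * w) := by rw [neg_one_smul]; ring
      rw [h3, zc_smul]
      exact locI_mul_left (locR_neg locR_one) hc
    obtain ⟨η, hη⟩ := H20.BrIdem.exists_unit_of_idem hz hid' hg'
    apply hη
    rw [map_sub, map_mul]
    by_cases h2 : η ∈ blockOf M (χ : G → ℂ)
    · rw [omega_eB_mem h2, one_mul]
      have h3 := sameBlock_iff.1 h2 w hw.1
      exact locI_sub_comm.1 (locI_trans (locI_sub_comm.1 h3) h0)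
    · rw [omega_eB_notMem h2, zero_mul, sub_zero]; exact locI_zero

/-- every element in the support of `w` is in the support of a block idempotent over `w` -/
theorem exists_block_of_idm (hM : IsPModular p M) [M.IsPrime] {w : ZG G} (hw : Idm M w) {y : G}
    (hy : ¬ MemLocalIdeal M (zc w y)) : ∃ ξ : IrrCharacter G, MemLocalIdeal M (omega ξ w - 1) ∧
      ¬ MemLocalIdeal M (zc (eB (blockOf M (ξ : G → ℂ)) * w) y) ∧
      ¬ MemLocalIdeal M (blockCoeff (blockOf M (ξ : G → ℂ)) y) := by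
  classical
  letI := Fintype.ofFinite (IrrCharacter G)
  letI := Fintype.ofFinite (Set (IrrCharacter G))
  -- `1 = ∑ e_b`
  set F : Finset (Set (IrrCharacter G)) :=
    Finset.univ.image (fun χ : IrrCharacter G => blockOf M (χ : G → ℂ)) with hF
  have h1 : (1 : ZG G) = ∑ b ∈ F, eB b := by
    apply eq_of_omega
    intro χ
    rw [map_one, map_sum, Finset.sum_eq_single (blockOf M (χ : G → ℂ))]
    · rw [omega_eB_mem (mem_blockOf_self χ)]
    · intro b hb hne
      rw [hF, Finset.mem_image] at hb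
      obtain ⟨ψ, _, rfl⟩ := hb
      apply omega_eB_notMem
      intro hc
      exact hne (blockOf_eq_of_sameBlock hc)
    · intro h
      exact absurd (Finset.mem_image_of_mem _ (Finset.mem_univ χ)) h
  have h2 : w = ∑ b ∈ F, eB b * w := by
    rw [← Finset.sum_mul, ← h1, one_mul]
  rw [h2, zc_sum] at hy
  obtain ⟨b, hb, hby⟩ : ∃ b ∈ F, ¬ MemLocalIdeal M (zc (eB b * w) y) := by
    by_contra! hc
    exact hy (locI_sum fun b hb => hc b hb)
  rw [hF, Finset.mem_image] at hb
  obtain ⟨ξ, _, rfl⟩ := hb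
  have h3 : MemLocalIdeal M (omega ξ w - 1) := by
    rcases hw.omega ξ with h | h
    · exact absurd ((eB_mul_idm hM hw ξ).1 h y) hby
    · exact h
  refine ⟨ξ, h3, hby, fun hc => hby ?_⟩
  have h4 := (eB_mul_idm hM hw ξ).2 h3 y
  rw [zc_sub, zc_eB] at h4
  exact (locI_congr h4).2 hc

/-- the `p`-subgroups centralizing elements of the support of the block of `θ` lie in `Q` -/
def Zp (M : Ideal AlgInt) (p : ℕ) (Q : Subgroup G) (θ : IrrCharacter (Cn Q)) : Prop :=
  ∀ R : Subgroup G, IsPGroup p R → R ≤ Cn Q → ∀ y : Cn Q, R ≤ Subgroup.centralizer ({(y : G)} : Set G) →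
    ¬ MemLocalIdeal M (blockCoeff (blockOf M (θ : Cn Q → ℂ)) y) → R ≤ Q

/-- existence of roots -/
theorem exists_root (hM : IsPModular p M) [M.IsPrime] {β : Set (IrrCharacter G)} (hβ : IsPBlock M β)
    {P : Subgroup G} (hP : IsDefectGroup p M β P) :
    ∃ ξ : IrrCharacter (Cn P), (∀ ψ ∈ β, Dn M ξ ψ) ∧ Zp M p P ξ := by
  haveI : Fact p.Prime := ⟨pm_prime hM⟩
  have hPp := isPGroup_of_isDefectGroup hP
  set w := resZ (Cn P) (eB β) with hw
  have hidm : Idm M w := idm_resZ hM hPp (isUnion_of_isPBlock hβ)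
  obtain ⟨g, hg, S, hPS⟩ := isDefectGroup_iff.1 hP
  have hgC : g ∈ Cn P := by
    apply mem_Cn_of_le
    rw [hPS]
    exact sylC_le g S
  have hy : ¬ MemLocalIdeal M (zc w ⟨g, hgC⟩) := by
    rw [hw, zc_resZ, zc_eB]
    exact hg.2.1
  obtain ⟨ξ, h1, h2, h3⟩ := exists_block_of_idm hM hidm hy
  refine ⟨ξ, ?_, ?_⟩
  · obtain ⟨χ, hχ⟩ := exists_up hM hPp ξ
    have h4 : χ ∈ β := by
      by_contra hc
      have h5 := hχ _ (eB_mem hβ)
      rw [omega_eB_notMem hc, sub_zero] at h5
      have h6 := locI_sub h5 h1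
      rw [sub_sub_cancel] at h6
      exact not_locI_one h6
    intro ψ hψ
    exact hχ.congr_right (isPBlock_sameBlock hβ h4 hψ)
  · intro R hR hRC y hRy hcoef
    have h4 : ¬ MemLocalIdeal M (zc (eB (blockOf M (ξ : Cn P → ℂ)) * w) y) := by
      intro hc
      have h5 := (eB_mul_idm hM hidm ξ).2 h1 y
      rw [zc_sub, zc_eB] at h5
      exact hcoef ((locI_congr h5).1 hc)
    obtain ⟨x, hx1, hx2⟩ := exists_mul_centralized hM (eB_mem (isPBlock_blockOf ξ)) hidm.1 h4
      (Q := R.subgroupOf (Cn P)) (hR.comap_of_injective _ (Subgroup.subtype_injective _)) (by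
        intro r hr
        rw [Subgroup.mem_centralizer_singleton_iff]
        apply Subtype.ext
        exact Subgroup.mem_centralizer_singleton_iff.1 (hRy hr))
    rw [hw, zc_resZ, zc_eB] at hx2
    have hRx : R ≤ Subgroup.centralizer ({(x : G)} : Set G) := by
      intro r hr
      have := Subgroup.mem_centralizer_singleton_iff.1
        (hx1 (Subgroup.mem_subgroupOf.2 hr : (⟨r, hRC hr⟩ : Cn P) ∈ R.subgroupOf (Cn P)))
      rw [Subgroup.mem_centralizer_singleton_iff]
      exact congrArg Subtype.val this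
    have hPx : P ≤ Subgroup.centralizer ({(x : G)} : Set G) := le_of_mem_Cn x.2
    have hsup : IsPGroup p (R ⊔ P : Subgroup G) :=
      IsPGroup.to_sup_of_normal_right' hR hPp (hRC.trans (Cn_le_N P))
    obtain ⟨χ, hχ⟩ := isPBlock_nonempty hβ
    obtain ⟨x', hx'1, hx'2⟩ := sylow_le_of_blockCoeff hM hβ ⟨χ, hχ, hg.2.2 χ hχ⟩ hx2 hsup
      (sup_le hRx hPx)
    obtain ⟨c, hc⟩ := exists_conj_le hx'1 S hsup hx'2
    rw [← hPS] at hc
    have h6 : Nat.card (R ⊔ P : Subgroup G) ≤ Nat.card P := by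
      have := Subgroup.card_le_of_le hc
      rwa [card_map_conj] at this
    have h7 : P = R ⊔ P := Subgroup.eq_of_le_of_card_ge le_sup_right h6
    rw [h7]
    exact le_sup_left

end H81.Pair
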