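import Cfsg.Agent.Lib.H81.Pair1

/-!
# Brauer pairs, elementary version: transport, normal subgroups
-/

set_option autoImplicit false
set_option linter.unusedSectionVars false
set_option linter.unusedVariables false
set_option linter.style.haveILetI false
open Cfsg H20.Loc H20.GA H20.Blk H20.DefGrp H20.Orth H20.Defect H20.Nil H20.Ind H20.LN
  H19.BrMap H19.BrMap2 H77.Cov1 H81.BrIdem
open scoped ComplexConjugate

namespace H81.Pair

universe u

section pullSec
variable {A B : Type u} [Group A] [Group B] [Finite A] [Finite B] (e : A ≃* B) {M : Ideal AlgInt}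

/-- `pull` as an equivalence -/
def pullE : IrrCharacter B ≃ IrrCharacter A where
  toFun := pull e
  invFun := pull e.symm
  left_inv := pull_symm_pull e
  right_inv := pull_pull_symm e

theorem pull_mem_blockOf [M.IsPrime] {θ ψ : IrrCharacter B} :
    pull e ψ ∈ blockOf M (pull e θ : A → ℂ) ↔ ψ ∈ blockOf M (θ : B → ℂ) :=
  sameBlock_pull e

theorem blockCoeff_pull [M.IsPrime] (θ : IrrCharacter B) (a : A) :
    blockCoeff (blockOf M (pull e θ : A → ℂ)) a = blockCoeff (blockOf M (θ : B → ℂ)) (e a) := by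
  classical
  letI := Fintype.ofFinite (IrrCharacter A)
  letI := Fintype.ofFinite (IrrCharacter B)
  rw [blockCoeff_eq_sum, blockCoeff_eq_sum, Nat.card_congr e.toEquiv]
  congr 1
  symm
  refine Fintype.sum_equiv (pullE e) _ _ fun ψ => ?_
  have h1 : (pullE e) ψ = pull e ψ := rfl
  rw [h1]
  by_cases h : ψ ∈ blockOf M (θ : B → ℂ)
  · rw [if_pos h, if_pos ((pull_mem_blockOf e).2 h), pull_apply, pull_apply, map_one]
  · rw [if_neg h, if_neg (fun hc => h ((pull_mem_blockOf e).1 hc))]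

end pullSec

section normal
variable {G : Type u} [Group G] [Finite G] {M : Ideal AlgInt} {p : ℕ}

/-- characters over `θ ∈ Irr(C(Q))`, `Q` a normal `p`-subgroup -/
theorem dn_of_over (hM : IsPModular p M) [M.IsPrime] [Fintype G] (Q : Subgroup G) [Q.Normal]
    (hQ : IsPGroup p Q) [Fintype (Cn Q)] (χ : IrrCharacter G) (θ : IrrCharacter (Cn Q))
    (h : classInner (fun n : Cn Q => (χ : G → ℂ) n) (θ : Cn Q → ℂ) ≠ 0) : Dn M θ χ := by
  intro z hz
  have hinv : InvZ (Cn Q) (resZ (Cn Q) z) := by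
    intro m n hmn
    rw [zc_resZ, zc_resZ]
    exact zc_conj z hmn
  rw [← omega_up (Cn Q) hinv χ θ h, ← map_sub]
  refine omega_memI_of_vanish hM Q hQ χ (sub_mem (up_mem (Cn Q) hinv (resZ_mem _ hz)) hz) ?_
  intro g hg
  rw [zc_sub, zc_up_mem (Cn Q) hinv hg, zc_resZ, sub_self]

theorem exists_dn (hM : IsPModular p M) [M.IsPrime] (Q : Subgroup G) [Q.Normal]
    (hQ : IsPGroup p Q) (χ : IrrCharacter G) : ∃ θ : IrrCharacter (Cn Q), Dn M θ χ := by
  letI := Fintype.ofFinite G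
  letI := Fintype.ofFinite (Cn Q)
  obtain ⟨θ, hθ, h⟩ := H18.CharQuot.exists_constituent_restrict (Cn Q) χ.2
  exact ⟨⟨θ, hθ⟩, dn_of_over hM Q hQ χ ⟨θ, hθ⟩ h⟩

/-- conjugacy of the blocks of `C(Q)` under a block of `G`, `Q` normal -/
theorem conj_of_dn (hM : IsPModular p M) [M.IsPrime] (Q : Subgroup G) [Q.Normal]
    (hQ : IsPGroup p Q) {χ : IrrCharacter G} {θ θ' : IrrCharacter (Cn Q)} (h : Dn M θ χ)
    (h' : Dn M θ' χ) : ∃ g : G, SameBlock M (cI (Cn Q) g θ : Cn Q → ℂ) (θ' : Cn Q → ℂ) := by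
  haveI : Fact p.Prime := ⟨pm_prime hM⟩
  letI := Fintype.ofFinite G
  letI := Fintype.ofFinite (Cn Q)
  obtain ⟨χ1, hχ1, h1⟩ := H18.CharQuot.exists_over (Cn Q) θ.2
  obtain ⟨χ2, hχ2, h2⟩ := H18.CharQuot.exists_over (Cn Q) θ'.2
  have e1 := (dn_of_over hM Q hQ ⟨χ1, hχ1⟩ θ h1).sameBlock h
  have e2 := (dn_of_over hM Q hQ ⟨χ2, hχ2⟩ θ' h2).sameBlock h'
  obtain ⟨g, η, hη, hg⟩ := Cfsg.Agent.S0964.result p M hM (Cn Q)
    (blockOf M (χ : G → ℂ)) (isPBlock_blockOf χ) (blockOf M (θ : Cn Q → ℂ)) (isPBlock_blockOf θ)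
    ⟨χ1, hχ1⟩ (sameBlock_symm e1) θ (mem_blockOf_self θ) h1 ⟨χ2, hχ2⟩ (sameBlock_symm e2) θ' h2
  refine ⟨g, ?_⟩
  have h3 : θ' = cI (Cn Q) g η := by
    apply Subtype.ext
    funext n
    exact hg n
  rw [h3]
  exact sameBlock_cI (Cn Q) g hη

theorem blockCoeff_cI [M.IsPrime] (N : Subgroup G) [hN : N.Normal] (g : G) (θ : IrrCharacter N)
    (n : N) : blockCoeff (blockOf M (cI N g θ : N → ℂ)) n =
      blockCoeff (blockOf M (θ : N → ℂ)) ⟨g * n * g⁻¹, hN.conj_mem n n.2 g⟩ := by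
  have h1 : cI N g θ = pull (MulAut.conjNormal g : N ≃* N) θ := by
    apply Subtype.ext
    funext n
    change (θ : N → ℂ) _ = (θ : N → ℂ) _
    congr 1
  have h2 : (MulAut.conjNormal g : N ≃* N) n = ⟨g * n * g⁻¹, hN.conj_mem n n.2 g⟩ := by
    apply Subtype.ext
    simp [MulAut.conjNormal_apply]
  rw [h1, blockCoeff_pull, h2]

/-- defect groups of the covering block meet `C(Q)` inside `Q` -/
theorem defect_inf_le (hM : IsPModular p M) [M.IsPrime] (Q : Subgroup G) [hQn : Q.Normal]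
    (hQ : IsPGroup p Q) {θ : IrrCharacter (Cn Q)} (hθ : Zp M p Q θ) {χ : IrrCharacter G}
    (h : Dn M θ χ) {P : Subgroup G} (hP : IsDefectGroup p M (blockOf M (χ : G → ℂ)) P) :
    P ⊓ Cn Q ≤ Q := by
  haveI : Fact p.Prime := ⟨pm_prime hM⟩
  have hPp := isPGroup_of_isDefectGroup hP
  have hQP : Q ≤ P := le_trans (le_sSup ⟨hQn, hQ⟩ : Q ≤ pCore p G)
    (Cfsg.Agent.S0912.result p M hM _ (isPBlock_blockOf χ) P hP)
  obtain ⟨y, hy, S, hPS⟩ := isDefectGroup_iff.1 hP
  have hPy : P ≤ Subgroup.centralizer ({y} : Set G) := by rw [hPS]; exact sylC_le y S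
  have hyC : y ∈ Cn Q := Cn_anti hQP (mem_Cn_of_le hPy)
  have hidm : Idm M (resZ (Cn Q) (eB (blockOf M (χ : G → ℂ)))) :=
    idm_resZ hM hQ (isUnion_of_isPBlock (isPBlock_blockOf χ))
  have hyw : ¬ MemLocalIdeal M (zc (resZ (Cn Q) (eB (blockOf M (χ : G → ℂ)))) ⟨y, hyC⟩) := by
    rw [zc_resZ, zc_eB]; exact hy.2.1
  obtain ⟨ξ, h1, _, h3⟩ := exists_block_of_idm hM hidm hyw
  -- ξ lies under χ
  have hξχ : Dn M ξ χ := by
    obtain ⟨χ', hχ'⟩ := exists_up hM hQ ξ
    have h4 : χ' ∈ blockOf M (χ : G → ℂ) := by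
      by_contra hc
      have h5 := hχ' _ (eB_mem (isPBlock_blockOf χ))
      rw [omega_eB_notMem hc, sub_zero] at h5
      have h6 := locI_sub h5 h1
      rw [sub_sub_cancel] at h6
      exact not_locI_one h6
    exact hχ'.congr_right (sameBlock_symm h4)
  obtain ⟨g, hg⟩ := conj_of_dn hM Q hQ h hξχ
  rw [← blockOf_eq_of_sameBlock hg, blockCoeff_cI] at h3
  -- R = conj of P ∩ C(Q)
  set R := P ⊓ Cn Q with hR
  have hRp : IsPGroup p R := hPp.to_le inf_le_left
  have h4 := hθ (R.map (MulAut.conj g).toMonoidHom) (isPGroup_map_conj hRp g) (by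
    rintro _ ⟨r, hr, rfl⟩
    exact (inferInstance : (Cn Q).Normal).conj_mem r hr.2 g) ⟨g * y * g⁻¹,
      (inferInstance : (Cn Q).Normal).conj_mem y hyC g⟩
    (map_conj_le_centralizer (inf_le_left.trans hPy) g) h3
  intro r hr
  have h5 : g * r * g⁻¹ ∈ Q := h4 ⟨r, hr, rfl⟩
  have h6 := hQn.conj_mem _ h5 g⁻¹
  have h7 : g⁻¹ * (g * r * g⁻¹) * g⁻¹⁻¹ = r := by group
  rwa [h7] at h6

end normal

section transport
variable {K G : Type u} [Group K] [Group G] [Finite K] [Finite G]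

/-- the isomorphism `H ≃* H'` for `H = j(H')`. -/
noncomputable def tr (j : K →* G) (hj : Function.Injective j) {H' : Subgroup K} {H : Subgroup G}
    (hH : H'.map j = H) : H ≃* H' :=
  ((H'.equivMapOfInjective j hj).trans (MulEquiv.subgroupCongr hH)).symm

theorem tr_apply (j : K →* G) (hj : Function.Injective j) {H' : Subgroup K} {H : Subgroup G}
    (hH : H'.map j = H) (h : H) : j (tr j hj hH h : K) = (h : G) := by
  obtain ⟨x, rfl⟩ := ((H'.equivMapOfInjective j hj).trans (MulEquiv.subgroupCongr hH)).surjective h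
  rw [tr, MulEquiv.symm_apply_apply]
  rfl

theorem tr_eq (j : K →* G) (hj : Function.Injective j) {H' : Subgroup K} {H : Subgroup G}
    (hH : H'.map j = H) (h : H) (k : H') (hk : j (k : K) = (h : G)) : tr j hj hH h = k := by
  apply Subtype.ext
  apply hj
  rw [tr_apply, hk]

/-- evaluation of functions at the central character of `θ` -/
noncomputable def ev {H : Subgroup G} (θ : IrrCharacter H) (f : G → ℂ) : ℂ :=
  (∑ᶠ h : H, f h * (θ : H → ℂ) h) / (θ : H → ℂ) 1

theorem omega_eq_ev {H : Subgroup G} (θ : IrrCharacter H) (f : G → ℂ) (w : ZG H)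
    (hw : ∀ h, zc w h = f (h : G)) : omega θ w = ev θ f := by
  classical
  letI := Fintype.ofFinite H
  rw [omega_eq_sum, ev, finsum_eq_sum_of_fintype]
  congr 1
  exact Finset.sum_congr rfl fun h _ => by rw [hw]

theorem ev_congr_fun {H : Subgroup G} (θ : IrrCharacter H) {f f' : G → ℂ}
    (h : ∀ x ∈ H, f x = f' x) : ev θ f = ev θ f' := by
  rw [ev, ev]
  congr 1
  exact finsum_congr fun x => by rw [h x x.2]

theorem ev_pull (j : K →* G) (hj : Function.Injective j) {H' : Subgroup K} {H : Subgroup G}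
    (hH : H'.map j = H) (θ : IrrCharacter H') (f : G → ℂ) :
    ev (pull (tr j hj hH) θ) f = ev θ (fun k => f (j k)) := by
  rw [ev, ev, pull_apply, map_one]
  congr 1
  rw [← finsum_comp_equiv (tr j hj hH).toEquiv]
  refine finsum_congr fun h => ?_
  rw [pull_apply]
  have := tr_apply j hj hH h
  change f h * _ = f (j (tr j hj hH h : K)) * _
  rw [this]
  rfl

theorem ev_resZ {H : Subgroup G} (θ : IrrCharacter H) (z : ZG G) :
    omega θ (resZ H z) = ev θ (zc z) :=
  omega_eq_ev θ (zc z) _ fun h => zc_resZ H z h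

end transport

end H81.Pair
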