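import Cfsg.Agent.Lib.H81.Pair2

/-!
# Brauer pairs, elementary version: the normalizer step
-/

set_option autoImplicit false
set_option linter.unusedSectionVars false
set_option linter.unusedVariables false
set_option linter.style.haveILetI false
open Cfsg H20.Loc H20.GA H20.Blk H20.DefGrp H20.Orth H20.Defect H20.Nil H20.Ind H20.LN
  H19.BrMap H19.BrMap2 H77.Cov1 H81.BrIdem
open scoped ComplexConjugate

namespace H81.Pair

universe u

section transport
variable {K G : Type u} [Group K] [Group G] [Finite K] [Finite G] {M : Ideal AlgInt} {p : ℕ}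

theorem map_Cn_subtype {N : Subgroup G} {P' : Subgroup N} (h : Cn (P'.map N.subtype) ≤ N) :
    (Cn P').map N.subtype = Cn (P'.map N.subtype) := by
  ext x
  constructor
  · rintro ⟨y, hy, rfl⟩
    rw [Subgroup.mem_centralizer_iff]
    rintro _ ⟨q, hq, rfl⟩
    have := Subgroup.mem_centralizer_iff.1 hy q hq
    exact congrArg N.subtype this
  · intro hx
    refine ⟨⟨x, h hx⟩, ?_, rfl⟩
    change (⟨x, h hx⟩ : N) ∈ Cn P'
    rw [Subgroup.mem_centralizer_iff]
    intro q hq
    apply Subtype.ext
    exact Subgroup.mem_centralizer_iff.1 hx q ⟨q, hq, rfl⟩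

theorem map_Cn_equiv (j : G ≃* G) (P : Subgroup G) :
    (Cn P).map j.toMonoidHom = Cn (P.map j.toMonoidHom) := by
  ext x
  constructor
  · rintro ⟨y, hy, rfl⟩
    rw [Subgroup.mem_centralizer_iff]
    rintro _ ⟨q, hq, rfl⟩
    have := Subgroup.mem_centralizer_iff.1 hy q hq
    change j q * j y = j y * j q
    rw [← map_mul, ← map_mul, this]
  · intro hx
    refine ⟨j.symm x, ?_, by simp⟩
    change j.symm x ∈ Cn P
    rw [Subgroup.mem_centralizer_iff]
    intro q hq
    apply j.injective
    have := Subgroup.mem_centralizer_iff.1 hx (j q) ⟨q, hq, rfl⟩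
    simpa using this

theorem zp_iff [M.IsPrime] (j : K →* G) (hj : Function.Injective j) {P' : Subgroup K}
    {P : Subgroup G} (hP : P'.map j = P) (hH : (Cn P').map j = Cn P) (ξ : IrrCharacter (Cn P')) :
    Zp M p P (pull (tr j hj hH) ξ) ↔ Zp M p P' ξ := by
  constructor
  · intro h R' hR' hRC y' hy' hcoef
    have h1 := h (R'.map j) (hR'.map j) (by rw [← hH]; exact Subgroup.map_mono hRC)
      ((tr j hj hH).symm y') (by
        rintro _ ⟨r, hr, rfl⟩
        rw [Subgroup.mem_centralizer_singleton_iff]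
        have e1 := tr_apply j hj hH ((tr j hj hH).symm y')
        rw [MulEquiv.apply_symm_apply] at e1
        rw [← e1, ← map_mul, ← map_mul, Subgroup.mem_centralizer_singleton_iff.1 (hy' hr)]) (by
        rw [blockCoeff_pull, MulEquiv.apply_symm_apply]
        exact hcoef)
    intro r hr
    have h2 := h1 ⟨r, hr, rfl⟩
    rw [← hP] at h2
    obtain ⟨x, hx, hxr⟩ := h2
    rwa [← hj hxr]
  · intro h R hR hRC y hy hcoef
    have hmap : (R.comap j).map j = R := by
      apply Subgroup.map_comap_eq_self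
      intro r hr
      have := hRC hr
      rw [← hH] at this
      obtain ⟨x, _, hx⟩ := this
      exact ⟨x, hx⟩
    have h1 := h (R.comap j) (hR.comap_of_injective j hj) (by
      intro k hk
      have := hRC (Subgroup.mem_comap.1 hk)
      rw [← hH] at this
      obtain ⟨x, hx, hxk⟩ := this
      rwa [← hj hxk]) (tr j hj hH y) (by
        intro k hk
        rw [Subgroup.mem_centralizer_singleton_iff]
        apply hj
        rw [map_mul, map_mul, tr_apply]
        exact Subgroup.mem_centralizer_singleton_iff.1 (hy (Subgroup.mem_comap.1 hk))) (by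
        rwa [blockCoeff_pull] at hcoef)
    rw [← hmap, ← hP]
    exact Subgroup.map_mono h1

end transport

section step
variable {G : Type u} [Group G] [Finite G] {M : Ideal AlgInt} {p : ℕ}

/-- functions to be evaluated: local integers on `C(Q)`, invariant under `N(Q)`. -/
def Inv (M : Ideal AlgInt) (Q : Subgroup G) (f : G → ℂ) : Prop :=
  (∀ x ∈ Cn Q, MemLocalRing M (f x)) ∧
    ∀ n ∈ Subgroup.normalizer (Q : Set G), ∀ x ∈ Cn Q, f (n * x * n⁻¹) = f x

theorem inv_zc [M.IsPrime] (Q : Subgroup G) {z : ZG G} (hz : z ∈ zr M G) : Inv M Q (zc z) :=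
  ⟨fun x _ => hz x, fun n _ x _ => zc_class z x n⟩

/-- the normalizer step: pairs `(Q, θ)` extend to pairs `(P, ξ)`, unless `Q` is a defect group. -/
theorem step (hM : IsPModular p M) [M.IsPrime] {Q : Subgroup G} (hQ : IsPGroup p Q)
    (θ : IrrCharacter (Cn Q)) {B : Set (IrrCharacter G)} (hB : IsPBlock M B)
    (hθ : ∀ χ ∈ B, Dn M θ χ) :
    IsDefectGroup p M B Q ∨ ∃ P : Subgroup G, Q < P ∧ IsPGroup p P ∧
      P ≤ Subgroup.normalizer (Q : Set G) ∧ ∃ ξ : IrrCharacter (Cn P),
        (∀ f : G → ℂ, Inv M Q f → MemLocalIdeal M (ev ξ f - ev θ f)) ∧ Zp M p P ξ ∧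
        (Zp M p Q θ → P ⊓ Cn Q ≤ Q) := by
  classical
  haveI : Fact p.Prime := ⟨pm_prime hM⟩
  set N := Subgroup.normalizer (Q : Set G) with hN
  have hQN : Q ≤ N := Subgroup.le_normalizer
  set Q' := Q.subgroupOf N with hQ'
  haveI hQn : Q'.Normal := by rw [hQ', hN]; exact Subgroup.normal_in_normalizer
  have hQ'p : IsPGroup p Q' := hQ.comap_of_injective _ (Subgroup.subtype_injective _)
  have hQmap : Q'.map N.subtype = Q := by
    rw [hQ', Subgroup.subgroupOf_map_subtype, inf_of_le_left hQN]
  have hCQ : (Cn Q').map N.subtype = Cn Q := by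
    rw [map_Cn_subtype (by rw [hQmap]; exact Cn_le_N Q), hQmap]
  have hj : Function.Injective N.subtype := Subgroup.subtype_injective N
  set θ' : IrrCharacter (Cn Q') := pull (tr N.subtype hj hCQ).symm θ with hθ'
  have hθθ' : pull (tr N.subtype hj hCQ) θ' = θ := pull_pull_symm _ θ
  obtain ⟨χ', hχ'⟩ := exists_up hM hQ'p θ'
  obtain ⟨P', hP'⟩ := exists_isDefectGroup hM (isPBlock_blockOf χ')
  have hQP' : Q' ≤ P' := le_trans (le_sSup ⟨hQn, hQ'p⟩ : Q' ≤ pCore p N)
    (Cfsg.Agent.S0912.result p M hM _ (isPBlock_blockOf χ') P' hP')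
  by_cases hcase : P' = Q'
  · left
    rw [hcase] at hP'
    obtain ⟨B', hB', hB'Q, hind⟩ := (Cfsg.Agent.S0920.result p M hM Q hQ).1
      (blockOf M (χ' : N → ℂ)) (isPBlock_blockOf χ') hP'
    obtain ⟨χ, hχ⟩ := isPBlock_nonempty hB'
    have h1 : Dn M θ χ := by
      intro z hz
      have h2 := isInducedBlock_omega hind (mem_blockOf_self χ') hχ hz
      have h3 := hχ' _ (resZ_mem N hz)
      have h4 : omega θ' (resZ (Cn Q') (resZ N z)) = omega θ (resZ (Cn Q) z) := by
        rw [ev_resZ θ, ← hθθ', ev_pull]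
        exact omega_eq_ev _ _ _ fun h => by rw [zc_resZ, zc_resZ]; rfl
      rw [h4] at h3
      exact locI_trans h3 h2
    obtain ⟨χ0, hχ0⟩ := isPBlock_nonempty hB
    have h5 := (hθ χ0 hχ0).sameBlock h1
    have h6 : χ ∈ B := (isPBlock_mem_iff hB hχ0 χ).2 h5
    rw [isPBlock_eq_of_mem hB hB' h6 hχ]
    exact hB'Q
  · right
    obtain ⟨ξ', hξ', hξZ⟩ := exists_root hM (isPBlock_blockOf χ') hP'
    set P := P'.map N.subtype with hP
    have hQP : Q ≤ P := by rw [← hQmap]; exact Subgroup.map_mono hQP'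
    have hCP : (Cn P').map N.subtype = Cn P :=
      map_Cn_subtype ((Cn_anti hQP).trans (Cn_le_N Q))
    have hPp' := isPGroup_of_isDefectGroup hP'
    refine ⟨P, lt_of_le_of_ne hQP ?_, hPp'.map _, ?_, pull (tr N.subtype hj hCP) ξ', ?_, ?_, ?_⟩
    · intro h
      apply hcase
      have h1 : Q'.map N.subtype = P'.map N.subtype := by rw [hQmap, h]
      exact (Subgroup.map_injective hj h1).symm
    · rintro _ ⟨x, _, rfl⟩
      exact x.2
    · intro f hf
      -- the central element of `N`
      have hcl : IsClassFunction N (fun k : N => if (k : N) ∈ Cn Q' then f (k : G) else 0) := by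
        intro g h
        have h0 : h * g * h⁻¹ ∈ Cn Q' ↔ g ∈ Cn Q' := by
          have hnn : (Cn Q').Normal := inferInstance
          constructor
          · intro h1
            have := hnn.conj_mem _ h1 h⁻¹
            have e : h⁻¹ * (h * g * h⁻¹) * h⁻¹⁻¹ = g := by group
            rwa [e] at this
          · intro h1; exact hnn.conj_mem _ h1 h
        by_cases hg : g ∈ Cn Q'
        · have hgQ : (g : G) ∈ Cn Q := by rw [← hCQ]; exact ⟨g, hg, rfl⟩
          simp only [if_pos hg, if_pos (h0.2 hg)]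
          have := hf.2 h h.2 g hgQ
          simpa using this
        · simp only [if_neg hg, if_neg (fun hc => hg (h0.1 hc))]
      let zf : ZG N := zof _ hcl
      have hzf : zf ∈ zr M N := by
        intro k
        change MemLocalRing M (if (k : N) ∈ Cn Q' then f (k : G) else 0)
        by_cases hk : k ∈ Cn Q'
        · rw [if_pos hk]
          exact hf.1 _ (by rw [← hCQ]; exact ⟨k, hk, rfl⟩)
        · rw [if_neg hk]; exact locR_zero
      have h1 := hξ' χ' (mem_blockOf_self χ') zf hzf
      have h2 := hχ' zf hzf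
      have h3 : omega ξ' (resZ (Cn P') zf) = ev (pull (tr N.subtype hj hCP) ξ') f := by
        rw [ev_pull]
        refine omega_eq_ev _ _ _ fun h => ?_
        rw [zc_resZ]
        exact if_pos (Cn_anti hQP' h.2)
      have h4 : omega θ' (resZ (Cn Q') zf) = ev θ f := by
        rw [← hθθ', ev_pull]
        refine omega_eq_ev _ _ _ fun h => ?_
        rw [zc_resZ]
        exact if_pos h.2
      rw [h3] at h1
      rw [h4] at h2
      exact locI_trans h1 (locI_sub_comm.1 h2)
    · exact (zp_iff N.subtype hj rfl hCP ξ').2 hξZ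
    · intro hZ
      rw [← hθθ', zp_iff N.subtype hj hQmap hCQ] at hZ
      have h1 := defect_inf_le hM Q' hQ'p hZ hχ' hP'
      rintro x ⟨⟨y, hy, hyx⟩, hxC⟩
      rw [← hCQ] at hxC
      obtain ⟨y', hy', hy'x⟩ := hxC
      have h2 : y = y' := hj (hyx.trans hy'x.symm)
      subst h2
      have h3 := h1 ⟨hy, hy'⟩
      rw [← hyx, ← hQmap]
      exact ⟨y, h3, rfl⟩

end step

end H81.Pair
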