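import Cfsg.Agent.Lib.H81.Pair3

/-!
# Brauer pairs, elementary version: chains up to a defect group
-/

set_option autoImplicit false
set_option linter.unusedSectionVars false
set_option linter.unusedVariables false
set_option linter.style.haveILetI false
open Cfsg H20.Loc H20.GA H20.Blk H20.DefGrp H20.Orth H20.Defect H20.Nil H20.Ind H20.LN
  H19.BrMap H19.BrMap2 H77.Cov1 H81.BrIdem
open scoped ComplexConjugate

namespace H81.Pair

universe u
variable {G : Type u} [Group G] [Finite G] {M : Ideal AlgInt} {p : ℕ}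

theorem dn_of_inv [M.IsPrime] {P Q : Subgroup G} {ξ : IrrCharacter (Cn P)}
    {θ : IrrCharacter (Cn Q)}
    (h : ∀ f : G → ℂ, Inv M Q f → MemLocalIdeal M (ev ξ f - ev θ f)) {χ : IrrCharacter G}
    (hθ : Dn M θ χ) : Dn M ξ χ := by
  intro z hz
  rw [ev_resZ]
  have h1 := hθ z hz
  rw [ev_resZ] at h1
  exact locI_trans (h _ (inv_zc Q hz)) h1

/-- a chain of pairs ending in a defect group `D`, with `Z(D) ≤ Q`. -/
theorem exists_defect_ge (hM : IsPModular p M) [M.IsPrime] {B : Set (IrrCharacter G)}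
    (hB : IsPBlock M B) (n : ℕ) : ∀ (Q : Subgroup G), Nat.card G - Nat.card Q = n →
    IsPGroup p Q → ∀ θ : IrrCharacter (Cn Q), (∀ χ ∈ B, Dn M θ χ) → Zp M p Q θ →
    ∃ D : Subgroup G, IsDefectGroup p M B D ∧ Q ≤ D ∧ D ⊓ Cn D ≤ Q := by
  induction n using Nat.strong_induction_on with
  | _ n ih =>
    intro Q hn hQ θ hθ hZ
    rcases step hM hQ θ hB hθ with h | ⟨P, hQP, hP, hPN, ξ, h1, h2, h3⟩
    · exact ⟨Q, h, le_rfl, inf_le_left⟩
    · have hlt : Nat.card Q < Nat.card P := Set.Finite.card_lt_card (Set.toFinite _) hQP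
      have hle : Nat.card P ≤ Nat.card G := Subgroup.card_le_card_group P
      obtain ⟨D, hD, hPD, hZD⟩ := ih (Nat.card G - Nat.card P) (by omega) P rfl hP ξ
        (fun χ hχ => dn_of_inv h1 (hθ χ hχ)) h2
      refine ⟨D, hD, hQP.le.trans hPD, ?_⟩
      intro x hx
      exact h3 hZ ⟨hZD hx, Cn_anti (hQP.le.trans hPD) hx.2⟩

section S4726
variable {H : Subgroup G} {b : Set (IrrCharacter H)} {D₀ : Subgroup H}

/-- root of `b` in `G` -/
theorem exists_root_sub (hM : IsPModular p M) [M.IsPrime] (hb : IsPBlock M b)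
    (hD₀ : IsDefectGroup p M b D₀) (hC : Cn (D₀.map H.subtype) ≤ H) :
    ∃ ξ : IrrCharacter (Cn (D₀.map H.subtype)), Zp M p (D₀.map H.subtype) ξ ∧
      ∀ ψ ∈ b, ∀ f : G → ℂ, (∀ x ∈ H, MemLocalRing M (f x)) →
        (∀ n ∈ H, ∀ x ∈ H, f (n * x * n⁻¹) = f x) → MemLocalIdeal M (ev ξ f - ev ψ f) := by
  obtain ⟨ξ', h1, h2⟩ := exists_root hM hb hD₀
  have hH : (Cn D₀).map H.subtype = Cn (D₀.map H.subtype) := map_Cn_subtype hC
  have hj : Function.Injective H.subtype := Subgroup.subtype_injective H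
  refine ⟨pull (tr H.subtype hj hH) ξ', (zp_iff H.subtype hj rfl hH ξ').2 h2, ?_⟩
  intro ψ hψ f hf1 hf2
  have hcl : IsClassFunction H (fun k : H => f (k : G)) := by
    intro g h
    have := hf2 h h.2 g g.2
    simpa using this
  let zf : ZG H := zof _ hcl
  have hzf : zf ∈ zr M H := fun k => hf1 _ k.2
  have h3 := h1 ψ hψ zf hzf
  have h4 : omega ξ' (resZ (Cn D₀) zf) = ev (pull (tr H.subtype hj hH) ξ') f := by
    rw [ev_pull]
    refine omega_eq_ev _ _ _ fun h => ?_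
    rw [zc_resZ]
    rfl
  have h5 : omega ψ zf = ev ψ f := omega_eq_ev _ _ _ fun h => rfl
  rwa [h4, h5] at h3

theorem induced_defined (hM : IsPModular p M) (hb : IsPBlock M b)
    (hD₀ : IsDefectGroup p M b D₀) (hC : Cn (D₀.map H.subtype) ≤ H) :
    InducedBlockDefined M H b := by
  haveI := pm_isPrime hM
  obtain ⟨ξ, _, h1⟩ := exists_root_sub hM hb hD₀ hC
  have hDp : IsPGroup p (D₀.map H.subtype) := (isPGroup_of_isDefectGroup hD₀).map _
  obtain ⟨χ, hχ⟩ := exists_up hM hDp ξ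
  refine ⟨blockOf M (χ : G → ℂ), ?_⟩
  rw [H20.Ind.isInducedBlock_iff]
  refine ⟨hb, isPBlock_blockOf χ, fun ψ hψ χ' hχ' z hz => ?_⟩
  have h2 := h1 ψ hψ (zc z) (fun x _ => hz x) (fun n _ x _ => zc_class z x n)
  have h3 := hχ z hz
  rw [ev_resZ] at h3 ⊢
  exact locI_trans (locI_trans (locI_sub_comm.1 h2) h3) (sameBlock_iff.1 hχ' z hz)

theorem main_S4726 (hM : IsPModular p M) (hb : IsPBlock M b)
    (hD₀ : IsDefectGroup p M b D₀) (hC : Cn (D₀.map H.subtype) ≤ H) {B : Set (IrrCharacter G)}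
    (hind : IsInducedBlock M H b B) :
    ∃ D : Subgroup G, IsDefectGroup p M B D ∧ D₀.map H.subtype ≤ D ∧
      D ⊓ Cn D ≤ D₀.map H.subtype := by
  haveI := pm_isPrime hM
  obtain ⟨ξ, hZ, h1⟩ := exists_root_sub hM hb hD₀ hC
  have hDp : IsPGroup p (D₀.map H.subtype) := (isPGroup_of_isDefectGroup hD₀).map _
  refine exists_defect_ge hM hind.2.1 _ (D₀.map H.subtype) rfl hDp ξ ?_ hZ
  intro χ hχ z hz
  obtain ⟨ψ, hψ⟩ := isPBlock_nonempty hb
  have h2 := h1 ψ hψ (zc z) (fun x _ => hz x) (fun n _ x _ => zc_class z x n)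
  have h3 := isInducedBlock_omega hind hψ hχ hz
  rw [ev_resZ] at h3 ⊢
  exact locI_trans h2 h3

theorem mem_center_map {D : Subgroup G} {x : G} :
    x ∈ (Subgroup.center D).map D.subtype ↔ x ∈ D ⊓ Cn D := by
  constructor
  · rintro ⟨y, hy, rfl⟩
    refine ⟨y.2, ?_⟩
    change (y : G) ∈ Cn D
    rw [Subgroup.mem_centralizer_iff]
    intro q hq
    have := Subgroup.mem_center_iff.1 hy ⟨q, hq⟩
    exact congrArg Subtype.val this
  · rintro ⟨hx, hxC⟩
    refine ⟨⟨x, hx⟩, ?_, rfl⟩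
    change (⟨x, hx⟩ : D) ∈ Subgroup.center D
    rw [Subgroup.mem_center_iff]
    intro q
    apply Subtype.ext
    exact Subgroup.mem_centralizer_iff.1 hxC q q.2

theorem final_S4726 (hM : IsPModular p M) (hb : IsPBlock M b)
    (hD₀ : IsDefectGroup p M b D₀) (hC : Cn (D₀.map H.subtype) ≤ H) :
    InducedBlockDefined M H b ∧ ∀ B : Set (IrrCharacter G), IsInducedBlock M H b B →
      (∃ D : Subgroup G, IsDefectGroup p M B D ∧ (Subgroup.center ↥D).map D.subtype ≤
        ((Subgroup.center ↥D₀).map D₀.subtype).map H.subtype ∧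
        ((Subgroup.center ↥D₀).map D₀.subtype).map H.subtype ≤ D₀.map H.subtype ∧
        D₀.map H.subtype ≤ D) ∧
      (∀ D : Subgroup G, IsDefectGroup p M B D → IsMulCommutative ↥D →
        IsDefectGroup p M B (D₀.map H.subtype)) := by
  refine ⟨induced_defined hM hb hD₀ hC, fun B hind => ?_⟩
  obtain ⟨D, hD, hle, hZ⟩ := main_S4726 hM hb hD₀ hC hind
  refine ⟨⟨D, hD, ?_, ?_, hle⟩, ?_⟩
  · intro x hx
    have h1 := mem_center_map.1 hx
    obtain ⟨y, hy, hyx⟩ := hZ h1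
    refine ⟨y, ?_, hyx⟩
    change y ∈ (Subgroup.center ↥D₀).map D₀.subtype
    rw [mem_center_map]
    refine ⟨hy, ?_⟩
    change y ∈ Cn D₀
    rw [Subgroup.mem_centralizer_iff]
    intro q hq
    apply Subtype.ext
    have h2 := Subgroup.mem_centralizer_iff.1 h1.2 q (hle ⟨q, hq, rfl⟩)
    change (q : G) * (y : G) = (y : G) * (q : G)
    have h3 : (y : G) = x := hyx
    rw [h3]
    exact h2
  · rintro _ ⟨y, hy, rfl⟩
    have := (mem_center_map.1 hy).1
    exact ⟨y, this, rfl⟩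
  · intro D' hD' hcomm
    obtain ⟨c, hc⟩ := isDefectGroup_conj hM hind.2.1 hD' hD
    have h1 : D ≤ Cn D := by
      intro x hx
      rw [Subgroup.mem_centralizer_iff]
      intro q hq
      rw [hc] at hx
      have hq' : q ∈ D'.map (MulAut.conj c).toMonoidHom := by rw [← hc]; exact hq
      obtain ⟨x', hx', rfl⟩ := hx
      obtain ⟨q', hq', rfl⟩ := hq'
      have h2 := hcomm.is_comm.comm (⟨q', hq'⟩ : D') ⟨x', hx'⟩
      have h3 : q' * x' = x' * q' := congrArg Subtype.val h2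
      rw [← map_mul, ← map_mul, h3]
    have h2 : D₀.map H.subtype = D := le_antisymm hle (fun x hx => hZ ⟨hx, h1 hx⟩)
    rw [h2]; exact hD

end S4726

end H81.Pair
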