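import Cfsg.Agent.Lib.H81.Pair4
import Cfsg.Agent.Lib.H20.NormQ
import Cfsg.Agent.Lib.H28.RelCore

/-!
# Brauer pairs, elementary version: kernels
-/

set_option autoImplicit false
set_option linter.unusedSectionVars false
set_option linter.unusedVariables false
set_option linter.style.haveILetI false
open Cfsg H20.Loc H20.GA H20.Blk H20.DefGrp H20.Orth H20.Defect H20.Nil H20.Ind H20.LN
  H19.BrMap H19.BrMap2 H77.Cov1 H81.BrIdem
open scoped ComplexConjugate

namespace H81.Pair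

universe u
variable {G : Type u} [Group G] [Finite G] {M : Ideal AlgInt} {p : ℕ}

open Classical in
/-- the averaging function of a subgroup -/
noncomputable def fR (R : Subgroup G) : G → ℂ := fun x => if x ∈ R then (Nat.card R : ℂ)⁻¹ else 0

theorem fR_of {R : Subgroup G} {x : G} (h : x ∈ R) : fR R x = (Nat.card R : ℂ)⁻¹ := if_pos h
theorem fR_not {R : Subgroup G} {x : G} (h : x ∉ R) : fR R x = 0 := if_neg h

/-- `R` is in the kernel of `θ` -/
def Tr {H : Subgroup G} (θ : IrrCharacter H) (R : Subgroup G) : Prop :=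
  ∀ h : H, (h : G) ∈ R → (θ : H → ℂ) h = (θ : H → ℂ) 1

theorem ev_fR_cases {H R : Subgroup G} (hRH : R ≤ H) (hHR : H ≤ Subgroup.normalizer (R : Set G))
    (θ : IrrCharacter H) :
    (ev θ (fR R) = 1 ∧ Tr θ R) ∨ (ev θ (fR R) = 0 ∧ ¬ Tr θ R) := by
  haveI hn : (R.subgroupOf H).Normal := (Subgroup.normal_subgroupOf_iff_le_normalizer hRH).2 hHR
  have hcard : Nat.card (R.subgroupOf H) = Nat.card R :=
    Nat.card_congr (Subgroup.subgroupOfEquivOfLe hRH).toEquiv
  have h1 : omega θ (H20.NormQ.eN (R.subgroupOf H)) = ev θ (fR R) := by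
    refine omega_eq_ev _ _ _ fun h => ?_
    by_cases hh : (h : G) ∈ R
    · rw [H20.NormQ.zc_eN_of _ (Subgroup.mem_subgroupOf.2 hh), hcard, fR_of hh]
    · rw [H20.NormQ.zc_eN_not _ (fun hc => hh (Subgroup.mem_subgroupOf.1 hc)), fR_not hh]
  have h2 : (∀ n ∈ R.subgroupOf H, (θ : H → ℂ) n = (θ : H → ℂ) 1) ↔ Tr θ R :=
    ⟨fun h n hn => h n (Subgroup.mem_subgroupOf.2 hn), fun h n hn => h n (Subgroup.mem_subgroupOf.1 hn)⟩
  rw [← h1]
  rcases H20.NormQ.omega_eN_zero_or_one (R.subgroupOf H) θ with h | h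
  · right
    refine ⟨h, fun hT => ?_⟩
    have := H20.NormQ.omega_eN_of (R.subgroupOf H) (h2.2 hT)
    rw [h] at this
    exact zero_ne_one this
  · left
    exact ⟨h, h2.1 (H20.NormQ.trivial_of_omega_eN (R.subgroupOf H) h)⟩

theorem ev_smul {H : Subgroup G} (θ : IrrCharacter H) (c : ℂ) (f : G → ℂ) :
    ev θ (fun x => c * f x) = c * ev θ f := by
  classical
  letI := Fintype.ofFinite H
  rw [ev, ev, finsum_eq_sum_of_fintype, finsum_eq_sum_of_fintype, ← mul_div_assoc,
    Finset.mul_sum]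
  congr 1
  exact Finset.sum_congr rfl fun h _ => by ring

/-- fixed points of a `p`-group on a `p'`-group -/
theorem card_fixed (hM : IsPModular p M) {P R : Subgroup G} (hP : IsPGroup p P)
    (hPR : P ≤ Subgroup.normalizer (R : Set G)) :
    MemLocalIdeal M ((Nat.card R : ℂ) - (Nat.card (R ⊓ Cn P : Subgroup G) : ℂ)) := by
  classical
  haveI := pm_isPrime hM
  letI := Fintype.ofFinite G
  have h1 := sum_centralizer_congr hM hP (fun x => if x ∈ R then (1 : ℂ) else 0)
    (fun x => by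
      split_ifs
      · exact locR_one
      · exact locR_zero) (fun q hq x => by
      have : q * x * q⁻¹ ∈ R ↔ x ∈ R := (Subgroup.mem_normalizer_iff.1 (hPR hq) x).symm
      simp only [this])
  have e1 : ∑ x : G, (if x ∈ R then (1 : ℂ) else 0) = (Nat.card R : ℂ) := by
    rw [← Finset.sum_filter, Finset.sum_const, nsmul_eq_mul, mul_one]
    congr 1
    rw [← Fintype.card_subtype, ← Nat.card_eq_fintype_card]
  have e2 : ∑ x : G, (if x ∈ Cn P then (if x ∈ R then (1 : ℂ) else 0) else 0) =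
      (Nat.card (R ⊓ Cn P : Subgroup G) : ℂ) := by
    have : ∀ x : G, (if x ∈ Cn P then (if x ∈ R then (1 : ℂ) else 0) else 0) =
        if x ∈ R ⊓ Cn P then 1 else 0 := by
      intro x
      by_cases h1 : x ∈ Cn P
      · by_cases h2 : x ∈ R
        · rw [if_pos h1, if_pos h2, if_pos (Subgroup.mem_inf.2 ⟨h2, h1⟩)]
        · rw [if_pos h1, if_neg h2, if_neg (fun h => h2 (Subgroup.mem_inf.1 h).1)]
      · rw [if_neg h1, if_neg (fun h => h1 (Subgroup.mem_inf.1 h).2)]
    simp_rw [this]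
    rw [← Finset.sum_filter, Finset.sum_const, nsmul_eq_mul, mul_one]
    congr 1
    rw [← Fintype.card_subtype, ← Nat.card_eq_fintype_card]
  rw [e1, e2] at h1
  exact h1

theorem tr_iff (hM : IsPModular p M) {H P R : Subgroup G} (θ : IrrCharacter H)
    (hP : IsPGroup p P) (ξ : IrrCharacter (Cn P)) (hRH : R ≤ H)
    (hHR : H ≤ Subgroup.normalizer (R : Set G)) (hPR : P ≤ Subgroup.normalizer (R : Set G))
    (hCR : Cn P ≤ Subgroup.normalizer (R : Set G)) (hpR : ¬ p ∣ Nat.card R)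
    (h : MemLocalIdeal M (ev ξ (fR R) - ev θ (fR R))) : Tr θ R ↔ Tr ξ (R ⊓ Cn P) := by
  haveI := pm_isPrime hM
  set R' := R ⊓ Cn P with hR'
  have hR'C : R' ≤ Cn P := inf_le_right
  have hR'n : Cn P ≤ Subgroup.normalizer (R' : Set G) := by
    intro x hx
    rw [Subgroup.mem_normalizer_iff]
    intro y
    have h1 := Subgroup.mem_normalizer_iff.1 (hCR hx) y
    have h2 := Subgroup.mem_normalizer_iff.1 ((Subgroup.le_normalizer : Cn P ≤ _) hx) y
    rw [hR', Subgroup.mem_inf, Subgroup.mem_inf, h1, h2]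
  have hc : (Nat.card R : ℂ) ≠ 0 := by exact_mod_cast (Nat.card_pos (α := R)).ne'
  have hc' : (Nat.card R' : ℂ) ≠ 0 := by exact_mod_cast (Nat.card_pos (α := R')).ne'
  -- restriction of `fR R` to `C(P)`
  have h1 : ev ξ (fR R) = ((Nat.card R' : ℂ) * (Nat.card R : ℂ)⁻¹) * ev ξ (fR R') := by
    rw [← ev_smul]
    refine ev_congr_fun ξ fun x hx => ?_
    by_cases hxR : x ∈ R
    · have e3 : fR R' x = (Nat.card R' : ℂ)⁻¹ := fR_of (Subgroup.mem_inf.2 ⟨hxR, hx⟩)
      rw [fR_of hxR, e3]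
      field_simp
    · rw [fR_not hxR, fR_not (fun hc => hxR (Subgroup.mem_inf.1 hc).1), mul_zero]
  have hratio : MemLocalIdeal M ((Nat.card R' : ℂ) * (Nat.card R : ℂ)⁻¹ - 1) := by
    have h2 := card_fixed hM hP hPR
    have h3 : (Nat.card R' : ℂ) * (Nat.card R : ℂ)⁻¹ - 1 =
        -(((Nat.card R : ℂ) - (Nat.card R' : ℂ)) * (Nat.card R : ℂ)⁻¹) := by
      field_simp; ring
    rw [h3]
    exact locI_neg (locI_mul_right h2 (locR_natCast_inv hM hpR))
  rcases ev_fR_cases hRH hHR θ with ⟨e1, t1⟩ | ⟨e1, t1⟩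
  · rcases ev_fR_cases hR'C hR'n ξ with ⟨e2, t2⟩ | ⟨e2, t2⟩
    · exact ⟨fun _ => t2, fun _ => t1⟩
    · exfalso
      rw [h1, e1, e2, mul_zero, zero_sub] at h
      have := locI_neg h
      rw [neg_neg] at this
      exact not_locI_one this
  · rcases ev_fR_cases hR'C hR'n ξ with ⟨e2, t2⟩ | ⟨e2, t2⟩
    · exfalso
      rw [h1, e1, e2, mul_one, sub_zero] at h
      have h2 := locI_sub h hratio
      rw [sub_sub_cancel] at h2
      exact not_locI_one h2
    · exact ⟨fun hh => absurd hh t1, fun hh => absurd hh t2⟩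

theorem inv_fR (hM : IsPModular p M) {Q R : Subgroup G}
    (hN : Subgroup.normalizer (Q : Set G) ≤ Subgroup.normalizer (R : Set G))
    (hpR : ¬ p ∣ Nat.card R) : Inv M Q (fR R) := by
  haveI := pm_isPrime hM
  constructor
  · intro x _
    by_cases h : x ∈ R
    · rw [fR_of h]; exact locR_natCast_inv hM hpR
    · rw [fR_not h]; exact locR_zero
  · intro n hn x _
    have h1 := Subgroup.mem_normalizer_iff.1 (hN hn) x
    by_cases h : x ∈ R
    · rw [fR_of h, fR_of (h1.1 h)]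
    · rw [fR_not h, fR_not (fun hc => h (h1.2 hc))]

theorem fR_local (hM : IsPModular p M) {R : Subgroup G} (hpR : ¬ p ∣ Nat.card R) (x : G) :
    MemLocalRing M (fR R x) := by
  haveI := pm_isPrime hM
  by_cases h : x ∈ R
  · rw [fR_of h]; exact locR_natCast_inv hM hpR
  · rw [fR_not h]; exact locR_zero

theorem fR_conj {R : Subgroup G} {n x : G} (hn : n ∈ Subgroup.normalizer (R : Set G)) :
    fR R (n * x * n⁻¹) = fR R x := by
  have h1 := Subgroup.mem_normalizer_iff.1 hn x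
  by_cases h : x ∈ R
  · rw [fR_of h, fR_of (h1.1 h)]
  · rw [fR_not h, fR_not (fun hc => h (h1.2 hc))]

end H81.Pair
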