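import Cfsg.Agent.Lib.H81.Pair5

/-!
# Brauer pairs, elementary version: `O_{π'}` of centralizers in kernels
-/

set_option autoImplicit false
set_option linter.unusedSectionVars false
set_option linter.unusedVariables false
set_option linter.style.haveILetI false
open Cfsg H20.Loc H20.GA H20.Blk H20.DefGrp H20.Orth H20.Defect H20.Nil H20.Ind H20.LN
  H19.BrMap H19.BrMap2 H77.Cov1 H81.BrIdem H28.RelCore H28.RelHall
open scoped ComplexConjugate

namespace H81.Pair

universe u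
variable {G : Type u} [Group G] [Finite G] {M : Ideal AlgInt} {p : ℕ} {π : Set ℕ}

/-- `O_{π'}(C(Q))` -/
abbrev RQ (π : Set ℕ) (Q : Subgroup G) : Subgroup G := piCoreOf {q | q ∉ π} (Cn Q)

theorem not_dvd_of_piG (hp : p.Prime) (hpπ : p ∈ π) {R : Subgroup G} (h : PiG {q | q ∉ π} R) :
    ¬ p ∣ Nat.card R := fun hd => h p hp hd hpπ

theorem RQ_inf_le {P Q : Subgroup G} (hQP : Q ≤ P) : RQ π Q ⊓ Cn P ≤ RQ π P := by
  refine le_piCoreOf inf_le_right ?_ ((piG_piCoreOf _ (Cn Q)).mono inf_le_left)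
  intro x hx
  have h1 : x ∈ Subgroup.normalizer (RQ π Q : Set G) := le_normalizer_piCoreOf _ _ (Cn_anti hQP hx)
  rw [Subgroup.mem_normalizer_iff]
  intro y
  have h2 := Subgroup.mem_normalizer_iff.1 h1 y
  have h3 := Subgroup.mem_normalizer_iff.1 ((Subgroup.le_normalizer : Cn P ≤ _) hx) y
  rw [Subgroup.mem_inf, Subgroup.mem_inf, h2, h3]

theorem N_le_N_RQ (Q : Subgroup G) : Subgroup.normalizer (Q : Set G) ≤
    Subgroup.normalizer (RQ π Q : Set G) := by
  refine le_trans ?_ (normalizer_le_normalizer_piCoreOf _ (Cn Q))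
  intro n hn
  rw [Subgroup.mem_normalizer_iff]
  intro x
  exact (conj_mem_centralizer_iff hn).symm

/-- the step for kernels -/
theorem tr_RQ_iff (hM : IsPModular p M) (hpπ : p ∈ π) {P Q : Subgroup G} (hQP : Q ≤ P)
    (hP : IsPGroup p P) (hPN : P ≤ Subgroup.normalizer (Q : Set G)) {ξ : IrrCharacter (Cn P)}
    {θ : IrrCharacter (Cn Q)}
    (h : ∀ f : G → ℂ, Inv M Q f → MemLocalIdeal M (ev ξ f - ev θ f)) :
    Tr θ (RQ π Q) ↔ Tr ξ (RQ π Q ⊓ Cn P) := by
  have hnd := not_dvd_of_piG (pm_prime hM) hpπ (piG_piCoreOf _ (Cn Q))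
  refine tr_iff hM θ hP ξ (piCoreOf_le _ _) (le_normalizer_piCoreOf _ _)
    (hPN.trans (N_le_N_RQ Q)) ((Cn_anti hQP).trans (le_normalizer_piCoreOf _ _)) hnd
    (h _ (inv_fR hM (N_le_N_RQ Q) hnd))

theorem tr_mono {H R R' : Subgroup G} {θ : IrrCharacter H} (h : R' ≤ R) (hT : Tr θ R) : Tr θ R' :=
  fun x hx => hT x (h hx)

/-- downward induction -/
theorem down (hM : IsPModular p M) [M.IsPrime] (hpπ : p ∈ π) {B : Set (IrrCharacter G)}
    (hB : IsPBlock M B)
    (htop : ∀ (Q : Subgroup G) (θ : IrrCharacter (Cn Q)), IsDefectGroup p M B Q →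
      (∀ χ ∈ B, Dn M θ χ) → Tr θ (RQ π Q)) (n : ℕ) :
    ∀ (Q : Subgroup G), Nat.card G - Nat.card Q = n → IsPGroup p Q →
      ∀ θ : IrrCharacter (Cn Q), (∀ χ ∈ B, Dn M θ χ) → Tr θ (RQ π Q) := by
  induction n using Nat.strong_induction_on with
  | _ n ih =>
    intro Q hn hQ θ hθ
    rcases step hM hQ θ hB hθ with h | ⟨P, hQP, hP, hPN, ξ, h1, h2, h3⟩
    · exact htop Q θ h hθ
    · have hlt : Nat.card Q < Nat.card P := Set.Finite.card_lt_card (Set.toFinite _) hQP
      have hle : Nat.card P ≤ Nat.card G := Subgroup.card_le_card_group P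
      have h4 := ih (Nat.card G - Nat.card P) (by omega) P rfl hP ξ
        (fun χ hχ => dn_of_inv h1 (hθ χ hχ))
      rw [tr_RQ_iff hM hpπ hQP.le hP hPN h1]
      exact tr_mono (RQ_inf_le hQP.le) h4

/-- the `π'`-elements of `C(Q)` lie in `O_{π'}(C(Q))`. -/
def HallC (π : Set ℕ) (Q : Subgroup G) : Prop :=
  ∀ x ∈ Cn Q, (∀ q : ℕ, q.Prime → q ∣ orderOf x → q ∉ π) → x ∈ RQ π Q

theorem orderOf_of_mem_RQ {Q : Subgroup G} {x : G} (hx : x ∈ RQ π Q) :
    ∀ q : ℕ, q.Prime → q ∣ orderOf x → q ∉ π := by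
  intro q hq hd
  have h1 : orderOf x ∣ Nat.card (RQ π Q) := by
    have := orderOf_dvd_natCard (⟨x, hx⟩ : RQ π Q)
    rwa [Subgroup.orderOf_mk] at this
  exact piG_piCoreOf {q | q ∉ π} (Cn Q) q hq (hd.trans h1)

theorem RQ_eq_of_hall {P Q : Subgroup G} (hQP : Q ≤ P) (h : HallC π Q) :
    RQ π P = RQ π Q ⊓ Cn P := by
  refine le_antisymm ?_ (RQ_inf_le hQP)
  intro x hx
  have hxC : x ∈ Cn P := piCoreOf_le _ _ hx
  exact ⟨h x (Cn_anti hQP hxC) (orderOf_of_mem_RQ hx), hxC⟩

theorem hallC_mono {P Q : Subgroup G} (hQP : Q ≤ P) (h : HallC π Q) : HallC π P := by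
  intro x hx hπ
  rw [RQ_eq_of_hall hQP h]
  exact ⟨h x (Cn_anti hQP hx) hπ, hx⟩

/-- upward induction -/
theorem up_chain (hM : IsPModular p M) [M.IsPrime] (hpπ : p ∈ π) {B : Set (IrrCharacter G)}
    (hB : IsPBlock M B) (n : ℕ) :
    ∀ (Q : Subgroup G), Nat.card G - Nat.card Q = n → IsPGroup p Q →
      ∀ θ : IrrCharacter (Cn Q), (∀ χ ∈ B, Dn M θ χ) → HallC π Q → Tr θ (RQ π Q) →
      ∃ (D : Subgroup G) (ξ : IrrCharacter (Cn D)), IsDefectGroup p M B D ∧
        (∀ χ ∈ B, Dn M ξ χ) ∧ Tr ξ (RQ π D) := by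
  induction n using Nat.strong_induction_on with
  | _ n ih =>
    intro Q hn hQ θ hθ hH hT
    rcases step hM hQ θ hB hθ with h | ⟨P, hQP, hP, hPN, ξ, h1, h2, h3⟩
    · exact ⟨Q, θ, h, hθ, hT⟩
    · have hlt : Nat.card Q < Nat.card P := Set.Finite.card_lt_card (Set.toFinite _) hQP
      have hle : Nat.card P ≤ Nat.card G := Subgroup.card_le_card_group P
      refine ih (Nat.card G - Nat.card P) (by omega) P rfl hP ξ
        (fun χ hχ => dn_of_inv h1 (hθ χ hχ)) (hallC_mono hQP.le hH) ?_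
      rw [RQ_eq_of_hall hQP.le hH]
      exact (tr_RQ_iff hM hpπ hQP.le hP hPN h1).1 hT

/-- evaluation of functions for characters of `N(D)` and of `C(D)`. -/
theorem ev_N_congr (hM : IsPModular p M) [M.IsPrime] {D : Subgroup G} {B : Set (IrrCharacter G)}
    (hB : IsPBlock M B) (hBD : IsDefectGroup p M B D)
    {B₁ : Set (IrrCharacter (Subgroup.normalizer (D : Set G)))}
    (hB₁ : IsInducedBlock M (Subgroup.normalizer (D : Set G)) B₁ B)
    (hB₁D : IsDefectGroup p M B₁ (D.subgroupOf (Subgroup.normalizer (D : Set G))))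
    (θ : IrrCharacter (Cn D)) (hθ : ∀ χ ∈ B, Dn M θ χ)
    (ψ : IrrCharacter (Subgroup.normalizer (D : Set G))) (hψ : ψ ∈ B₁) (f : G → ℂ)
    (hf : Inv M D f) (hf0 : ∀ x ∉ Cn D, f x = 0) : MemLocalIdeal M (ev θ f - ev ψ f) := by
  classical
  haveI : Fact p.Prime := ⟨pm_prime hM⟩
  have hD := isPGroup_of_isDefectGroup hBD
  have hQN : D ≤ (Subgroup.normalizer (D : Set G)) := Subgroup.le_normalizer
  have hN : Subgroup.normalizer (D : Set G) = Subgroup.normalizer (D : Set G) := rfl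
  let Q' := D.subgroupOf (Subgroup.normalizer (D : Set G))
  have hQ' : Q' = D.subgroupOf (Subgroup.normalizer (D : Set G)) := rfl
  haveI hQn : Q'.Normal := Subgroup.normal_in_normalizer
  have hQ'p : IsPGroup p Q' := hD.comap_of_injective _ (Subgroup.subtype_injective _)
  have hQmap : Q'.map (Subgroup.normalizer (D : Set G)).subtype = D := by
    rw [hQ', Subgroup.subgroupOf_map_subtype, inf_of_le_left hQN]
  have hCQ : (Cn Q').map (Subgroup.normalizer (D : Set G)).subtype = Cn D := by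
    rw [map_Cn_subtype (by rw [hQmap]; exact Cn_le_N D), hQmap]
  have hj : Function.Injective (Subgroup.normalizer (D : Set G)).subtype := Subgroup.subtype_injective (Subgroup.normalizer (D : Set G))
  set θ' : IrrCharacter (Cn Q') := pull (tr (Subgroup.normalizer (D : Set G)).subtype hj hCQ).symm θ with hθ'
  have hθθ' : pull (tr (Subgroup.normalizer (D : Set G)).subtype hj hCQ) θ' = θ := pull_pull_symm _ θ
  obtain ⟨χ', hχ'⟩ := exists_up hM hQ'p θ'
  -- the block of `χ'` induces `B`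
  have hind : IsInducedBlock M (Subgroup.normalizer (D : Set G)) (blockOf M (χ' : (Subgroup.normalizer (D : Set G)) → ℂ)) B := by
    obtain ⟨B', hB'⟩ := exists_induced hM hD Subgroup.le_normalizer
      (Subgroup.centralizer_le_normalizer _) le_rfl (isPBlock_blockOf χ')
    obtain ⟨χ, hχ⟩ := isPBlock_nonempty hB'.2.1
    have h1 : Dn M θ χ := by
      intro z hz
      have h2 := isInducedBlock_omega hB' (mem_blockOf_self χ') hχ hz
      have h3 := hχ' _ (resZ_mem (Subgroup.normalizer (D : Set G)) hz)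
      have h4 : omega θ' (resZ (Cn Q') (resZ (Subgroup.normalizer (D : Set G)) z)) = omega θ (resZ (Cn D) z) := by
        rw [ev_resZ θ, ← hθθ', ev_pull]
        exact omega_eq_ev _ _ _ fun h => by rw [zc_resZ, zc_resZ]; rfl
      rw [h4] at h3
      exact locI_trans h3 h2
    obtain ⟨χ0, hχ0⟩ := isPBlock_nonempty hB
    have h5 := (hθ χ0 hχ0).sameBlock h1
    have h6 : χ ∈ B := (isPBlock_mem_iff hB hχ0 χ).2 h5
    rw [isPBlock_eq_of_mem hB hB'.2.1 h6 hχ]
    exact hB'
  have hdef := defect_of_induced D hM Subgroup.le_normalizer le_rfl hind hBD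
  obtain ⟨b0, _, huniq⟩ := (Cfsg.Agent.S0920.result p M hM D hD).2 B hB hBD
  have e1 := huniq _ ⟨isPBlock_blockOf χ', hdef, hind⟩
  have e2 := huniq _ ⟨hB₁.1, hB₁D, hB₁⟩
  have hψχ : ψ ∈ blockOf M (χ' : (Subgroup.normalizer (D : Set G)) → ℂ) := by rw [e1, ← e2]; exact hψ
  have hDn : Dn M θ' ψ := hχ'.congr_right hψχ
  -- the central element
  have hcl : IsClassFunction (Subgroup.normalizer (D : Set G)) (fun k : (Subgroup.normalizer (D : Set G)) => f (k : G)) := by
    intro g h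
    by_cases hg : (g : G) ∈ Cn D
    · have := hf.2 h h.2 g hg
      simpa using this
    · have h1 : ((h * g * h⁻¹ : (Subgroup.normalizer (D : Set G))) : G) ∉ Cn D := by
        intro hc
        apply hg
        have := conj_mem_centralizer_iff (P := D) (g := (g : G)) h.2
        simpa using this.1 (by simpa using hc)
      simp only
      rw [hf0 _ hg, hf0 _ h1]
  let zf : ZG (Subgroup.normalizer (D : Set G)) := zof _ hcl
  have hzf : zf ∈ zr M (Subgroup.normalizer (D : Set G)) := by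
    intro k
    change MemLocalRing M (f (k : G))
    by_cases hk : (k : G) ∈ Cn D
    · exact hf.1 _ hk
    · rw [hf0 _ hk]; exact locR_zero
  have h1 := hDn zf hzf
  have h2 : omega ψ zf = ev ψ f := omega_eq_ev _ _ _ fun h => rfl
  have h3 : omega θ' (resZ (Cn Q') zf) = ev θ f := by
    rw [← hθθ', ev_pull]
    exact omega_eq_ev _ _ _ fun h => by rw [zc_resZ]; rfl
  rwa [h2, h3] at h1

/-- `O_{π'}(N(D)) = O_{π'}(C(D))`. -/
theorem piCoreOf_N_eq (hp : p.Prime) (hpπ : p ∈ π) {D : Subgroup G} (hD : IsPGroup p D) :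
    piCoreOf {q | q ∉ π} (Subgroup.normalizer (D : Set G)) = RQ π D := by
  haveI : Fact p.Prime := ⟨hp⟩
  set X := piCoreOf {q | q ∉ π} (Subgroup.normalizer (D : Set G)) with hX
  have hXN : X ≤ Subgroup.normalizer (D : Set G) := piCoreOf_le _ _
  have hNX : Subgroup.normalizer (D : Set G) ≤ Subgroup.normalizer (X : Set G) :=
    le_normalizer_piCoreOf _ _
  have hXp : ¬ p ∣ Nat.card X := not_dvd_of_piG hp hpπ (piG_piCoreOf _ _)
  have hXC : X ≤ Cn D := by
    intro x hx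
    rw [Subgroup.mem_centralizer_iff]
    intro d hd
    -- the commutator lies in `X ∩ D`
    have h1 : d * x * d⁻¹ * x⁻¹ ∈ X := by
      refine X.mul_mem ?_ (X.inv_mem hx)
      exact (Subgroup.mem_normalizer_iff.1 (hNX (Subgroup.le_normalizer hd)) x).1 hx
    have h2 : d * x * d⁻¹ * x⁻¹ ∈ D := by
      have := (Subgroup.mem_normalizer_iff.1 (hXN hx) d⁻¹).1 (D.inv_mem hd)
      have h3 := D.mul_mem hd this
      simpa [mul_assoc] using h3
    have h3 : orderOf (d * x * d⁻¹ * x⁻¹) ∣ Nat.card X := by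
      have := orderOf_dvd_natCard (⟨_, h1⟩ : X)
      rwa [Subgroup.orderOf_mk] at this
    obtain ⟨k, hk⟩ := IsPGroup.iff_orderOf.1 hD ⟨_, h2⟩
    rw [Subgroup.orderOf_mk] at hk
    have h4 : k = 0 := by
      by_contra hne
      apply hXp
      refine dvd_trans ?_ h3
      rw [hk]
      exact dvd_pow_self p hne
    rw [h4, pow_zero, orderOf_eq_one_iff] at hk
    have h5 : d * x * d⁻¹ = x := mul_inv_eq_one.1 hk
    exact mul_inv_eq_iff_eq_mul.1 h5
  have h1 := piCoreOf_of_normal (π := {q | q ∉ π}) (Cn_le_N D) (by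
    intro n hn
    rw [Subgroup.mem_normalizer_iff]
    intro x
    exact (conj_mem_centralizer_iff hn).symm)
  change X = piCoreOf {q | q ∉ π} (Cn D)
  rw [h1, ← hX, inf_of_le_right hXC]

/-- kernels at the top, `Q = D` -/
theorem tr_top_iff (hM : IsPModular p M) [M.IsPrime] (hpπ : p ∈ π) {D : Subgroup G}
    {B : Set (IrrCharacter G)}
    (hB : IsPBlock M B) (hBD : IsDefectGroup p M B D)
    {B₁ : Set (IrrCharacter (Subgroup.normalizer (D : Set G)))}
    (hB₁ : IsInducedBlock M (Subgroup.normalizer (D : Set G)) B₁ B)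
    (hB₁D : IsDefectGroup p M B₁ (D.subgroupOf (Subgroup.normalizer (D : Set G))))
    (θ : IrrCharacter (Cn D)) (hθ : ∀ χ ∈ B, Dn M θ χ)
    (ψ : IrrCharacter (Subgroup.normalizer (D : Set G))) (hψ : ψ ∈ B₁) :
    Tr θ (RQ π D) ↔ Tr ψ (RQ π D) := by
  have hD := isPGroup_of_isDefectGroup hBD
  have hnd := not_dvd_of_piG (pm_prime hM) hpπ (piG_piCoreOf {q | q ∉ π} (Cn D))
  have h1 := ev_N_congr hM hB hBD hB₁ hB₁D θ hθ ψ hψ (fR (RQ π D))
    (inv_fR hM (N_le_N_RQ D) hnd) (fun x hx => fR_not fun hc => hx (piCoreOf_le _ _ hc))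
  have hle : RQ π D ≤ Subgroup.normalizer (D : Set G) := (piCoreOf_le _ _).trans (Cn_le_N D)
  rcases ev_fR_cases (piCoreOf_le _ _ : RQ π D ≤ Cn D) (le_normalizer_piCoreOf _ _) θ with
    ⟨e1, t1⟩ | ⟨e1, t1⟩
  · rcases ev_fR_cases hle (N_le_N_RQ D) ψ with ⟨e2, t2⟩ | ⟨e2, t2⟩
    · exact ⟨fun _ => t2, fun _ => t1⟩
    · exfalso
      rw [e1, e2, sub_zero] at h1
      exact not_locI_one h1
  · rcases ev_fR_cases hle (N_le_N_RQ D) ψ with ⟨e2, t2⟩ | ⟨e2, t2⟩
    · exfalso
      rw [e1, e2, zero_sub] at h1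
      have := locI_neg h1
      rw [neg_neg] at this
      exact not_locI_one this
    · exact ⟨fun hh => absurd hh t1, fun hh => absurd hh t2⟩

/-- conjugation of pairs -/
theorem exists_conj_pair (hM : IsPModular p M) [M.IsPrime] {Q : Subgroup G}
    (θ : IrrCharacter (Cn Q)) (g : G) :
    ∃ θ' : IrrCharacter (Cn (Q.map (MulAut.conj g).toMonoidHom)),
      (∀ χ : IrrCharacter G, Dn M θ χ → Dn M θ' χ) ∧
      (Tr θ (RQ π Q) ↔ Tr θ' (RQ π (Q.map (MulAut.conj g).toMonoidHom))) := by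
  have hH : (Cn Q).map (MulAut.conj g).toMonoidHom = Cn (Q.map (MulAut.conj g).toMonoidHom) :=
    map_Cn_equiv (MulAut.conj g) Q
  have hj : Function.Injective (MulAut.conj g).toMonoidHom := (MulAut.conj g).injective
  refine ⟨pull (tr (MulAut.conj g).toMonoidHom hj hH) θ, ?_, ?_⟩
  · intro χ hχ z hz
    have h1 := hχ z hz
    rw [ev_resZ] at h1 ⊢
    rw [ev_pull]
    have h2 : (fun k => zc z ((MulAut.conj g).toMonoidHom k)) = zc z := by
      funext k
      exact zc_class z k g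
    rw [h2]
    exact h1
  · -- the cores correspond
    have hcore : RQ π (Q.map (MulAut.conj g).toMonoidHom) =
        (RQ π Q).map (MulAut.conj g).toMonoidHom := by
      have h1 := piCoreOf_cj {q | q ∉ π} g (Cn Q)
      have h2 : H28.Cj.cj g (Cn Q) = Cn (Q.map (MulAut.conj g).toMonoidHom) := hH
      rw [h2] at h1
      exact h1
    rw [hcore]
    constructor
    · intro h x hx
      rw [pull_apply, pull_apply, map_one]
      apply h
      obtain ⟨y, hy, hyx⟩ := hx
      have h3 := tr_apply (MulAut.conj g).toMonoidHom hj hH x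
      rw [← hyx] at h3
      rw [hj h3]
      exact hy
    · intro h x hx
      have h3 := h ((tr (MulAut.conj g).toMonoidHom hj hH).symm x) (by
        have h4 := tr_apply (MulAut.conj g).toMonoidHom hj hH
          ((tr (MulAut.conj g).toMonoidHom hj hH).symm x)
        rw [MulEquiv.apply_symm_apply] at h4
        rw [← h4]
        exact ⟨x, hx, rfl⟩)
      rw [pull_apply, pull_apply, map_one, MulEquiv.apply_symm_apply] at h3
      exact h3

/-- all pairs at the top have kernels containing `O_{π'}`, or none. -/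
theorem tr_top (hM : IsPModular p M) [M.IsPrime] (hpπ : p ∈ π) {D : Subgroup G}
    {B : Set (IrrCharacter G)}
    (hB : IsPBlock M B) (hBD : IsDefectGroup p M B D)
    {B₁ : Set (IrrCharacter (Subgroup.normalizer (D : Set G)))}
    (hB₁ : IsInducedBlock M (Subgroup.normalizer (D : Set G)) B₁ B)
    (hB₁D : IsDefectGroup p M B₁ (D.subgroupOf (Subgroup.normalizer (D : Set G))))
    {Q : Subgroup G} (hQ : IsDefectGroup p M B Q)
    (θ : IrrCharacter (Cn Q)) (hθ : ∀ χ ∈ B, Dn M θ χ)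
    (ψ : IrrCharacter (Subgroup.normalizer (D : Set G))) (hψ : ψ ∈ B₁) :
    Tr θ (RQ π Q) ↔ Tr ψ (RQ π D) := by
  obtain ⟨g, rfl⟩ := isDefectGroup_conj hM hB hQ hBD
  obtain ⟨θ', h1, h2⟩ := exists_conj_pair (π := π) hM θ g
  rw [h2]
  exact tr_top_iff hM hpπ hB hBD hB₁ hB₁D θ' (fun χ hχ => h1 χ (hθ χ hχ)) ψ hψ

end H81.Pair
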