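import Cfsg.Agent.Lib.H81.Pair6
import Cfsg.Agent.Lib.H81.SectPrin

/-!
# Brauer pairs, elementary version: final forms for `O_{π'}`
-/

set_option autoImplicit false
set_option linter.unusedSectionVars false
set_option linter.unusedVariables false
set_option linter.style.haveILetI false
open Cfsg H20.Loc H20.GA H20.Blk H20.DefGrp H20.Orth H20.Defect H20.Nil H20.Ind H20.LN
  H19.BrMap H19.BrMap2 H77.Cov1 H81.BrIdem H28.RelCore H28.RelHall
open scoped ComplexConjugate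

namespace H81.Pair

universe u
variable {G : Type u} [Group G] [Finite G] {M : Ideal AlgInt} {p : ℕ} {π : Set ℕ}

theorem mem_piCoreOf_iff {ρ : Set ℕ} {H : Subgroup G} (x : H) :
    (x : G) ∈ piCoreOf ρ H ↔ x ∈ piCore ρ H := by
  constructor
  · rintro ⟨y, hy, hyx⟩
    have : y = x := Subtype.ext hyx
    rwa [← this]
  · intro h; exact ⟨x, h, rfl⟩

/-- the downward theorem with the hypothesis on `N(D)`. -/
theorem down_of_ker (hM : IsPModular p M) [M.IsPrime] (hpπ : p ∈ π) {B : Set (IrrCharacter G)}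
    (hB : IsPBlock M B) {D : Subgroup G} (hBD : IsDefectGroup p M B D)
    {B₁ : Set (IrrCharacter (Subgroup.normalizer (D : Set G)))}
    (hB₁ : IsInducedBlock M (Subgroup.normalizer (D : Set G)) B₁ B)
    (hB₁D : IsDefectGroup p M B₁ (D.subgroupOf (Subgroup.normalizer (D : Set G))))
    (hker : ∀ n : ↥(Subgroup.normalizer (D : Set G)),
      n ∈ piCore {q | q ∉ π} ↥(Subgroup.normalizer (D : Set G)) → n ∈ blockKer B₁)
    {Q : Subgroup G} (hQ : IsPGroup p Q) (θ : IrrCharacter (Cn Q)) (hθ : ∀ χ ∈ B, Dn M θ χ) :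
    Tr θ (RQ π Q) := by
  refine down hM hpπ hB ?_ _ Q rfl hQ θ hθ
  intro Q' θ' hQ' hθ'
  obtain ⟨ψ, hψ⟩ := isPBlock_nonempty hB₁.1
  rw [tr_top hM hpπ hB hBD hB₁ hB₁D hQ' θ' hθ' ψ hψ]
  intro x hx
  rw [← piCoreOf_N_eq (pm_prime hM) hpπ (isPGroup_of_isDefectGroup hBD)] at hx
  exact hker x ((mem_piCoreOf_iff x).1 hx) ψ hψ

theorem final_S4734 (hM : IsPModular p M) (hpπ : p ∈ π) {B : Set (IrrCharacter G)}
    (hB : IsPBlock M B) {D : Subgroup G} (hBD : IsDefectGroup p M B D)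
    {B₁ : Set (IrrCharacter (Subgroup.normalizer (D : Set G)))}
    (hB₁ : IsInducedBlock M (Subgroup.normalizer (D : Set G)) B₁ B)
    (hB₁D : IsDefectGroup p M B₁ (D.subgroupOf (Subgroup.normalizer (D : Set G))))
    (hker : ∀ n : ↥(Subgroup.normalizer (D : Set G)),
      n ∈ piCore {q | q ∉ π} ↥(Subgroup.normalizer (D : Set G)) → n ∈ blockKer B₁)
    (G₀ : Subgroup G) (B₀ : Set (IrrCharacter ↥G₀)) (hB₀ : IsInducedBlock M G₀ B₀ B)
    (D₀ : Subgroup ↥G₀) (hD₀ : IsDefectGroup p M B₀ D₀)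
    (hC : Cn (D₀.map G₀.subtype) ≤ G₀) :
    ∀ x : ↥G₀, x ∈ piCore {q | q ∉ π} ↥G₀ → x ∈ blockKer B₀ := by
  haveI := pm_isPrime hM
  obtain ⟨ξ, _, h1⟩ := exists_root_sub hM hB₀.1 hD₀ hC
  have hDp : IsPGroup p (D₀.map G₀.subtype) := (isPGroup_of_isDefectGroup hD₀).map _
  have hDG : D₀.map G₀.subtype ≤ G₀ := Subgroup.map_subtype_le _
  have hdn : ∀ χ ∈ B, Dn M ξ χ := by
    intro χ hχ z hz
    obtain ⟨ψ, hψ⟩ := isPBlock_nonempty hB₀.1
    have h2 := h1 ψ hψ (zc z) (fun x _ => hz x) (fun n _ x _ => zc_class z x n)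
    have h3 := isInducedBlock_omega hB₀ hψ hχ hz
    rw [ev_resZ] at h3 ⊢
    exact locI_trans h2 h3
  have hT := down_of_ker hM hpπ hB hBD hB₁ hB₁D hker hDp ξ hdn
  intro x hx ψ hψ
  set X := piCoreOf {q | q ∉ π} G₀ with hX
  have hnd : ¬ p ∣ Nat.card X := not_dvd_of_piG (pm_prime hM) hpπ (piG_piCoreOf _ _)
  have hXG : X ≤ G₀ := piCoreOf_le _ _
  have hGX : G₀ ≤ Subgroup.normalizer (X : Set G) := le_normalizer_piCoreOf _ _
  have h2 : Tr ψ X := by
    rw [tr_iff hM ψ hDp ξ hXG hGX (hDG.trans hGX) (hC.trans hGX) hnd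
      (h1 ψ hψ (fR X) (fun x _ => fR_local hM hnd x) (fun n hn x _ => fR_conj (hGX hn)))]
    refine tr_mono ?_ hT
    refine le_piCoreOf inf_le_right ?_ ((piG_piCoreOf _ _).mono inf_le_left)
    intro n hn
    rw [Subgroup.mem_normalizer_iff]
    intro y
    have e1 := Subgroup.mem_normalizer_iff.1 (hGX (hC hn)) y
    have e2 := Subgroup.mem_normalizer_iff.1 ((Subgroup.le_normalizer :
      Cn (D₀.map G₀.subtype) ≤ _) hn) y
    rw [Subgroup.mem_inf, Subgroup.mem_inf, e1, e2]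
  exact h2 x ((mem_piCoreOf_iff x).2 hx)

theorem final_S4728 (hM : IsPModular p M) (hpπ : p ∈ π) {B : Set (IrrCharacter G)}
    (hB : IsPBlock M B) {D : Subgroup G} (hBD : IsDefectGroup p M B D)
    {B₁ : Set (IrrCharacter (Subgroup.normalizer (D : Set G)))}
    (hB₁ : IsInducedBlock M (Subgroup.normalizer (D : Set G)) B₁ B)
    (hB₁D : IsDefectGroup p M B₁ (D.subgroupOf (Subgroup.normalizer (D : Set G))))
    (D₀ : Subgroup G) (hD₀ : IsPGroup p D₀)
    (b : Set (IrrCharacter (L D₀)))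
    (hb : IsInducedBlock M (L D₀) b B)
    (hcompl : HallC π D₀)
    (hkerb : ∀ θ ∈ b, Tr θ (RQ π D₀)) :
    ∀ n : ↥(Subgroup.normalizer (D : Set G)),
      n ∈ piCore {q | q ∉ π} ↥(Subgroup.normalizer (D : Set G)) → n ∈ blockKer B₁ := by
  haveI := pm_isPrime hM
  obtain ⟨ψ, hψ⟩ := isPBlock_nonempty hb.1
  -- a constituent on `C(D₀)`
  haveI hn : (D₀.subgroupOf (L D₀)).Normal :=
    (Subgroup.normal_subgroupOf_iff_le_normalizer le_sup_left).2 (L_le_N D₀)
  have hp' : IsPGroup p (D₀.subgroupOf (L D₀)) :=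
    hD₀.comap_of_injective _ (Subgroup.subtype_injective _)
  obtain ⟨θ', hθ'⟩ := exists_dn hM (D₀.subgroupOf (L D₀)) hp' ψ
  have hmap : (D₀.subgroupOf (L D₀)).map (L D₀).subtype = D₀ := by
    rw [Subgroup.subgroupOf_map_subtype, inf_of_le_left le_sup_left]
  have hC : (Cn (D₀.subgroupOf (L D₀))).map (L D₀).subtype = Cn D₀ := by
    rw [map_Cn_subtype (by rw [hmap]; exact le_sup_right), hmap]
  have hj : Function.Injective (L D₀).subtype := Subgroup.subtype_injective (L D₀)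
  set θ := pull (tr (L D₀).subtype hj hC) θ' with hθ
  have hrel : ∀ f : G → ℂ, (∀ x ∈ L D₀, MemLocalRing M (f x)) →
      (∀ n ∈ L D₀, ∀ x ∈ L D₀, f (n * x * n⁻¹) = f x) → MemLocalIdeal M (ev θ f - ev ψ f) := by
    intro f hf1 hf2
    have hcl : IsClassFunction (L D₀) (fun k : L D₀ => f (k : G)) := by
      intro g h
      have := hf2 h h.2 g g.2
      simpa using this
    let zf : ZG (L D₀) := zof _ hcl
    have hzf : zf ∈ zr M (L D₀) := fun k => hf1 _ k.2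
    have h1 := hθ' zf hzf
    have h2 : omega ψ zf = ev ψ f := omega_eq_ev _ _ _ fun h => rfl
    have h3 : omega θ' (resZ (Cn (D₀.subgroupOf (L D₀))) zf) = ev θ f := by
      rw [hθ, ev_pull]
      exact omega_eq_ev _ _ _ fun h => by rw [zc_resZ]; rfl
    rwa [h2, h3] at h1
  have hdn : ∀ χ ∈ B, Dn M θ χ := by
    intro χ hχ z hz
    have h2 := hrel (zc z) (fun x _ => hz x) (fun n _ x _ => zc_class z x n)
    have h3 := isInducedBlock_omega hb hψ hχ hz
    rw [ev_resZ] at h3 ⊢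
    exact locI_trans h2 h3
  have hnd : ¬ p ∣ Nat.card (RQ π D₀) := not_dvd_of_piG (pm_prime hM) hpπ (piG_piCoreOf _ _)
  have hLR : L D₀ ≤ Subgroup.normalizer (RQ π D₀ : Set G) := (L_le_N D₀).trans (N_le_N_RQ D₀)
  have hT : Tr θ (RQ π D₀) := by
    have h1 := hrel (fR (RQ π D₀)) (fun x _ => fR_local hM hnd x) (fun n hn x _ => fR_conj (hLR hn))
    rcases ev_fR_cases ((piCoreOf_le _ _).trans le_sup_right : RQ π D₀ ≤ L D₀) hLR ψ with
      ⟨e1, t1⟩ | ⟨e1, t1⟩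
    · rcases ev_fR_cases (piCoreOf_le _ _ : RQ π D₀ ≤ Cn D₀) (le_normalizer_piCoreOf _ _) θ with
        ⟨e2, t2⟩ | ⟨e2, t2⟩
      · exact t2
      · exfalso
        rw [e1, e2, zero_sub] at h1
        have := locI_neg h1
        rw [neg_neg] at this
        exact not_locI_one this
    · exact absurd (hkerb ψ hψ) t1
  obtain ⟨D', ξ, hD', hξ, hTξ⟩ := up_chain hM hpπ hB _ D₀ rfl hD₀ θ hdn hcompl hT
  intro n hn ψ' hψ'
  have h1 := (tr_top hM hpπ hB hBD hB₁ hB₁D hD' ξ hξ ψ' hψ').1 hTξ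
  apply h1
  rw [← piCoreOf_N_eq (pm_prime hM) hpπ (isPGroup_of_isDefectGroup hBD)]
  exact (mem_piCoreOf_iff n).2 hn

/-- blocks of `C(y)` inducing `B`. -/
theorem tr_of_induced (hM : IsPModular p M) [M.IsPrime] (hpπ : p ∈ π) {B : Set (IrrCharacter G)}
    (hB : IsPBlock M B) {D : Subgroup G} (hBD : IsDefectGroup p M B D)
    {B₁ : Set (IrrCharacter (Subgroup.normalizer (D : Set G)))}
    (hB₁ : IsInducedBlock M (Subgroup.normalizer (D : Set G)) B₁ B)
    (hB₁D : IsDefectGroup p M B₁ (D.subgroupOf (Subgroup.normalizer (D : Set G))))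
    (hker : ∀ n : ↥(Subgroup.normalizer (D : Set G)),
      n ∈ piCore {q | q ∉ π} ↥(Subgroup.normalizer (D : Set G)) → n ∈ blockKer B₁)
    {Q : Subgroup G} (hQ : IsPGroup p Q) {H : Subgroup G} (hH : H = Cn Q)
    {b : Set (IrrCharacter H)} (hb : IsInducedBlock M H b B) (θ : IrrCharacter H) (hθ : θ ∈ b) :
    Tr θ (piCoreOf {q | q ∉ π} H) := by
  subst hH
  refine down_of_ker hM hpπ hB hBD hB₁ hB₁D hker hQ θ ?_
  intro χ hχ z hz
  exact isInducedBlock_omega hb hθ hχ hz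

end H81.Pair
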