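import Cfsg.Agent.Lib.H81.Pair7
import Cfsg.Agent.Lib.H81.SectPrin

/-!
# Values on `π'`-elements of centralizers
-/

set_option autoImplicit false
set_option linter.unusedSectionVars false
set_option linter.unusedVariables false
set_option linter.style.haveILetI false
open Cfsg H20.Loc H20.GA H20.Blk H20.DefGrp H20.Orth H20.Defect H20.Nil H20.Ind H20.LN
  H19.BrMap H19.BrMap2 H77.Cov1 H81.BrIdem H28.RelCore H28.RelHall H81.Section
open scoped ComplexConjugate

namespace H81.Pair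

open H18.CharBasic H18.CharOrtho

universe u
variable {G : Type u} [Group G] [Finite G] {M : Ideal AlgInt} {p : ℕ} {π : Set ℕ}

/-- values of `χ` at `yc` in terms of the blocks of `C(y)` inducing the block of `χ` -/
theorem value_eq_sum (hM : IsPModular p M) [M.IsPrime] {B : Set (IrrCharacter G)}
    (hB : IsPBlock M B) {χ : IrrCharacter G} (hχ : χ ∈ B) {y : G}
    (hy : ∃ k : ℕ, orderOf y = p ^ k) [Fintype (C y)] [Fintype (IrrCharacter (C y))]
    [DecidablePred fun ψ : IrrCharacter (C y) => IsInducedBlock M (C y) (blockOf M (ψ : C y → ℂ)) B]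
    (c : C y) (hc : ¬ p ∣ orderOf c) :
    (χ : G → ℂ) (y * (c : G)) = ∑ ψ : IrrCharacter (C y),
      if IsInducedBlock M (C y) (blockOf M (ψ : C y → ℂ)) B then
        classInner (tw y (χ : G → ℂ)) (ψ : C y → ℂ) * (ψ : C y → ℂ) c else 0 := by
  classical
  let T : Set (IrrCharacter (C y)) :=
    {ψ | ¬ IsInducedBlock M (C y) (blockOf M (ψ : C y → ℂ)) B}
  have hT : IsUnion M T := by
    intro ψ hψ ψ' hs hc'
    apply hψ
    rw [blockOf_eq_of_sameBlock hs]
    exact hc'
  have h1 := H81.SectPrin.sum_union_eq_zero hT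
    (fun ψ => classInner (tw y (χ : G → ℂ)) (ψ : C y → ℂ) * (ψ : C y → ℂ) c) (by
      intro b _ hb hbT
      have hnot : ¬ IsInducedBlock M (C y) b B := by
        obtain ⟨ψ, hψ⟩ := isPBlock_nonempty hb
        have := hbT hψ
        intro hc'
        apply this
        rw [← isPBlock_eq hb hψ]
        exact hc'
      have h2 := second_main hM y hy hB hχ hb hnot c hc
      rw [blockPart] at h2
      refine Eq.trans ?_ h2
      rw [H20.Orth.finsum_mem_eq_sum]
      refine Finset.sum_congr rfl fun ψ _ => ?_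
      by_cases hψ : ψ ∈ b
      · rw [if_pos hψ, if_pos hψ]
        have h5 : classInner (tw y (χ : G → ℂ)) (ψ : C y → ℂ) =
            classInner (fun c : C y => (χ : G → ℂ) (y * (c : G))) (ψ : C y → ℂ) := rfl
        rw [h5]
        congr!
      · rw [if_neg hψ, if_neg hψ])
  have h2 : (χ : G → ℂ) (y * (c : G)) = ∑ ψ : IrrCharacter (C y),
      classInner (tw y (χ : G → ℂ)) (ψ : C y → ℂ) * (ψ : C y → ℂ) c := by
    have h3 : tw y (χ : G → ℂ) c = (χ : G → ℂ) (y * (c : G)) := rfl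
    rw [← h3]
    conv_lhs => rw [mem_classFun_expand (tw_class (isClassFunction_of_isIrr χ.2))]
    rw [Finset.sum_apply]
    rfl
  have h4 : (∑ ψ : IrrCharacter (C y),
      if IsInducedBlock M (C y) (blockOf M (ψ : C y → ℂ)) B then
        classInner (tw y (χ : G → ℂ)) (ψ : C y → ℂ) * (ψ : C y → ℂ) c else 0) +
      (∑ ψ : IrrCharacter (C y), if ψ ∈ T then
        classInner (tw y (χ : G → ℂ)) (ψ : C y → ℂ) * (ψ : C y → ℂ) c else 0) =
      ∑ ψ : IrrCharacter (C y),
      classInner (tw y (χ : G → ℂ)) (ψ : C y → ℂ) * (ψ : C y → ℂ) c := by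
    rw [← Finset.sum_add_distrib]
    refine Finset.sum_congr rfl fun ψ _ => ?_
    by_cases h : IsInducedBlock M (C y) (blockOf M (ψ : C y → ℂ)) B
    · have h' : ψ ∉ T := fun hc' => hc' h
      rw [if_pos h, if_neg h', add_zero]
    · have h' : ψ ∈ T := h
      rw [if_neg h, if_pos h', zero_add]
  rw [h2, ← h4, h1, add_zero]

theorem final_S4727 (hM : IsPModular p M) (hpπ : p ∈ π) {B : Set (IrrCharacter G)}
    (hB : IsPBlock M B) {D : Subgroup G} (hBD : IsDefectGroup p M B D)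
    {B₁ : Set (IrrCharacter (Subgroup.normalizer (D : Set G)))}
    (hB₁ : IsInducedBlock M (Subgroup.normalizer (D : Set G)) B₁ B)
    (hB₁D : IsDefectGroup p M B₁ (D.subgroupOf (Subgroup.normalizer (D : Set G))))
    (hker : ∀ n : ↥(Subgroup.normalizer (D : Set G)),
      n ∈ piCore {q | q ∉ π} ↥(Subgroup.normalizer (D : Set G)) → n ∈ blockKer B₁)
    (y : G) (hy : ∃ k : ℕ, orderOf y = p ^ k)
    (hC : ∀ x : C y, (∀ q : ℕ, q.Prime → q ∣ orderOf x → q ∉ π) →
      x ∈ piCore {q | q ∉ π} (C y)) :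
    ∀ χ ∈ B, ∀ x : G, x ∈ C y → (∀ q : ℕ, q.Prime → q ∣ orderOf x → q ∉ π) →
      (χ : G → ℂ) (y * x) = (χ : G → ℂ) y := by
  classical
  haveI := pm_isPrime hM
  letI := Fintype.ofFinite (C y)
  letI := Fintype.ofFinite (IrrCharacter (C y))
  intro χ hχ x hx hxπ
  have hxo : ¬ p ∣ orderOf (⟨x, hx⟩ : C y) := by
    rw [← Subgroup.orderOf_coe]
    exact fun hd => hxπ p (pm_prime hM) hd hpπ
  have h1o : ¬ p ∣ orderOf (1 : C y) := by
    rw [orderOf_one]; exact (pm_prime hM).one_lt.ne' ∘ Nat.dvd_one.1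
  have h1 := value_eq_sum hM hB hχ hy ⟨x, hx⟩ hxo
  have h2 := value_eq_sum hM hB hχ hy 1 h1o
  have h3 : (χ : G → ℂ) (y * ((1 : C y) : G)) = (χ : G → ℂ) y := by
    rw [Subgroup.coe_one, mul_one]
  rw [h3] at h2
  change (χ : G → ℂ) (y * x) = _ at h1
  rw [h1, h2]
  refine Finset.sum_congr rfl fun ψ _ => ?_
  by_cases h : IsInducedBlock M (C y) (blockOf M (ψ : C y → ℂ)) B
  · rw [if_pos h, if_pos h]
    congr 1
    have hT := tr_of_induced hM hpπ hB hBD hB₁ hB₁D hker (isPGroup_zpowers hy)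
      (centralizer_zpowers y).symm h ψ (mem_blockOf_self ψ)
    apply hT
    have h4 := hC ⟨x, hx⟩ (fun q hq hd => hxπ q hq (by
      rwa [← Subgroup.orderOf_coe] at hd))
    exact (mem_piCoreOf_iff (⟨x, hx⟩ : C y)).2 h4
  · rw [if_neg h, if_neg h]

end H81.Pair
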