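import Cfsg.Agent.Lib.H21.PBlock
import Cfsg.Agent.Lib.H78.Cong
import Cfsg.Agent.Lib.H4.Burnside
import Cfsg.Agent.Lib.H4.CenterIndex
import Cfsg.Agent.Lib.H82.Deg
import Cfsg.Agent.Lib.H31.Clifford

/-!
# Groups all of whose nonlinear irreducible characters have prime degree are solvable
-/

set_option autoImplicit false
set_option linter.unusedSectionVars false
set_option linter.style.haveILetI false

namespace H81.PrimeDeg

open Cfsg H18.CharBasic H18.CharOrtho H18.CharQuot H18.CharInd H82.Deg
open scoped ComplexConjugate commutatorElement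

universe u
variable {G : Type u} [Group G] [Finite G]

/-- In a simple group of nonprime order, a nonlinear irreducible character has
no nontrivial element of maximal absolute value. -/
theorem norm_ne [IsSimpleGroup G] (hG : ¬ (Nat.card G).Prime) {χ : G → ℂ} (hχ : IsIrrCharacter G χ)
    (h1 : χ 1 ≠ 1) {g : G} (hg : g ≠ 1) : ‖χ g‖ ≠ ‖χ 1‖ := by
  classical
  letI := Fintype.ofFinite G
  intro h
  obtain ⟨n, ρ, hρ, rfl⟩ := hχ
  rw [Representation.char_one, Module.finrank_fin_fun] at h
  have h2 : ‖ρ.character g‖ = (Module.finrank ℂ (Fin n → ℂ) : ℝ) := by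
    rw [h, Module.finrank_fin_fun]; simp
  obtain ⟨ω, hω⟩ := (H4.Eigen.norm_char_eq_iff ρ g).1 h2
  have hne : ∃ x, ρ x ≠ 1 := by
    by_contra hcon
    push Not at hcon
    have hconst : ∀ x, ρ.character x = ρ.character 1 := by
      intro x
      simp only [Representation.character, hcon x, hcon 1]
    have hirr : IsIrrCharacter G ρ.character := ⟨n, ρ, hρ, rfl⟩
    have h3 := inner_irr_self hirr
    unfold classInner at h3
    simp only [hconst] at h3
    rw [Finset.sum_const, Finset.card_univ, nsmul_eq_mul, Nat.card_eq_fintype_card] at h3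
    have h4 : (Fintype.card G : ℂ) ≠ 0 := by exact_mod_cast Fintype.card_ne_zero
    rw [inv_mul_cancel_left₀ h4, Representation.char_one, Module.finrank_fin_fun, Complex.conj_natCast] at h3
    have h5 : n * n = 1 := by exact_mod_cast h3
    apply h1
    rw [Representation.char_one, Module.finrank_fin_fun, Nat.eq_one_of_mul_eq_one_right h5]
    simp
  have hinj := H4.Burnside.injective_of_simple ρ hne
  apply hG
  apply H4.Burnside.prime_card_of_center hg
  rw [Subgroup.mem_center_iff]
  intro x
  apply hinj
  rw [map_mul, map_mul, hω]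
  ext v
  simp

/-- a nonlinear irreducible character of prime degree `r` of a simple group: the Sylow
`r`-subgroups have order `r`. -/
theorem card_sylow [IsSimpleGroup G] (hG : ¬ (Nat.card G).Prime) {χ : G → ℂ} (hχ : IsIrrCharacter G χ)
    {r : ℕ} [Fact r.Prime] (hr : χ 1 = r) (P : Sylow r G) : Nat.card (P : Subgroup G) = r := by
  classical
  letI := Fintype.ofFinite G
  have hrp : r.Prime := Fact.out
  have h1 : χ 1 ≠ 1 := by
    rw [hr]
    intro h
    exact hrp.one_lt.ne' (by exact_mod_cast h)
  have hrG : r ∣ Nat.card G := by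
    have h2 : charDegree χ ∣ Nat.card G := degree_dvd_card ⟨χ, hχ⟩
    rwa [charDegree_eq_of hr] at h2
  have hPne : (P : Subgroup G) ≠ ⊥ := by
    intro h
    have h2 := P.dvd_card_of_dvd_card hrG
    rw [h, Subgroup.card_bot] at h2
    exact hrp.one_lt.ne' (Nat.dvd_one.1 h2)
  letI : Fintype (P : Subgroup G) := Fintype.ofFinite _
  -- elements with large centralizer
  have hzero : ∀ x : G, x ≠ 1 → (P : Subgroup G) ≤ Subgroup.centralizer {x} → χ x = 0 := by
    intro x hx hle
    obtain ⟨n, ρ, hρ, hρχ⟩ := hχ
    have hn : (Module.finrank ℂ (Fin n → ℂ)) = r := by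
      have h2 : ((n : ℕ) : ℂ) = r := by
        rw [← hr, ← hρχ, Representation.char_one, Module.finrank_fin_fun]
      rw [Module.finrank_fin_fun]
      exact_mod_cast h2
    have hcop : Nat.Coprime (Module.finrank ℂ (Fin n → ℂ)) (Subgroup.centralizer ({x} : Set G)).index := by
      rw [hn, Nat.Prime.coprime_iff_not_dvd hrp]
      intro h2
      exact P.not_dvd_index (h2.trans (Subgroup.index_dvd_of_le hle))
    rcases H4.Integral.char_eq_zero_or_norm_eq ρ hρ x hcop with h | h
    · rw [← hρχ]; exact h
    · exfalso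
      apply norm_ne hG ⟨n, ρ, hρ, hρχ⟩ h1 hx
      rw [← hρχ, h, Representation.char_one]
      simp
  -- all constituents of the restriction are linear
  have hIP := isCharacter_restrict (P : Subgroup G) (isCharacter_of_isIrr hχ)
  have hlin : ∀ θ : ↥(P : Subgroup G) → ℂ, IsIrrCharacter (P : Subgroup G) θ →
      classInner (fun x : (P : Subgroup G) => χ x) θ ≠ 0 → θ 1 = 1 := by
    intro θ hθ hne
    obtain ⟨d, hd0, hd⟩ := exists_degree_pos hθ
    have h2 : charDegree θ ∣ Nat.card (P : Subgroup G) := degree_dvd_card ⟨θ, hθ⟩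
    rw [charDegree_eq_of hd] at h2
    obtain ⟨k, hk⟩ := IsPGroup.iff_card.1 P.isPGroup'
    rw [hk] at h2
    obtain ⟨j, -, hj⟩ := (Nat.dvd_prime_pow hrp).1 h2
    rcases Nat.eq_zero_or_pos j with hj0 | hj0
    · rw [hd, hj, hj0, pow_zero, Nat.cast_one]
    exfalso
    -- remainder
    have hrem := isCharacter_sub_constituent hIP hθ hne
    obtain ⟨n', ρ', hρ'⟩ := hrem
    have h3 : (n' : ℂ) = χ 1 - θ 1 := by
      have h4 := congrFun hρ' 1
      rw [Representation.char_one, Module.finrank_fin_fun] at h4
      rw [h4]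
      simp
    rw [hr, hd] at h3
    have h4 : n' + d = r := by
      have : ((n' + d : ℕ) : ℂ) = (r : ℕ) := by
        push_cast; rw [h3]; ring
      exact_mod_cast this
    have h5 : r ≤ d := by rw [hj]; exact Nat.le_self_pow hj0.ne' r
    have hn'0 : n' = 0 := by omega
    -- restriction equals `θ`
    have hres : ∀ x : (P : Subgroup G), χ x = θ x := by
      intro x
      have h7 : ρ'.character x = 0 := by
        subst hn'0
        have : Subsingleton ((Fin 0 → ℂ) →ₗ[ℂ] (Fin 0 → ℂ)) := inferInstance
        rw [Representation.character, Subsingleton.elim (ρ' x) 0, map_zero]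
      rw [hρ'] at h7
      have h8 : χ x - θ x = 0 := h7
      rw [sub_eq_zero] at h8
      exact h8
    -- a central element of `P`
    haveI : Nontrivial (P : Subgroup G) := (Subgroup.nontrivial_iff_ne_bot _).2 hPne
    haveI := P.isPGroup'.center_nontrivial
    obtain ⟨z, hz⟩ := exists_ne (1 : Subgroup.center (P : Subgroup G))
    obtain ⟨k', ρθ, hρθ, hθχ⟩ := hθ
    obtain ⟨c, hc⟩ := H4.CenterIndex.exists_scalar_of_center ρθ hρθ z.2
    have h9 := (H4.Eigen.norm_char_eq_iff ρθ (z : (P : Subgroup G))).2 ⟨c, hc⟩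
    have hz1 : (((z : (P : Subgroup G))) : G) ≠ 1 := by
      intro h10
      exact hz (Subtype.ext (Subtype.ext h10))
    apply norm_ne hG hχ h1 hz1
    rw [hres, ← hθχ, h9]
    have h10 := hres 1
    rw [Subgroup.coe_one] at h10
    rw [h10, ← hθχ, Representation.char_one]
    simp
  -- `P` is abelian
  have hcomm : ∀ x y : (P : Subgroup G), x * y = y * x := by
    intro x y
    letI : Fintype (IrrCharacter (P : Subgroup G)) := Fintype.ofFinite _
    have hcf := isClassFunction_of_isCharacter hIP
    have hexp := mem_classFun_expand hcf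
    have h2 : ∀ z : (P : Subgroup G), χ z = ∑ θ : IrrCharacter (P : Subgroup G),
        classInner (fun x : (P : Subgroup G) => χ x) (θ : ↥(P : Subgroup G) → ℂ) * (θ : ↥(P : Subgroup G) → ℂ) z := by
      intro z
      have := congrFun hexp z
      simpa using this
    have h3 : χ ((⁅x, y⁆ : (P : Subgroup G)) : G) = χ 1 := by
      have h4 := h2 1
      rw [Subgroup.coe_one] at h4
      rw [h2 ⁅x, y⁆, h4]
      apply Finset.sum_congr rfl
      intro θ _
      by_cases h0 : classInner (fun x : (P : Subgroup G) => χ x) (θ : ↥(P : Subgroup G) → ℂ) = 0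
      · rw [h0, zero_mul, zero_mul]
      · congr 1
        obtain ⟨f, hf⟩ := exists_hom_of_degree_one (isCharacter_of_isIrr θ.2) (hlin _ θ.2 h0)
        rw [hf]
        simp only
        rw [map_commutatorElement, commutatorElement_eq_one_iff_mul_comm.2 (mul_comm _ _), map_one]
    by_contra hne
    have h5 : ((⁅x, y⁆ : (P : Subgroup G)) : G) ≠ 1 := by
      intro h6
      apply hne
      exact commutatorElement_eq_one_iff_mul_comm.1 (Subtype.ext h6)
    apply norm_ne hG hχ h1 h5
    rw [h3]
  -- `χ` vanishes on `P` minus 1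
  have hvan : ∀ x : (P : Subgroup G), x ≠ 1 → χ x = 0 := by
    intro x hx
    apply hzero
    · intro h; exact hx (Subtype.ext h)
    · intro y hy
      rw [Subgroup.mem_centralizer_singleton_iff]
      exact congrArg Subtype.val (hcomm ⟨y, hy⟩ x)
  obtain ⟨m, hm⟩ := inner_char_natCast hIP (isCharacter_of_isIrr (isIrrCharacter_one (G := (P : Subgroup G))))
  have hm' : (Nat.card (P : Subgroup G) : ℂ)⁻¹ * χ 1 = m := by
    rw [← hm]
    unfold classInner
    congr 1
    rw [Finset.sum_eq_single (1 : (P : Subgroup G))]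
    · simp
    · intro b _ hb
      show χ (b : G) * _ = 0
      rw [hvan b hb, zero_mul]
    · intro h; exact absurd (Finset.mem_univ _) h
  have hP0 : (Nat.card (P : Subgroup G) : ℂ) ≠ 0 := by exact_mod_cast Nat.card_pos.ne'
  rw [hr, inv_mul_eq_iff_eq_mul₀ hP0] at hm'
  have h2 : r = Nat.card (P : Subgroup G) * m := by exact_mod_cast hm'
  have h3 : Nat.card (P : Subgroup G) ∣ r := ⟨m, h2⟩
  rcases (Nat.dvd_prime hrp).1 h3 with h4 | h4
  · exact absurd (Subgroup.eq_bot_of_card_eq _ h4) hPne
  · exact h4

/-- generator of a Sylow subgroup of prime order, with nontrivial automizer -/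
theorem exists_gen [IsSimpleGroup G] (hG : ¬ (Nat.card G).Prime) {r : ℕ} [Fact r.Prime] (P : Sylow r G)
    (hP : Nat.card (P : Subgroup G) = r) :
    ∃ (x0 : G) (hx0 : orderOf x0 = r), ¬ r ∣ (Subgroup.zpowers x0).index ∧
      Nat.card (H21.PLat.psi hx0).range ≠ 1 := by
  classical
  have hrp : r.Prime := Fact.out
  haveI : IsCyclic (P : Subgroup G) := isCyclic_of_prime_card hP
  obtain ⟨g, hg⟩ := IsCyclic.exists_generator (α := (P : Subgroup G))
  have hzp : Subgroup.zpowers (g : G) = (P : Subgroup G) := by
    apply le_antisymm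
    · rw [Subgroup.zpowers_le]; exact g.2
    · intro x hx
      obtain ⟨k, hk⟩ := hg ⟨x, hx⟩
      exact ⟨k, by simpa using congrArg Subtype.val hk⟩
  have hord : orderOf (g : G) = r := by
    rw [← Nat.card_zpowers, hzp, hP]
  refine ⟨g, hord, ?_, ?_⟩
  · rw [hzp]; exact P.not_dvd_index
  · intro h1
    rw [H21.PLat.card_range_psi, hzp, Subgroup.relIndex_eq_one] at h1
    have hcomp := MonoidHom.ker_transferSylow_isComplement' P h1
    rcases IsSimpleGroup.eq_bot_or_eq_top_of_normal (MonoidHom.transferSylow P h1).ker inferInstance with h2 | h2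
    · rw [h2] at hcomp
      have h3 := hcomp.card_mul_card
      rw [Subgroup.card_bot, one_mul, hP] at h3
      exact hG (h3 ▸ hrp)
    · rw [h2] at hcomp
      have h3 := hcomp.card_mul_card
      rw [Subgroup.card_top, hP] at h3
      have h4 : 0 < Nat.card G := Nat.card_pos
      have h5 := hrp.one_lt
      nlinarith

/-- a linear character of a nonabelian simple group is trivial -/
theorem eq_triv_of_linear [IsSimpleGroup G] (hG : ¬ (Nat.card G).Prime) (χ : IrrCharacter G)
    (h : (χ : G → ℂ) 1 = 1) : χ = H21.PLat.triv G := by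
  classical
  obtain ⟨f, hf⟩ := exists_hom_of_degree_one (isCharacter_of_isIrr χ.2) h
  apply Subtype.ext
  show (χ : G → ℂ) = fun _ => 1
  rcases IsSimpleGroup.eq_bot_or_eq_top_of_normal f.ker inferInstance with h2 | h2
  · exfalso
    have hinj : Function.Injective f := (MonoidHom.ker_eq_bot_iff f).1 h2
    haveI : Nontrivial G := inferInstance
    obtain ⟨g, hg⟩ := exists_ne (1 : G)
    apply hG
    apply H4.Burnside.prime_card_of_center hg
    rw [Subgroup.mem_center_iff]
    intro x
    apply hinj
    rw [map_mul, map_mul, mul_comm]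
  · rw [hf]
    funext g
    have : g ∈ f.ker := by rw [h2]; trivial
    rw [MonoidHom.mem_ker.1 this, Units.val_one]

theorem simple_case [IsSimpleGroup G] (hG : ¬ (Nat.card G).Prime)
    (h : ∀ χ : IrrCharacter G, charDegree (χ : G → ℂ) ≠ 1 → (charDegree (χ : G → ℂ)).Prime) : False := by
  classical
  letI := Fintype.ofFinite G
  letI : Fintype (IrrCharacter G) := Fintype.ofFinite _
  -- there is a nonlinear character
  have hex : ∃ χ : IrrCharacter G, charDegree (χ : G → ℂ) ≠ 1 := by
    by_contra hcon
    push Not at hcon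
    have h1 : ∀ χ : IrrCharacter G, χ = H21.PLat.triv G := fun χ =>
      eq_triv_of_linear hG χ (by rw [← coe_charDegree' χ, hcon χ, Nat.cast_one])
    haveI : Nontrivial G := inferInstance
    obtain ⟨g, hg⟩ := exists_ne (1 : G)
    apply hg
    apply eq_one_of_forall_irr
    intro χ hχ
    have h2 := h1 ⟨χ, hχ⟩
    have h3 : χ = fun _ => 1 := congrArg Subtype.val h2
    rw [h3]
  -- the prime two is not a degree
  have key : ∀ (χ : IrrCharacter G) (r : ℕ), charDegree (χ : G → ℂ) = r → r.Prime →
      ∃ ψ : IrrCharacter G, charDegree (ψ : G → ℂ) ≠ 1 ∧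
        (∃ m : ℤ, (charDegree (ψ : G → ℂ) : ℤ) = 1 + r * m ∨ (charDegree (ψ : G → ℂ) : ℤ) = -1 + r * m) ∧ r ≠ 2 := by
    intro χ r hχr hr
    haveI : Fact r.Prime := ⟨hr⟩
    obtain ⟨P⟩ : Nonempty (Sylow r G) := inferInstance
    have hP := card_sylow hG χ.2 (r := r) (by rw [← coe_charDegree' χ, hχr]) P
    obtain ⟨x0, hx0, hidx, hne⟩ := exists_gen hG P hP
    obtain ⟨M, hM⟩ := H78.Cong.exists_isPModular hr
    obtain ⟨a, Y, ε, -, ha, haB, -, -, hcard, hsum, htriv, -, hdeg, -, -⟩ :=
      H21.PLat.structure_thm (x0 := x0) hM hx0 hidx rfl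
    have hr2 : r ≠ 2 := by
      rintro rfl
      have h1 : Nat.card (H21.PLat.psi hx0).range * Y.card = 1 := hcard
      exact hne (Nat.eq_one_of_mul_eq_one_right h1)
    by_contra hcon
    push Not at hcon
    apply hne
    have h1 : ∑ χ, a χ * a χ = 1 := by
      rw [Finset.sum_eq_single (H21.PLat.triv G)]
      · rw [htriv, mul_one]
      · intro ψ _ hψ
        rcases ha ψ with h0 | h0 | h0
        · rw [h0, mul_zero]
        · exfalso
          have h2 : charDegree (ψ : G → ℂ) ≠ 1 := by
            intro h3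
            exact hψ (eq_triv_of_linear hG ψ (by rw [← coe_charDegree' ψ, h3, Nat.cast_one]))
          obtain ⟨m, hm⟩ := hdeg ψ (by rw [h0]; norm_num)
          rw [h0] at hm
          exact hr2 (hcon ψ h2 ⟨m, Or.inl hm⟩)
        · exfalso
          have h2 : charDegree (ψ : G → ℂ) ≠ 1 := by
            intro h3
            exact hψ (eq_triv_of_linear hG ψ (by rw [← coe_charDegree' ψ, h3, Nat.cast_one]))
          obtain ⟨m, hm⟩ := hdeg ψ (by rw [h0]; norm_num)
          rw [h0] at hm
          exact hr2 (hcon ψ h2 ⟨m, Or.inr hm⟩)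
      · intro h2; exact absurd (Finset.mem_univ _) h2
    rw [h1] at hsum
    exact_mod_cast hsum.symm
  -- the largest degree
  obtain ⟨χ, hχ1⟩ := hex
  obtain ⟨χm, -, hmax⟩ := Finset.exists_max_image Finset.univ (fun χ : IrrCharacter G => charDegree (χ : G → ℂ))
    ⟨χ, Finset.mem_univ _⟩
  have h1 : charDegree (χm : G → ℂ) ≠ 1 := by
    intro h2
    have h3 := hmax χ (Finset.mem_univ _)
    simp only [h2] at h3
    have h4 := charDegree_pos χ
    omega
  have hr := h χm h1
  obtain ⟨ψ, hψ1, ⟨m, hm⟩, hr2⟩ := key χm _ rfl hr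
  have hψp := h ψ hψ1
  have hle := hmax ψ (Finset.mem_univ _)
  have h2 := hr.two_le
  have h3 := hψp.two_le
  -- only `ψ 1 = r - 1`
  have h4 : charDegree (ψ : G → ℂ) + 1 = charDegree (χm : G → ℂ) := by
    set d := charDegree (ψ : G → ℂ)
    set r := charDegree (χm : G → ℂ)
    rcases hm with hm | hm
    · exfalso
      have h5 : (d : ℤ) - 1 = r * m := by linarith
      have h6 : (r : ℤ) ∣ d - 1 := ⟨m, h5⟩
      have h7 : (d : ℤ) - 1 < r := by omega
      have h8 : 0 < (d : ℤ) - 1 := by omega
      exact absurd (Int.le_of_dvd h8 h6) (by omega)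
    · have h5 : (d : ℤ) + 1 = r * m := by linarith
      have h6 : (r : ℤ) ∣ d + 1 := ⟨m, h5⟩
      have h7 := Int.le_of_dvd (by omega) h6
      have h8 : (d : ℤ) + 1 = r ∨ (d : ℤ) = r := by omega
      rcases h8 with h8 | h8
      · omega
      · exfalso
        rw [← h8] at h6
        have h9 : (d : ℤ) ∣ 1 := (dvd_add_right (dvd_refl _)).1 h6
        have h10 := Int.le_of_dvd (by norm_num) h9
        omega
  -- parity
  have h5 : charDegree (ψ : G → ℂ) = 2 := by
    rcases hr.eq_two_or_odd with h6 | h6
    · omega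
    · rcases hψp.eq_two_or_odd with h7 | h7
      · exact h7
      · omega
  obtain ⟨-, -, -, h7⟩ := key ψ 2 h5 Nat.prime_two
  exact h7 rfl

/-- **Theorem.** -/
theorem main : ∀ (n : ℕ) (G : Type u) [Group G] [Finite G], Nat.card G = n →
    (∀ χ : IrrCharacter G, charDegree (χ : G → ℂ) ≠ 1 → (charDegree (χ : G → ℂ)).Prime) → Group.IsSolvable G := by
  intro n
  induction n using Nat.strong_induction_on with
  | _ n ih =>
    intro G _ _ hn h
    classical
    by_cases htriv : Subsingleton G
    · infer_instance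
    have hnt : Nontrivial G := not_subsingleton_iff_nontrivial.mp htriv
    by_cases hs : IsSimpleGroup G
    · by_cases hp : (Nat.card G).Prime
      · have : Fact (Nat.card G).Prime := ⟨hp⟩
        have hcyc : IsCyclic G := isCyclic_of_prime_card rfl
        exact Group.isSolvable_of_comm (fun x y => by
          obtain ⟨g, hg⟩ := hcyc.exists_generator
          obtain ⟨i, rfl⟩ := hg x
          obtain ⟨j, rfl⟩ := hg y
          simp only [← zpow_add, add_comm])
      · exact (simple_case hp h).elim
    · have hex : ∃ N : Subgroup G, N.Normal ∧ N ≠ ⊥ ∧ N ≠ ⊤ := by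
        by_contra hcon
        push Not at hcon
        apply hs
        exact ⟨fun N hN => or_iff_not_imp_left.2 fun h1 => hcon N hN h1⟩
      obtain ⟨N, hN, hN1, hN2⟩ := hex
      letI := Fintype.ofFinite G
      letI := Fintype.ofFinite N
      have hcN : Nat.card N < n := by
        rw [← hn]
        refine lt_of_le_of_ne (Subgroup.card_le_card_group N) ?_
        intro h1
        exact hN2 (Subgroup.eq_top_of_card_eq N h1)
      have hcQ : Nat.card (G ⧸ N) < n := by
        have h1 := Subgroup.card_mul_index N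
        rw [Subgroup.index_eq_card] at h1
        have h2 : 1 < Nat.card N := by
          rw [Finite.one_lt_card_iff_nontrivial, Subgroup.nontrivial_iff_ne_bot]
          exact hN1
        have h3 : 0 < Nat.card (G ⧸ N) := Nat.card_pos
        rw [← hn, ← h1]
        nlinarith
      have h1 : Group.IsSolvable N := by
        apply ih _ hcN N rfl
        intro θ hθ
        obtain ⟨χ, hχ, hne⟩ := exists_over N θ.2
        have h2 := H31.Clifford.degree_eq N hχ θ.2 hne
        obtain ⟨m, hm⟩ := inner_char_natCast (isCharacter_restrict N (isCharacter_of_isIrr hχ)) (isCharacter_of_isIrr θ.2)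
        have hm' : classInner (fun h : N => χ h) (θ : N → ℂ) = (m : ℂ) := hm
        rw [hm'] at h2
        have h3 : charDegree χ = m * (H31.Clifford.inertia N (θ : N → ℂ)).index * charDegree (θ : N → ℂ) := by
          apply charDegree_eq_of
          rw [h2]
          push_cast
          rw [coe_charDegree' θ]
        have h4 : charDegree (θ : N → ℂ) ∣ charDegree χ := ⟨_, by rw [h3, mul_comm]⟩
        have h5 : charDegree χ ≠ 1 := by
          intro h6
          rw [h6] at h4
          exact hθ (Nat.dvd_one.1 h4)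
        have h6 := h ⟨χ, hχ⟩ h5
        rcases (Nat.dvd_prime h6).1 h4 with h7 | h7
        · exact absurd h7 hθ
        · rw [h7]; exact h6
      have h2 : Group.IsSolvable (G ⧸ N) := by
        apply ih _ hcQ (G ⧸ N) rfl
        intro ψ hψ
        have h3 := isIrrCharacter_inflate N ψ.2
        have h4 : charDegree (fun g : G => (ψ : G ⧸ N → ℂ) (g : G ⧸ N)) = charDegree (ψ : G ⧸ N → ℂ) := rfl
        have h5 := h ⟨_, h3⟩ (by show charDegree (fun g : G => (ψ : G ⧸ N → ℂ) (g : G ⧸ N)) ≠ 1; rw [h4]; exact hψ)
        exact h4 ▸ h5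
      exact Group.isSolvable_of_ker_le_range N.subtype (QuotientGroup.mk' N)
        (by rw [QuotientGroup.ker_mk', Subgroup.range_subtype])

end H81.PrimeDeg
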