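import Cfsg.Agent.Lib.H20.Height
import Cfsg.Agent.Lib.H18.CharInd

/-!
# Local class functions on `p`-regular elements are combinations of characters
-/

set_option autoImplicit false
set_option linter.unusedSectionVars false
set_option linter.unusedVariables false
set_option linter.style.haveILetI false
open Cfsg H20.Loc H20.GA H20.Blk H20.DefGrp H20.Orth H20.Defect H20.Height
open scoped ComplexConjugate

namespace H81.RegSpan

open H18.CharBasic H18.CharOrtho H18.CharInd

universe u
variable {G : Type u} [Group G] [Finite G] {p : ℕ} {M : Ideal AlgInt}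

/-- For `x` `p`-regular there is a combination of the irreducible characters with algebraic integer
coefficients which, on `p`-regular elements, is a multiple prime to `p` of the indicator function
of the class of `x`. -/
theorem exists_local (hp : p.Prime) [Fintype (IrrCharacter G)] {x : G} (hx : ¬ p ∣ orderOf x) :
    ∃ (n : IrrCharacter G → ℂ) (c : ℕ), (∀ χ, IsIntegral ℤ (n χ)) ∧ ¬ p ∣ c ∧
      (∀ g : G, ¬ p ∣ orderOf g → IsConj x g → ∑ χ : IrrCharacter G, n χ * (χ : G → ℂ) g = c) ∧
      (∀ g : G, ¬ p ∣ orderOf g → ¬ IsConj x g →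
        ∑ χ : IrrCharacter G, n χ * (χ : G → ℂ) g = 0) := by
  classical
  haveI : Fact p.Prime := ⟨hp⟩
  obtain ⟨P⟩ : Nonempty (Sylow p (Subgroup.centralizer ({x} : Set G))) := inferInstance
  set S := sylC x P with hS
  letI := Fintype.ofFinite S
  have hSx : S ≤ Subgroup.centralizer ({x} : Set G) := sylC_le x P
  have hSp : IsPGroup p S := isPGroup_sylC x P
  have hSc : (Nat.card S : ℂ) ≠ 0 := by exact_mod_cast (Nat.card_pos (α := S)).ne'
  have hcardS : Nat.card S = p ^ (Nat.card (Subgroup.centralizer ({x} : Set G))).factorization p :=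
    card_sylC_eq x P
  have hC0 : Nat.card (Subgroup.centralizer ({x} : Set G)) ≠ 0 := Nat.card_pos.ne'
  -- elements of the coset
  have huniq : ∀ u : S, ¬ p ∣ orderOf ((u : G) * x) → u = 1 := by
    intro u hu
    obtain ⟨k, hk⟩ := IsPGroup.iff_orderOf.1 hSp u
    have hcomm : Commute (u : G) x := Subgroup.mem_centralizer_singleton_iff.1 (hSx u.2)
    have hk' : orderOf (u : G) = p ^ k := by rw [Subgroup.orderOf_coe, hk]
    have hco : Nat.Coprime (orderOf (u : G)) (orderOf x) := by
      rw [hk']
      exact Nat.Coprime.pow_left k ((Nat.Prime.coprime_iff_not_dvd hp).2 hx)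
    have h2 : orderOf ((u : G) * x) = orderOf (u : G) * orderOf x :=
      hcomm.orderOf_mul_eq_mul_orderOf_of_coprime hco
    have h3 : k = 0 := by
      by_contra h0
      apply hu
      rw [h2, hk']
      exact (dvd_pow_self p h0).mul_right _
    rw [h3, pow_zero] at hk'
    exact Subtype.ext (orderOf_eq_one_iff.1 hk')
  refine ⟨fun χ => conj ((Nat.card S : ℂ)⁻¹ * ∑ u : S, (χ : G → ℂ) ((u : G) * x)),
    Nat.card (Subgroup.centralizer ({x} : Set G)) / Nat.card S, ?_, ?_, ?_, ?_⟩
  · intro χ
    exact (isIntegral_avg (irr_char χ) hSx).map (starRingEnd ℂ).toIntAlgHom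
  · rw [hcardS]
    exact Nat.not_dvd_ordCompl hp hC0
  · intro g hg hxg
    have h1 : ∀ χ : IrrCharacter G, conj ((Nat.card S : ℂ)⁻¹ * ∑ u : S, (χ : G → ℂ) ((u : G) * x)) *
        (χ : G → ℂ) g = (Nat.card S : ℂ)⁻¹ * ∑ u : S, (χ : G → ℂ) g * conj ((χ : G → ℂ) ((u : G) * x)) := by
      intro χ
      rw [map_mul, map_inv₀, Complex.conj_natCast, map_sum, mul_assoc, Finset.sum_mul]
      congr 1
      exact Finset.sum_congr rfl fun u _ => mul_comm _ _
    simp only [h1]
    rw [← Finset.mul_sum, Finset.sum_comm]
    simp only [column_orthogonality]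
    rw [Finset.sum_eq_single (1 : S)]
    · rw [OneMemClass.coe_one, one_mul, if_pos hxg.symm]
      have h2 : Nat.card (Subgroup.centralizer ({g} : Set G)) =
          Nat.card (Subgroup.centralizer ({x} : Set G)) := by
        have e1 := Subgroup.index_mul_card (Subgroup.centralizer ({g} : Set G))
        have e2 := Subgroup.index_mul_card (Subgroup.centralizer ({x} : Set G))
        have e3 : (Subgroup.centralizer ({g} : Set G)).index =
            (Subgroup.centralizer ({x} : Set G)).index := by
          rw [← card_conj_eq, ← card_conj_eq]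
          exact Nat.card_congr (Equiv.subtypeEquivRight fun h =>
            ⟨fun h' => hxg.trans h', fun h' => hxg.symm.trans h'⟩)
        rw [e3, ← e2] at e1
        exact Nat.eq_of_mul_eq_mul_left (Nat.pos_of_ne_zero Subgroup.index_ne_zero_of_finite) e1
      rw [h2]
      have h3 : Nat.card S ∣ Nat.card (Subgroup.centralizer ({x} : Set G)) :=
        Subgroup.card_dvd_of_le hSx
      rw [Nat.cast_div h3 hSc]
      field_simp
    · intro u _ hu
      rw [if_neg]
      intro hc
      apply hu
      apply huniq u
      obtain ⟨t, ht⟩ := isConj_iff.1 hc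
      rw [← ht, orderOf_conj]
      exact hg
    · intro h; exact absurd (Finset.mem_univ _) h
  · intro g hg hxg
    have h1 : ∀ χ : IrrCharacter G, conj ((Nat.card S : ℂ)⁻¹ * ∑ u : S, (χ : G → ℂ) ((u : G) * x)) *
        (χ : G → ℂ) g = (Nat.card S : ℂ)⁻¹ * ∑ u : S, (χ : G → ℂ) g * conj ((χ : G → ℂ) ((u : G) * x)) := by
      intro χ
      rw [map_mul, map_inv₀, Complex.conj_natCast, map_sum, mul_assoc, Finset.sum_mul]
      congr 1
      exact Finset.sum_congr rfl fun u _ => mul_comm _ _
    simp only [h1]
    rw [← Finset.mul_sum, Finset.sum_comm]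
    simp only [column_orthogonality]
    rw [Finset.sum_eq_zero, mul_zero]
    intro u _
    rw [if_neg]
    intro hc
    have hu : u = 1 := by
      apply huniq u
      obtain ⟨t, ht⟩ := isConj_iff.1 hc
      rw [← ht, orderOf_conj]
      exact hg
    rw [hu, OneMemClass.coe_one, one_mul] at hc
    exact hxg hc.symm

end H81.RegSpan
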