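import Cfsg.Agent.Lib.H21.PLatMass

set_option autoImplicit false
set_option linter.unusedSectionVars false

/-!
Weights of lattices over the `p`-adic integers: eigenvectors of the normalizer of a Sylow
subgroup of order `p` in the Tate cohomology of degree zero.
-/

namespace H81.Wt

open Cfsg H18.CharBasic H18.CharOrtho H18.CharInd H21.PLat Module

universe u

variable {p : ℕ} [hp : Fact p.Prime] {G : Type u} [Group G]

/-! ### equivariant maps between lattices without common constituents -/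

theorem hom_zero [Fintype G] {n m : ℕ} (ρ : Representation ℤ_[p] G (Fin n → ℤ_[p]))
    (σ : Representation ℤ_[p] G (Fin m → ℤ_[p])) (T : (Fin n → ℤ_[p]) →ₗ[ℤ_[p]] (Fin m → ℤ_[p]))
    (hT : ∀ g v, T (ρ g v) = σ g (T v)) (h0 : classInner (cchar σ) (cchar ρ) = 0) : T = 0 := by
  classical
  let A := LinearMap.toMatrix' T
  let TC : (Fin n → ℂ) →ₗ[ℂ] (Fin m → ℂ) := Matrix.toLin' (A.map (emb p))
  have hcomm : ∀ g, TC ∘ₗ cxRep ρ g = cxRep σ g ∘ₗ TC := by
    intro g
    have h1 : T ∘ₗ ρ g = σ g ∘ₗ T := LinearMap.ext fun v => hT g v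
    have h2 := congrArg LinearMap.toMatrix' h1
    rw [LinearMap.toMatrix'_comp, LinearMap.toMatrix'_comp] at h2
    have h3 := congrArg (fun B : Matrix (Fin m) (Fin n) ℤ_[p] => B.map (emb p)) h2
    rw [Matrix.map_mul, Matrix.map_mul] at h3
    rw [cxRep_apply, cxRep_apply, cx_apply, cx_apply, ← Matrix.toLin'_mul, ← Matrix.toLin'_mul, h3]
  have hinv : TC ∈ Representation.invariants (Representation.linHom (cxRep ρ) (cxRep σ)) := by
    rw [Representation.mem_invariants]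
    intro g
    rw [Representation.linHom_apply]
    have h1 : cxRep ρ g ∘ₗ cxRep ρ g⁻¹ = LinearMap.id := by
      rw [← Module.End.mul_eq_comp, ← map_mul, mul_inv_cancel, map_one]; rfl
    rw [← LinearMap.comp_assoc, ← hcomm, LinearMap.comp_assoc, h1, LinearMap.comp_id]
  have : Invertible (Nat.card G : ℂ) := invertibleOfNonzero (by exact_mod_cast Nat.card_pos.ne')
  have hfr : (finrank ℂ (Representation.invariants (Representation.linHom (cxRep ρ) (cxRep σ))) : ℂ)
      = 0 := by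
    rw [← Representation.card_inv_mul_sum_char_eq_finrank, ← h0]
    unfold classInner
    congr 1
    apply Finset.sum_congr rfl
    intro g _
    rw [Representation.char_linHom, char_inv ⟨n, cxRep ρ, rfl⟩, mul_comm, char_cxRep, char_cxRep]
  have hfr0 : finrank ℂ (Representation.invariants (Representation.linHom (cxRep ρ) (cxRep σ))) = 0 := by
    exact_mod_cast hfr
  have h4 := Submodule.finrank_eq_zero.1 hfr0
  rw [h4, Submodule.mem_bot] at hinv
  have h5 : A.map (emb p) = 0 := by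
    have := congrArg LinearMap.toMatrix' hinv
    simpa [TC] using this
  have h6 : A = 0 := by
    ext i j
    have := congrFun (congrFun h5 i) j
    rw [Matrix.map_apply] at this
    exact emb_injective p (by rw [this, Matrix.zero_apply, Matrix.zero_apply, map_zero])
  have := congrArg Matrix.toLin' h6
  simpa [A] using this

/-! ### eigenvectors -/

variable {n : ℕ} [Finite G] (ρ : Representation ℤ_[p] G (Fin n → ℤ_[p])) (P : Subgroup G)
  [Fintype P]

theorem exists_fun (hP : Nat.card P = p) {w : Fin n → ℤ_[p]} (hw : w ∈ fixM ρ P)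
    (hw' : w ∉ LinearMap.range (nrm ρ P)) :
    ∃ f : (Fin n → ℤ_[p]) →ₗ[ℤ_[p]] ℤ_[p], (∀ x ∈ P, ∀ m, f (ρ x m) = f m) ∧
      ¬ (p : ℤ_[p]) ∣ f w := by
  have hnv : nrm ρ P w = (p : ℤ_[p]) • w := by rw [nrm_of_fix ρ P hw, hP]
  have hpv : (p : ℤ_[p]) • w ∈ LinearMap.range (nrm ρ P) := ⟨w, hnv⟩
  obtain ⟨φ, hφ⟩ := exists_functional (LinearMap.range (nrm ρ P)) ⟨(p : ℤ_[p]) • w, hpv⟩ (by
    rintro ⟨⟨z, hz⟩, hz2⟩
    have h1 : (p : ℤ_[p]) • w = (p : ℤ_[p]) • z := congrArg Subtype.val hz2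
    rw [smul_p_inj h1] at hw'
    exact hw' hz)
  refine ⟨φ ∘ₗ (nrm ρ P).rangeRestrict, ?_, ?_⟩
  · intro x hx m
    rw [LinearMap.comp_apply, LinearMap.comp_apply]
    congr 1
    exact Subtype.ext (nrm_rho ρ P hx m)
  · rw [LinearMap.comp_apply]
    have : (nrm ρ P).rangeRestrict w = ⟨(p : ℤ_[p]) • w, hpv⟩ := Subtype.ext hnv
    rw [this]
    exact hφ

theorem fun_nrm (hP : Nat.card P = p) {f : (Fin n → ℤ_[p]) →ₗ[ℤ_[p]] ℤ_[p]}
    (hf : ∀ x ∈ P, ∀ m, f (ρ x m) = f m) (m : Fin n → ℤ_[p]) : f (nrm ρ P m) = (p : ℤ_[p]) * f m := by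
  rw [nrm_apply, map_sum]
  have : ∀ x : P, f (ρ x m) = f m := fun x => hf x x.2 m
  simp only [this]
  rw [Finset.sum_const, Finset.card_univ, ← Nat.card_eq_fintype_card, hP, nsmul_eq_mul]

theorem dvd_of_smul_mem (S : Submodule ℤ_[p] (Fin n → ℤ_[p])) {a : ℤ_[p]} {w : Fin n → ℤ_[p]}
    (hw : w ∉ S) (h : a • w ∈ S) : (p : ℤ_[p]) ∣ a := by
  by_contra hcon
  exact hw (mem_of_unit_smul S (isUnit_of_not_dvd hcon) h)

theorem nrm_stable {g : G} (hg : g ∈ Subgroup.normalizer (P : Set G)) {s : Fin n → ℤ_[p]}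
    (hs : s ∈ LinearMap.range (nrm ρ P)) : ρ g s ∈ LinearMap.range (nrm ρ P) := by
  obtain ⟨m, rfl⟩ := hs
  exact ⟨ρ g m, nrm_rho_normalizer ρ P hg m⟩

theorem pow_eig {h : G} (hh : h ∈ Subgroup.normalizer (P : Set G)) {w : Fin n → ℤ_[p]} {c : ℤ_[p]}
    (hc : ρ h w - c • w ∈ LinearMap.range (nrm ρ P)) (k : ℕ) :
    ρ (h ^ k) w - c ^ k • w ∈ LinearMap.range (nrm ρ P) := by
  rw [rho_pow_eq]
  exact pow_sub_mem _ (ρ h) (fun s hs => nrm_stable ρ P hh hs) hc k

theorem pow_order {h : G} (hh : h ∈ Subgroup.normalizer (P : Set G)) {w : Fin n → ℤ_[p]} {c : ℤ_[p]}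
    (hw' : w ∉ LinearMap.range (nrm ρ P))
    (hc : ρ h w - c • w ∈ LinearMap.range (nrm ρ P)) : (p : ℤ_[p]) ∣ c ^ orderOf h - 1 := by
  have h1 := pow_eig ρ P hh hc (orderOf h)
  rw [pow_orderOf_eq_one, map_one, Module.End.one_apply] at h1
  refine dvd_of_smul_mem _ hw' ?_
  rw [sub_smul, one_smul, ← neg_sub]
  exact Submodule.neg_mem _ h1

end H81.Wt
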