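import Cfsg.Agent.Lib.H81.Wt1

set_option autoImplicit false
set_option linter.unusedSectionVars false

/-!
Weights of orthogonal lattices are different; the weight of the dual lattice.
-/

namespace H81.Wt

open Cfsg H18.CharBasic H18.CharOrtho H18.CharInd H21.PLat Module MulAction

universe u

variable {p : ℕ} [hp : Fact p.Prime] {G : Type u} [Group G] [Fintype G]

section sep

variable {n m : ℕ} (ρ : Representation ℤ_[p] G (Fin n → ℤ_[p]))
    (σ : Representation ℤ_[p] G (Fin m → ℤ_[p])) (P : Subgroup G) [Fintype P]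

/-- weights of orthogonal lattices are different -/
theorem wt_ne (hP : Nat.card P = p) (hidx : ¬ p ∣ P.index)
    (h0 : classInner (cchar σ) (cchar ρ) = 0) {h : G}
    (hh : h ∈ Subgroup.normalizer (P : Set G))
    (hN : ∀ g ∈ Subgroup.normalizer (P : Set G), ∃ (k : ℕ), ∃ x ∈ P, g = h ^ k * x)
    {w : Fin n → ℤ_[p]} {c : ℤ_[p]} (hw : w ∈ fixM ρ P) (hw' : w ∉ LinearMap.range (nrm ρ P))
    (hc : ρ h w - c • w ∈ LinearMap.range (nrm ρ P))
    {v : Fin m → ℤ_[p]} {d : ℤ_[p]} (hv : v ∈ fixM σ P) (hv' : v ∉ LinearMap.range (nrm σ P))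
    (hd : σ h v - d • v ∈ LinearMap.range (nrm σ P)) : ¬ (p : ℤ_[p]) ∣ c - d := by
  classical
  intro hcd
  have hPp : (Nat.card P).Prime := by rw [hP]; exact hp.out
  obtain ⟨f, hf, hfw⟩ := exists_fun ρ P hP hw hw'
  have : Fintype (G ⧸ P) := Fintype.ofFinite _
  -- the equivariant map
  let T : (Fin n → ℤ_[p]) →ₗ[ℤ_[p]] (Fin m → ℤ_[p]) :=
    ∑ g : G, (f ∘ₗ ρ g⁻¹).smulRight (σ g v)
  have hTa : ∀ a, T a = ∑ g : G, f (ρ g⁻¹ a) • σ g v := by
    intro a
    simp only [T, LinearMap.sum_apply]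
    rfl
  have hT : ∀ g a, T (ρ g a) = σ g (T a) := by
    intro g a
    rw [hTa, hTa, map_sum, ← Equiv.sum_comp (Equiv.mulLeft g)]
    refine Finset.sum_congr rfl fun x _ => ?_
    rw [Equiv.coe_mulLeft, mul_inv_rev, map_smul, rho_mul, rho_mul, rho_inv_mul]
  have hT0 := hom_zero ρ σ T hT h0
  have hTw : ∑ g : G, f (ρ g⁻¹ w) • σ g v = 0 := by rw [← hTa, hT0]; rfl
  -- the function on cosets
  let F : G → (Fin m → ℤ_[p]) := fun g => f (ρ g⁻¹ w) • σ g v
  have hFr : ∀ g, ∀ x ∈ P, F (g * x) = F g := by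
    intro g x hx
    simp only [F]
    rw [mul_inv_rev, rho_mul, hf _ (inv_mem hx), rho_mul, hv x hx]
  let Fq : G ⧸ P → (Fin m → ℤ_[p]) := fun q => F q.out
  have hFq : ∀ g : G, Fq (g : G ⧸ P) = F g := by
    intro g
    obtain ⟨x, hx⟩ := QuotientGroup.mk_out_eq_mul P g
    simp only [Fq]
    rw [hx, hFr g x x.2]
  have hsumq : ∑ g : G, F g = (p : ℤ_[p]) • ∑ q : G ⧸ P, Fq q := by
    rw [← Finset.sum_fiberwise (s := (Finset.univ : Finset G)) (g := fun g : G => (g : G ⧸ P)) (f := F),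
      Finset.smul_sum]
    refine Finset.sum_congr rfl fun q _ => ?_
    obtain ⟨g0, rfl⟩ := QuotientGroup.mk_surjective q
    have h1 : (Finset.univ.filter fun g : G => (g : G ⧸ P) = (g0 : G ⧸ P)) =
        Finset.univ.image (fun x : P => g0 * (x : G)) := by
      ext g
      rw [Finset.mem_filter, Finset.mem_image]
      constructor
      · rintro ⟨-, h2⟩
        have h3 := QuotientGroup.eq.1 h2.symm
        exact ⟨⟨_, h3⟩, Finset.mem_univ _, by simp⟩
      · rintro ⟨x, -, rfl⟩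
        refine ⟨Finset.mem_univ _, ?_⟩
        symm
        rw [QuotientGroup.eq]
        simp
    rw [h1, Finset.sum_image (fun x _ y _ hxy => Subtype.ext (mul_left_cancel hxy)), hFq]
    have h2 : ∀ x : P, F (g0 * (x : G)) = F g0 := fun x => hFr g0 x x.2
    simp only [h2]
    rw [Finset.sum_const, Finset.card_univ, ← Nat.card_eq_fintype_card, hP, Nat.cast_smul_eq_nsmul]
  have hq0 : ∑ q : G ⧸ P, Fq q = 0 := by
    have h1 : (p : ℤ_[p]) • ∑ q : G ⧸ P, Fq q = (p : ℤ_[p]) • 0 := by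
      rw [← hsumq, smul_zero]
      exact hTw
    exact smul_p_inj h1
  -- non-fixed cosets
  have hnf := sum_nonfixed_mem (Ω := G ⧸ P) (P := P) hPp (LinearMap.range (nrm σ P)) Fq (by
    intro q _
    obtain ⟨g, rfl⟩ := QuotientGroup.mk_surjective q
    refine ⟨F g, ?_⟩
    rw [nrm_apply]
    refine Finset.sum_congr rfl fun x _ => ?_
    have h1 : x • (g : G ⧸ P) = (((x : G) * g : G) : G ⧸ P) := rfl
    rw [h1, hFq]
    simp only [F]
    rw [mul_inv_rev, rho_mul, hw _ (inv_mem x.2), rho_mul, map_smul])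
  -- eigenvalues on the normalizer
  have hNr := hN
  choose! k x hx hgx using hNr
  have he1 : ∀ g ∈ Subgroup.normalizer (P : Set G), ρ g w - c ^ k g • w ∈ LinearMap.range (nrm ρ P) := by
    intro g hg
    have h1 := pow_eig ρ P hh hc (k g)
    have h2 : ρ g w = ρ (h ^ k g) w := by
      conv_lhs => rw [hgx g hg]
      rw [rho_mul, hw _ (hx g hg)]
    rw [h2]
    exact h1
  have he2 : ∀ g ∈ Subgroup.normalizer (P : Set G), σ g v - d ^ k g • v ∈ LinearMap.range (nrm σ P) := by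
    intro g hg
    have h1 := pow_eig σ P hh hd (k g)
    have h2 : σ g v = σ (h ^ k g) v := by
      conv_lhs => rw [hgx g hg]
      rw [rho_mul, hv _ (hx g hg)]
    rw [h2]
    exact h1
  have hinv : ∀ g ∈ Subgroup.normalizer (P : Set G), (p : ℤ_[p]) ∣ c ^ k g⁻¹ * d ^ k g - 1 := by
    intro g hg
    have h1 := nrm_stable ρ P hg (he1 g⁻¹ (inv_mem hg))
    rw [map_sub, map_smul, rho_mul_inv] at h1
    have h2 := (LinearMap.range (nrm ρ P)).smul_mem (c ^ k g⁻¹) (he1 g hg)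
    rw [smul_sub, smul_smul] at h2
    have h3 := Submodule.add_mem _ h1 h2
    have h4 : w - c ^ k g⁻¹ • ρ g w + (c ^ k g⁻¹ • ρ g w - (c ^ k g⁻¹ * c ^ k g) • w) =
      (1 - c ^ k g⁻¹ * c ^ k g) • w := by
      rw [sub_smul, one_smul]; abel
    rw [h4] at h3
    have h5 := dvd_of_smul_mem _ hw' h3
    have h6 : (p : ℤ_[p]) ∣ c ^ k g - d ^ k g := hcd.trans (sub_dvd_pow_sub_pow _ _ _)
    have h7 : c ^ k g⁻¹ * d ^ k g - 1 = -(1 - c ^ k g⁻¹ * c ^ k g) - c ^ k g⁻¹ * (c ^ k g - d ^ k g) := by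
      ring
    rw [h7]
    exact dvd_sub ((dvd_neg).2 h5) (h6.mul_left _)
  -- fixed cosets
  have hpv : (p : ℤ_[p]) • v ∈ LinearMap.range (nrm σ P) := ⟨v, by rw [nrm_of_fix σ P hv, hP]⟩
  have hfix : ∀ q ∈ Finset.univ.filter (fun q : G ⧸ P => q ∈ fixedPoints P (G ⧸ P)),
      Fq q - f w • v ∈ LinearMap.range (nrm σ P) := by
    intro q hq
    obtain ⟨g, rfl⟩ := QuotientGroup.mk_surjective q
    have hg := (mem_fixedPoints_iff' P).1 (Finset.mem_filter.1 hq).2
    rw [hFq]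
    simp only [F]
    obtain ⟨m1, hm1⟩ := he1 g⁻¹ (inv_mem hg)
    obtain ⟨m2, hm2⟩ := he2 g hg
    obtain ⟨t, ht⟩ := hinv g hg
    have e1 : ρ g⁻¹ w = c ^ k g⁻¹ • w + nrm ρ P m1 := by rw [hm1]; abel
    have e2 : σ g v = d ^ k g • v + nrm σ P m2 := by rw [hm2]; abel
    rw [e1, map_add, map_smul, fun_nrm ρ P hP hf, e2, smul_eq_mul]
    have e5 : (c ^ k g⁻¹ * f w + (p : ℤ_[p]) * f m1) • (d ^ k g • v + nrm σ P m2) - f w • v =
        (f w * t + f m1 * d ^ k g) • ((p : ℤ_[p]) • v) +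
          (c ^ k g⁻¹ * f w + (p : ℤ_[p]) * f m1) • nrm σ P m2 := by
      have e6 : c ^ k g⁻¹ * d ^ k g = 1 + p * t := by rw [← ht]; ring
      rw [smul_add, smul_smul, smul_smul]
      have e7 : (c ^ k g⁻¹ * f w + (p : ℤ_[p]) * f m1) * d ^ k g =
          (f w * t + f m1 * d ^ k g) * (p : ℤ_[p]) + f w := by
        linear_combination f w * e6
      rw [e7, add_smul]
      abel
    rw [e5]
    exact Submodule.add_mem _ (Submodule.smul_mem _ _ hpv) (Submodule.smul_mem _ _ ⟨m2, rfl⟩)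
  have h3 := Submodule.sum_mem _ hfix
  rw [Finset.sum_sub_distrib, Finset.sum_const, ← Nat.cast_smul_eq_nsmul ℤ_[p]] at h3
  have h4 := Submodule.sub_mem _ h3 (Submodule.neg_mem _ hnf)
  rw [sub_neg_eq_add, sub_add_eq_add_sub, Finset.sum_filter_add_sum_filter_not, hq0, zero_sub,
    smul_smul] at h4
  have h5 := Submodule.neg_mem _ h4
  rw [neg_neg] at h5
  have h6 := dvd_of_smul_mem _ hv' h5
  rcases prime_p.dvd_or_dvd h6 with h7 | h7
  · exact card_fixed P hP hidx (natCast_dvd.1 h7)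
  · exact hfw h7

end sep

end H81.Wt
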