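import Cfsg.Agent.Lib.H81.Wt2

set_option autoImplicit false
set_option linter.unusedSectionVars false

/-!
The weight of the dual lattice.
-/

namespace H81.Wt

open Cfsg H18.CharBasic H18.CharOrtho H18.CharInd H21.PLat Module MulAction

universe u

variable {p : ℕ} [hp : Fact p.Prime] {G : Type u} [Group G]

section dual

variable {n : ℕ} (ρ : Representation ℤ_[p] G (Fin n → ℤ_[p]))

/-- the dual lattice in coordinates -/
noncomputable def dl : Representation ℤ_[p] G (Fin n → ℤ_[p]) where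
  toFun g := Matrix.toLin' (LinearMap.toMatrix' (ρ g⁻¹)).transpose
  map_one' := by
    rw [inv_one, map_one, LinearMap.toMatrix'_one, Matrix.transpose_one, Matrix.toLin'_one]
    rfl
  map_mul' g h := by
    rw [mul_inv_rev, map_mul, LinearMap.toMatrix'_mul, Matrix.transpose_mul, Matrix.toLin'_mul]
    rfl

theorem dl_apply (g : G) : dl ρ g = Matrix.toLin' (LinearMap.toMatrix' (ρ g⁻¹)).transpose := rfl

theorem dl_dot (g : G) (a b : Fin n → ℤ_[p]) : (dl ρ g a) ⬝ᵥ b = a ⬝ᵥ (ρ g⁻¹ b) := by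
  rw [dl_apply, Matrix.toLin'_apply, Matrix.mulVec_transpose, ← Matrix.dotProduct_mulVec]
  congr 1
  have := Matrix.toLin'_apply (LinearMap.toMatrix' (ρ g⁻¹)) b
  rw [Matrix.toLin'_toMatrix'] at this
  exact this.symm

theorem cchar_dl [Finite G] : cchar (dl ρ) = fun g => (starRingEnd ℂ) (cchar ρ g) := by
  funext g
  rw [← char_inv (isCharacter_cchar ρ)]
  change emb p _ = emb p _
  rw [dl_apply, Matrix.trace_toLin'_eq, Matrix.trace_transpose,
    LinearMap.trace_eq_matrix_trace ℤ_[p] (Pi.basisFun _ _)]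
  rfl

variable [Fintype G] (P : Subgroup G) [Fintype P]

theorem dl_nrm_dot (hP : Nat.card P = p) {w : Fin n → ℤ_[p]} (hw : w ∈ fixM ρ P)
    (a : Fin n → ℤ_[p]) : (nrm (dl ρ) P a) ⬝ᵥ w = (p : ℤ_[p]) * (a ⬝ᵥ w) := by
  rw [nrm_apply, sum_dotProduct]
  have : ∀ x : P, (dl ρ x a) ⬝ᵥ w = a ⬝ᵥ w := by
    intro x
    rw [dl_dot, hw _ (inv_mem x.2)]
  simp only [this]
  rw [Finset.sum_const, Finset.card_univ, ← Nat.card_eq_fintype_card, hP, nsmul_eq_mul]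

theorem fix_stable {g : G} (hg : g ∈ Subgroup.normalizer (P : Set G)) {a : Fin n → ℤ_[p]}
    (ha : a ∈ fixM ρ P) : ρ g a ∈ fixM ρ P := by
  intro x hx
  have h3 : ρ x (ρ g a) = ρ g (ρ (g⁻¹ * x * g) a) := by
    rw [← rho_mul, ← rho_mul]
    congr 2
    group
  have h4 : g⁻¹ * x * g ∈ P := by
    have := (Subgroup.mem_normalizer_iff.1 (inv_mem hg) x).1 hx
    simpa using this
  rw [h3, ha _ h4]

theorem exists_dual (hP : Nat.card P = p) {h : G} (hh : h ∈ Subgroup.normalizer (P : Set G))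
    (hs : ¬ p ∣ orderOf h) {w : Fin n → ℤ_[p]} {c : ℤ_[p]} (hw : w ∈ fixM ρ P)
    (hw' : w ∉ LinearMap.range (nrm ρ P)) (hc : ρ h w - c • w ∈ LinearMap.range (nrm ρ P)) :
    ∃ (v : Fin n → ℤ_[p]) (d : ℤ_[p]), v ∈ fixM (dl ρ) P ∧ v ∉ LinearMap.range (nrm (dl ρ) P) ∧
      dl ρ h v - d • v ∈ LinearMap.range (nrm (dl ρ) P) ∧ c * d = 1 := by
  classical
  obtain ⟨f, hf, hfw⟩ := exists_fun ρ P hP hw hw'
  -- the vector of the functional
  obtain ⟨a, ha⟩ : ∃ a : Fin n → ℤ_[p], ∀ m, a ⬝ᵥ m = f m := by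
    refine ⟨fun i => f (Pi.single i 1), fun m => ?_⟩
    conv_rhs => rw [pi_eq_sum_univ' m, map_sum]
    rw [dotProduct]
    refine Finset.sum_congr rfl fun i _ => ?_
    rw [map_smul, smul_eq_mul, mul_comm]
  have hext : ∀ a b : Fin n → ℤ_[p], (∀ m, a ⬝ᵥ m = b ⬝ᵥ m) → a = b := fun a b hab =>
    (dotProduct_eq_iff).1 hab
  have hafix : a ∈ fixM (dl ρ) P := by
    intro x hx
    apply hext
    intro m
    rw [dl_dot, ha, ha, hf _ (inv_mem hx)]
  -- `c` is a unit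
  obtain ⟨t, ht⟩ := pow_order ρ P hh hw' hc
  have hs0 : 0 < orderOf h := orderOf_pos h
  have hcu : IsUnit c := by
    apply isUnit_of_not_dvd
    intro hd
    have h1 : (p : ℤ_[p]) ∣ 1 := by
      have h2 : (1 : ℤ_[p]) = c ^ orderOf h - p * t := by rw [← ht]; ring
      rw [h2]
      exact dvd_sub (hd.trans (dvd_pow_self _ hs0.ne')) (dvd_mul_right _ _)
    exact prime_p.not_dvd_one h1
  obtain ⟨u, rfl⟩ := hcu
  set s := orderOf h with hsdef
  -- the averaged vector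
  let v : Fin n → ℤ_[p] := ∑ k ∈ Finset.range s, (u : ℤ_[p]) ^ k • dl ρ (h ^ k) a
  have hvfix : v ∈ fixM (dl ρ) P := by
    refine Submodule.sum_mem _ fun k _ => Submodule.smul_mem _ _ ?_
    exact fix_stable (dl ρ) P (pow_mem hh k) hafix
  have hvw : (p : ℤ_[p]) ∣ v ⬝ᵥ w - (s : ℤ_[p]) * f w := by
    have h1 : v ⬝ᵥ w - (s : ℤ_[p]) * f w =
        ∑ k ∈ Finset.range s, ((u : ℤ_[p]) ^ k * (dl ρ (h ^ k) a ⬝ᵥ w) - f w) := by
      rw [Finset.sum_sub_distrib, Finset.sum_const, Finset.card_range, nsmul_eq_mul]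
      congr 1
      simp only [v]
      rw [sum_dotProduct]
      refine Finset.sum_congr rfl fun k _ => ?_
      rw [smul_dotProduct, smul_eq_mul]
    rw [h1]
    refine Finset.dvd_sum fun k _ => ?_
    obtain ⟨m, hm⟩ := pow_eig ρ P hh hc k
    have h2 : w = (u : ℤ_[p]) ^ k • ρ (h ^ k)⁻¹ w + nrm ρ P (ρ (h ^ k)⁻¹ m) := by
      have h3 : ρ (h ^ k) w = (u : ℤ_[p]) ^ k • w + nrm ρ P m := by rw [hm]; abel
      have h4 := congrArg (fun z => ρ (h ^ k)⁻¹ z) h3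
      rw [rho_inv_mul, map_add, map_smul, ← nrm_rho_normalizer ρ P (inv_mem (pow_mem hh k))] at h4
      exact h4
    have h5 : f w = (u : ℤ_[p]) ^ k * f (ρ (h ^ k)⁻¹ w) + p * f (ρ (h ^ k)⁻¹ m) := by
      conv_lhs => rw [h2]
      rw [map_add, map_smul, fun_nrm ρ P hP hf, smul_eq_mul]
    rw [dl_dot, ha, h5]
    refine ⟨-f (ρ (h ^ k)⁻¹ m), ?_⟩
    ring
  have hstep : (u : ℤ_[p]) • dl ρ h v - v = ((u : ℤ_[p]) ^ s - 1) • a := by
    have h1 : (u : ℤ_[p]) • dl ρ h v = ∑ k ∈ Finset.range s, (u : ℤ_[p]) ^ (k + 1) • dl ρ (h ^ (k + 1)) a := by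
      simp only [v]
      rw [map_sum, Finset.smul_sum]
      refine Finset.sum_congr rfl fun k _ => ?_
      rw [map_smul, smul_smul, ← rho_mul, ← pow_succ', ← pow_succ']
    have h2 := Finset.sum_range_succ (fun k => (u : ℤ_[p]) ^ k • dl ρ (h ^ k) a) s
    have h3 := Finset.sum_range_succ' (fun k => (u : ℤ_[p]) ^ k • dl ρ (h ^ k) a) s
    rw [h2] at h3
    rw [h1, sub_smul]
    have h4 : dl ρ (h ^ s) a = a := by
      rw [hsdef, pow_orderOf_eq_one, map_one]; rfl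
    have h5 : dl ρ (h ^ 0) a = a := by rw [pow_zero, map_one]; rfl
    rw [h4, h5, pow_zero] at h3
    have h6 : ∑ k ∈ Finset.range s, (u : ℤ_[p]) ^ (k + 1) • dl ρ (h ^ (k + 1)) a = v +
        (u : ℤ_[p]) ^ s • a - (1 : ℤ_[p]) • a := by
      rw [eq_sub_iff_add_eq]
      exact h3.symm
    rw [h6]
    abel
  refine ⟨v, ((u⁻¹ : ℤ_[p]ˣ) : ℤ_[p]), hvfix, ?_, ?_, Units.mul_inv u⟩
  · rintro ⟨b, hb⟩
    rw [← hb, dl_nrm_dot ρ P hP hw] at hvw
    have h1 : (p : ℤ_[p]) ∣ (s : ℤ_[p]) * f w := (dvd_sub_right (dvd_mul_right _ _)).1 hvw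
    rcases prime_p.dvd_or_dvd h1 with h7 | h7
    · exact hs (natCast_dvd.1 h7)
    · exact hfw h7
  · have h1 : dl ρ h v - ((u⁻¹ : ℤ_[p]ˣ) : ℤ_[p]) • v =
        ((u⁻¹ : ℤ_[p]ˣ) : ℤ_[p]) • (((u : ℤ_[p]) ^ s - 1) • a) := by
      rw [← hstep, smul_sub, smul_smul, Units.inv_mul, one_smul]
    rw [h1, ht, mul_comm, mul_smul, smul_comm]
    refine Submodule.smul_mem _ _ (Submodule.smul_mem _ _ ?_)
    exact ⟨a, by rw [nrm_of_fix (dl ρ) P hafix, hP]⟩

end dual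

end H81.Wt
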