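import Cfsg.Agent.Lib.H81.Wt3

set_option autoImplicit false
set_option linter.unusedSectionVars false

/-!
Existence of weights for irreducible characters with positive sum over `P \ 1`.
-/

namespace H81.Wt

open Cfsg H18.CharBasic H18.CharOrtho H18.CharInd H21.PLat Module MulAction

universe u

variable {p : ℕ} [hp : Fact p.Prime] {G : Type u} [Group G] [Fintype G]

/-- `f` is the character of a lattice with an eigenvector of weight `κ` -/
def HasWt (p : ℕ) [hp : Fact p.Prime] {G : Type u} [Group G] (P : Subgroup G) [Fintype P] (h : G)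
    (f : G → ℂ) (κ : ZMod p) : Prop :=
  ∃ (n : ℕ) (ρ : Representation ℤ_[p] G (Fin n → ℤ_[p])) (w : Fin n → ℤ_[p]) (c : ℤ_[p]),
    cchar ρ = f ∧ w ∈ fixM ρ P ∧ w ∉ LinearMap.range (nrm ρ P) ∧
      ρ h w - c • w ∈ LinearMap.range (nrm ρ P) ∧ PadicInt.toZMod c = κ

theorem toZMod_eq_iff {a b : ℤ_[p]} : PadicInt.toZMod a = PadicInt.toZMod b ↔ (p : ℤ_[p]) ∣ a - b := by
  rw [← sub_eq_zero, ← map_sub, ← RingHom.mem_ker, PadicInt.ker_toZMod,
    PadicInt.maximalIdeal_eq_span_p, Ideal.mem_span_singleton]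

section basic

variable {P : Subgroup G} [Fintype P] {h : G}

theorem HasWt.ne (hP : Nat.card P = p) (hidx : ¬ p ∣ P.index)
    (hh : h ∈ Subgroup.normalizer (P : Set G))
    (hN : ∀ g ∈ Subgroup.normalizer (P : Set G), ∃ (k : ℕ), ∃ x ∈ P, g = h ^ k * x)
    {f f' : G → ℂ} {κ κ' : ZMod p} (h1 : HasWt p P h f κ) (h2 : HasWt p P h f' κ')
    (h0 : classInner f' f = 0) : κ ≠ κ' := by
  obtain ⟨n, ρ, w, c, rfl, hw, hw', hc, rfl⟩ := h1
  obtain ⟨m, σ, v, d, rfl, hv, hv', hd, rfl⟩ := h2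
  intro hκ
  exact wt_ne ρ σ P hP hidx h0 hh hN hw hw' hc hv hv' hd (toZMod_eq_iff.1 hκ)

theorem HasWt.dual (hP : Nat.card P = p) (hh : h ∈ Subgroup.normalizer (P : Set G))
    (hs : ¬ p ∣ orderOf h) {f : G → ℂ} {κ : ZMod p} (h1 : HasWt p P h f κ) :
    HasWt p P h (fun g => (starRingEnd ℂ) (f g)) κ⁻¹ := by
  obtain ⟨n, ρ, w, c, rfl, hw, hw', hc, rfl⟩ := h1
  obtain ⟨v, d, hv, hv', hd, hcd⟩ := exists_dual ρ P hP hh hs hw hw' hc
  refine ⟨n, dl ρ, v, d, cchar_dl ρ, hv, hv', hd, ?_⟩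
  have h2 := congrArg (PadicInt.toZMod (p := p)) hcd
  rw [map_mul, map_one] at h2
  exact (inv_eq_of_mul_eq_one_right h2).symm

theorem HasWt.pow (hh : h ∈ Subgroup.normalizer (P : Set G)) {f : G → ℂ} {κ : ZMod p}
    (h1 : HasWt p P h f κ) : κ ^ orderOf h = 1 := by
  obtain ⟨n, ρ, w, c, rfl, hw, hw', hc, rfl⟩ := h1
  have h2 := pow_order ρ P hh hw' hc
  have h3 := (toZMod_eq_iff (p := p) (a := c ^ orderOf h) (b := 1)).2 h2
  rwa [map_pow, map_one] at h3

end basic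

section exist

variable {x0 : G} [Fintype (Subgroup.zpowers x0)]

theorem mem_fix_iff {n : ℕ} (ρ : Representation ℤ_[p] G (Fin n → ℤ_[p])) {v : Fin n → ℤ_[p]} :
    v ∈ fixM ρ (Subgroup.zpowers x0) ↔ ρ x0 v = v := by
  constructor
  · intro h
    exact h x0 (Subgroup.mem_zpowers x0)
  · intro h x hx
    let S : Subgroup G :=
      { carrier := {g | ρ g v = v}
        one_mem' := by change ρ 1 v = v; rw [map_one]; rfl
        mul_mem' := fun {a b} ha hb => by
          change ρ (a * b) v = v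
          rw [rho_mul, hb, ha]
        inv_mem' := fun {a} ha => by
          change ρ a⁻¹ v = v
          conv_lhs => rw [← ha]
          rw [rho_inv_mul] }
    have h1 : Subgroup.zpowers x0 ≤ S := by
      rw [Subgroup.zpowers_le]
      exact h
    exact h1 hx

theorem exists_not_nrm (hx0 : orderOf x0 = p) {n : ℕ}
    (ρ : Representation ℤ_[p] G (Fin n → ℤ_[p]))
    (hlt : n < p * finrank ℤ_[p] (fixM ρ (Subgroup.zpowers x0))) :
    ∃ v ∈ fixM ρ (Subgroup.zpowers x0), v ∉ LinearMap.range (nrm ρ (Subgroup.zpowers x0)) := by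
  by_contra hcon
  push Not at hcon
  have hx0p : x0 ^ p = 1 := orderOf_dvd_iff_pow_eq_one.1 (by rw [hx0])
  have hY : (ρ x0) ^ p = 1 := by rw [← map_pow, hx0p, map_one]
  have hkA : kA (ρ x0) = fixM ρ (Subgroup.zpowers x0) := by
    ext v
    rw [mem_kA, mem_fix_iff]
  have hform := index_formula (p := p) (ρ x0) hY
  have hrk := finrank_add (p := p) (ρ x0) hY
  have hi0 : (nmA (ρ x0) hY).range.index = 1 := by
    rw [AddSubgroup.index_eq_one, eq_top_iff]
    rintro ⟨a, ha⟩ _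
    rw [hkA] at ha
    obtain ⟨m, hm⟩ := hcon a ha
    refine ⟨m, Subtype.ext ?_⟩
    change nm (p := p) (ρ x0) m = a
    rw [← hm, nrm_eq_sum x0 hx0, nm, LinearMap.sum_apply]
    refine Finset.sum_congr rfl fun i _ => ?_
    rw [map_pow]
  rw [hi0, one_pow, mul_one] at hform
  have hp2 := hp.out.two_le
  set rA := finrank ℤ_[p] (kA (ρ x0)) with hrA
  set rB := finrank ℤ_[p] (kB (p := p) (ρ x0)) with hrB
  have hle : (p - 1) * rA ≤ rB := by
    have h1 : p ^ ((p - 1) * rA) ∣ p ^ rB := ⟨_, hform.symm⟩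
    exact (Nat.pow_dvd_pow_iff_le_right hp.out.one_lt).1 h1
  rw [finrank_fin_fun] at hrk
  rw [← hkA, ← hrA] at hlt
  obtain ⟨q, rfl⟩ : ∃ q, p = q + 1 := ⟨p - 1, by omega⟩
  simp only [Nat.add_sub_cancel] at hle
  have h3 : (q + 1) * rA = q * rA + rA := by ring
  omega

theorem exists_wt_of_lt (hx0 : orderOf x0 = p) {h : G}
    (hh : h ∈ Subgroup.normalizer (Subgroup.zpowers x0 : Set G)) (hhp : h ^ (p - 1) = 1) {n : ℕ}
    (ρ : Representation ℤ_[p] G (Fin n → ℤ_[p]))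
    (hlt : n < p * finrank ℤ_[p] (fixM ρ (Subgroup.zpowers x0))) :
    ∃ κ, HasWt p (Subgroup.zpowers x0) h (cchar ρ) κ := by
  obtain ⟨v, hv, hv'⟩ := exists_not_nrm hx0 ρ hlt
  have hPc : Nat.card (Subgroup.zpowers x0) = p := by rw [Nat.card_zpowers, hx0]
  obtain ⟨w, c, hw, hw', hwc⟩ := exists_eigen (ρ h) (fixM ρ (Subgroup.zpowers x0))
    (LinearMap.range (nrm ρ (Subgroup.zpowers x0))) (fun a ha => fix_stable ρ _ hh ha)
    (fun s hs => nrm_stable ρ _ hh hs)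
    (fun a ha => ⟨a, by rw [nrm_of_fix ρ _ ha, hPc]⟩)
    (fun a ha => by
      rw [← rho_pow_eq, hhp, map_one, Module.End.one_apply, sub_self]
      exact zero_mem _) hv hv'
  exact ⟨_, n, ρ, w, c, rfl, hw, hw', hwc, rfl⟩

end exist

end H81.Wt
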