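import Cfsg.Agent.Lib.H81.Wt4

set_option autoImplicit false
set_option linter.unusedSectionVars false

/-!
Irreducible characters with positive sum over `P \ 1` have weights.
-/

namespace H81.Wt

open Cfsg H18.CharBasic H18.CharOrtho H18.CharInd H21.PLat Module MulAction

universe u

variable {p : ℕ} [hp : Fact p.Prime] {G : Type u} [Group G] [Fintype G]

section exist

variable {x0 : G} [Fintype (Subgroup.zpowers x0)]

theorem exists_lat (hx0 : orderOf x0 = p) (hidx : ¬ p ∣ (Subgroup.zpowers x0).index) {h : G}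
    (hh : h ∈ Subgroup.normalizer (Subgroup.zpowers x0 : Set G)) (hhp : h ^ (p - 1) = 1)
    (hN : ∀ g ∈ Subgroup.normalizer (Subgroup.zpowers x0 : Set G), ∃ (k : ℕ),
      ∃ x ∈ Subgroup.zpowers x0, g = h ^ k * x) {χ : G → ℂ} (hχ : IsIrrCharacter G χ) {k : ℤ}
    (hk : 0 < k) (hK : kap (Subgroup.zpowers x0) ⊥ χ = k) :
    ∃ f κ, HasWt p (Subgroup.zpowers x0) h f κ ∧ IsCharacter G f ∧
      kap (Subgroup.zpowers x0) ⊥ f = p - 1 ∧ classInner f χ ≠ 0 ∧
      ∀ ψ, IsIrrCharacter G ψ → classInner f ψ ≠ 0 →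
        kap (Subgroup.zpowers x0) ⊥ ψ * χ 1 = k * ψ 1 := by
  classical
  let _ : Fintype (IrrCharacter G) := Fintype.ofFinite _
  obtain ⟨n, ρ, hirr, hne⟩ := exists_irr p hχ
  have hnat : ∀ ψ : IrrCharacter G, ∃ m : ℕ, classInner (cchar ρ) (ψ : G → ℂ) = m := fun ψ =>
    inner_char_natCast (isCharacter_cchar ρ) (isCharacter_of_isIrr ψ.2)
  choose m hm using hnat
  have hexp := mem_classFun_expand (isClassFunction_of_isCharacter (isCharacter_cchar ρ))
  have hkap : kap (Subgroup.zpowers x0) ⊥ (cchar ρ) =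
      ∑ ψ, (m ψ : ℂ) * kap (Subgroup.zpowers x0) ⊥ (ψ : G → ℂ) := by
    conv_lhs => rw [hexp]
    rw [kap_sum]
    exact Finset.sum_congr rfl fun ψ _ => by rw [hm]
  have hrat : ∀ ψ, IsIrrCharacter G ψ → classInner (cchar ρ) ψ ≠ 0 →
      kap (Subgroup.zpowers x0) ⊥ ψ * χ 1 = k * ψ 1 := by
    intro ψ hψ hψn
    rw [← hK]
    exact ratio_eq hirr _ _ bot_le hχ hne hψ hψn
  have hcard1 : Nat.card (⊥ : Subgroup G) = 1 := Subgroup.card_bot
  obtain ⟨δ, hδ, hkd⟩ := kap_cchar hirr x0 hx0 hidx (Subgroup.zpowers x0) ⊥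
    (fun u hu => by rw [Subgroup.mem_bot.1 hu, one_mul, mul_one])
    (by rw [hcard1]; exact hp.out.one_lt.ne' ∘ Nat.dvd_one.1) h hh
    (by rw [Subgroup.mem_normalizer_iff]; intro g; simp) (fun g hg => by
      obtain ⟨k, x, hx, hgx⟩ := hN g hg
      exact ⟨k, x, hx, 1, one_mem _, by rw [mul_one]; exact hgx⟩)
    ⟨1, one_mem _, 1, one_mem _, by rw [mul_one]; exact hhp⟩ le_rfl bot_le
    (fun c hc => ⟨c, hc, 1, one_mem _, (mul_one c).symm⟩)
    (by rw [hcard1, mul_one, Nat.card_zpowers, hx0])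
  rw [hcard1, Nat.cast_one, one_mul] at hkd
  have h1 : kap (Subgroup.zpowers x0) ⊥ (cchar ρ) * χ 1 = k * cchar ρ 1 := by
    rw [hkap, Finset.sum_mul]
    have h2 : cchar ρ 1 = ∑ ψ, (m ψ : ℂ) * (ψ : G → ℂ) 1 := by
      conv_lhs => rw [hexp]
      rw [Finset.sum_apply]
      exact Finset.sum_congr rfl fun ψ _ => by rw [hm]; rfl
    rw [h2, Finset.mul_sum]
    refine Finset.sum_congr rfl fun ψ _ => ?_
    by_cases h0 : m ψ = 0
    · rw [h0]; simp
    · rw [mul_assoc, hrat ψ ψ.2 (by rw [hm]; exact_mod_cast h0)]; ring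
  have hn : 0 < n := by
    rcases Nat.eq_zero_or_pos n with h0 | h0
    · exfalso
      subst h0
      apply hne
      have : cchar ρ = 0 := by
        funext g
        have h3 := char_norm_le (isCharacter_cchar ρ) g
        rw [cchar_one, Nat.cast_zero, Complex.zero_re] at h3
        exact norm_le_zero_iff.1 h3
      rw [this, H18.CharOrtho.inner_zero_left]
    · exact h0
  have hδ1 : δ = 1 := by
    obtain ⟨d, hd0, hd⟩ := exists_degree_pos hχ
    rw [hkd, cchar_one, hd] at h1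
    have h2 : (δ : ℤ) * (p - 1) * d = k * n := by exact_mod_cast h1
    have h3 : 0 < k * (n : ℤ) := mul_pos hk (by exact_mod_cast hn)
    have hp1 : (0 : ℤ) < (p : ℤ) - 1 := by have := hp.out.one_lt; omega
    have hd1 : (0 : ℤ) < d := by exact_mod_cast hd0
    rcases hδ with h0 | h0 | h0
    · rw [h0] at h2; simp at h2; omega
    · exact h0
    · rw [h0] at h2
      have h4 : 0 < ((p : ℤ) - 1) * d := mul_pos hp1 hd1
      nlinarith
  rw [hδ1, Int.cast_one, one_mul] at hkd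
  have hlt : n < p * finrank ℤ_[p] (fixM ρ (Subgroup.zpowers x0)) := by
    have h2 := congrArg (emb p) (card_mul_finrank (ρ := ρ) (Subgroup.zpowers x0))
    rw [map_mul, map_natCast, map_natCast, map_sum, Nat.card_zpowers, hx0] at h2
    have : Fintype (⊥ : Subgroup G) := Fintype.ofFinite _
    rw [kap_eq _ _ bot_le] at hkd
    have h3 : ∑ x : (⊥ : Subgroup G), cchar ρ x = n := by
      have h4 : ∀ x : (⊥ : Subgroup G), cchar ρ x = n := by
        intro x
        rw [Subgroup.mem_bot.1 x.2, cchar_one]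
      rw [Finset.sum_congr rfl (fun x _ => h4 x), Finset.sum_const, Finset.card_univ,
        ← Nat.card_eq_fintype_card, hcard1, one_smul]
    rw [h3] at hkd
    have h5 : (p : ℂ) * (finrank ℤ_[p] (fixM ρ (Subgroup.zpowers x0)) : ℂ) - n = p - 1 := by
      rw [h2, ← hkd]
      rfl
    have h6 : ((p : ℤ) * (finrank ℤ_[p] (fixM ρ (Subgroup.zpowers x0)) : ℤ)) - n = p - 1 := by
      exact_mod_cast h5
    have hp1 := hp.out.one_lt
    have h7 : ((p * finrank ℤ_[p] (fixM ρ (Subgroup.zpowers x0)) : ℕ) : ℤ) = n + (p - 1) := by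
      push_cast
      linarith
    omega
  obtain ⟨κ, hκ⟩ := exists_wt_of_lt hx0 hh hhp ρ hlt
  exact ⟨cchar ρ, κ, hκ, isCharacter_cchar ρ, hkd, hne, hrat⟩

/-- a lattice character containing an irreducible character of full weight is irreducible -/
theorem eq_of_full {f : G → ℂ} (hf : IsCharacter G f) (x0 : G) {χ : G → ℂ} {k : ℤ} (hk : 0 < k)
    (hχ : IsIrrCharacter G χ) (hfk : kap (Subgroup.zpowers x0) ⊥ f = p - 1)
    (hrat : ∀ ψ, IsIrrCharacter G ψ → classInner f ψ ≠ 0 →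
        kap (Subgroup.zpowers x0) ⊥ ψ * χ 1 = k * ψ 1)
    {ψ₀ : G → ℂ} (hψ₀ : IsIrrCharacter G ψ₀) (hne : classInner f ψ₀ ≠ 0)
    (hkψ : kap (Subgroup.zpowers x0) ⊥ ψ₀ = p - 1) : f = ψ₀ := by
  classical
  let _ : Fintype (IrrCharacter G) := Fintype.ofFinite _
  have hnat : ∀ ψ : IrrCharacter G, ∃ m : ℕ, classInner f (ψ : G → ℂ) = m := fun ψ =>
    inner_char_natCast hf (isCharacter_of_isIrr ψ.2)
  choose m hm using hnat
  have hexp := mem_classFun_expand (isClassFunction_of_isCharacter hf)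
  have hkap : kap (Subgroup.zpowers x0) ⊥ f =
      ∑ ψ, (m ψ : ℂ) * kap (Subgroup.zpowers x0) ⊥ (ψ : G → ℂ) := by
    conv_lhs => rw [hexp]
    rw [kap_sum]
    exact Finset.sum_congr rfl fun ψ _ => by rw [hm]
  have hint : ∀ ψ : IrrCharacter G, ∃ t : ℤ, kap (Subgroup.zpowers x0) ⊥ (ψ : G → ℂ) = t :=
    fun ψ => kap_int _ _ bot_le (isCharacter_of_isIrr ψ.2)
  choose t ht using hint
  have hpos : ∀ ψ : IrrCharacter G, m ψ ≠ 0 → 0 < t ψ := by
    intro ψ hψ
    have h1 := hrat ψ ψ.2 (by rw [hm]; exact_mod_cast hψ)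
    obtain ⟨d, hd0, hd⟩ := exists_degree_pos hχ
    obtain ⟨d', hd0', hd'⟩ := exists_degree_pos ψ.2
    rw [ht, hd, hd'] at h1
    have h2 : t ψ * d = k * d' := by exact_mod_cast h1
    have h3 : 0 < k * (d' : ℤ) := mul_pos hk (by exact_mod_cast hd0')
    rw [← h2] at h3
    exact pos_of_mul_pos_left h3 (by exact_mod_cast hd0.le)
  let Ψ : IrrCharacter G := ⟨ψ₀, hψ₀⟩
  have hmΨ : m Ψ ≠ 0 := by
    intro h0
    apply hne
    have := hm Ψ
    rw [h0, Nat.cast_zero] at this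
    exact this
  have htΨ : t Ψ = p - 1 := by
    have := ht Ψ
    rw [show ((Ψ : G → ℂ)) = ψ₀ from rfl, hkψ] at this
    exact_mod_cast this.symm
  have hsum : ∑ ψ, (m ψ : ℤ) * t ψ = p - 1 := by
    have h1 : ∑ ψ, (m ψ : ℂ) * (t ψ : ℂ) = p - 1 := by
      rw [← hfk, hkap]
      exact Finset.sum_congr rfl fun ψ _ => by rw [ht]
    exact_mod_cast h1
  have hnn : ∀ ψ ∈ (Finset.univ : Finset (IrrCharacter G)).erase Ψ, 0 ≤ (m ψ : ℤ) * t ψ := by
    intro ψ _
    by_cases h0 : m ψ = 0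
    · rw [h0]; simp
    · exact mul_nonneg (by positivity) (hpos ψ h0).le
  rw [← Finset.add_sum_erase _ _ (Finset.mem_univ Ψ), htΨ] at hsum
  have hp1 : (0 : ℤ) < (p : ℤ) - 1 := by have := hp.out.one_lt; omega
  have h1 : (1 : ℤ) ≤ m Ψ := by
    have : 0 < m Ψ := Nat.pos_of_ne_zero hmΨ
    exact_mod_cast this
  have h2 := Finset.sum_nonneg hnn
  have h3 : (m Ψ : ℤ) = 1 := by nlinarith
  have h4 : ∑ ψ ∈ (Finset.univ : Finset (IrrCharacter G)).erase Ψ, (m ψ : ℤ) * t ψ = 0 := by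
    rw [h3] at hsum; linarith
  have h5 := (Finset.sum_eq_zero_iff_of_nonneg hnn).1 h4
  rw [hexp, Finset.sum_eq_single Ψ]
  · rw [hm]
    have : (m Ψ : ℂ) = 1 := by exact_mod_cast h3
    rw [this, one_smul]
  · intro ψ _ hψ
    have h6 := h5 ψ (Finset.mem_erase.2 ⟨hψ, Finset.mem_univ _⟩)
    by_cases h0 : m ψ = 0
    · rw [hm, h0, Nat.cast_zero, zero_smul]
    · exfalso
      have h7 := hpos ψ h0
      have h8 : (0 : ℤ) < m ψ := by exact_mod_cast Nat.pos_of_ne_zero h0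
      have := mul_pos h8 h7
      omega
  · intro h; exact absurd (Finset.mem_univ _) h

end exist

end H81.Wt
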